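import Mathlib.GroupTheory.SpecificGroups.KleinFour
import Cfsg.Agent.Lib.Transfer.Fusion
import Cfsg.Agent.Lib.Involution.Basic

/-!
Classes of involutions; Klein four Sylow subgroups.
-/

set_option autoImplicit false

namespace Cfsg.Agent.Lib.Involution

open Subgroup

variable {G : Type*} [Group G]

/-- The number of classes of elements of order `k`. -/
noncomputable abbrev numClasses (G : Type*) [Group G] (k : ℕ) : ℕ :=
  Nat.card {C : ConjClasses G // ∃ t : G, orderOf t = k ∧ ConjClasses.mk t = C}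

lemma numClasses_eq_one {k : ℕ} {t : G} (ht : orderOf t = k)
    (h : ∀ a b : G, orderOf a = k → orderOf b = k → IsConj a b) : numClasses G k = 1 := by
  rw [numClasses, Nat.card_eq_one_iff_exists]
  refine ⟨⟨ConjClasses.mk t, t, ht, rfl⟩, ?_⟩
  rintro ⟨C, a, ha, rfl⟩
  exact Subtype.ext (ConjClasses.mk_eq_mk_iff_isConj.mpr (h a t ha ht))

lemma numClasses_eq_card {k : ℕ} {α : Type*} (f : α → G) (hf : ∀ a, orderOf (f a) = k)
    (hinj : ∀ a b, IsConj (f a) (f b) → a = b) (hsur : ∀ g : G, orderOf g = k → ∃ a, IsConj g (f a)) :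
    numClasses G k = Nat.card α := by
  symm
  refine Nat.card_eq_of_bijective (fun a => ⟨ConjClasses.mk (f a), f a, hf a, rfl⟩) ⟨?_, ?_⟩
  · intro a b h
    exact hinj a b (ConjClasses.mk_eq_mk_iff_isConj.mp (congrArg Subtype.val h))
  · rintro ⟨C, g, hg, rfl⟩
    obtain ⟨a, ha⟩ := hsur g hg
    exact ⟨a, Subtype.ext (ConjClasses.mk_eq_mk_iff_isConj.mpr ha.symm)⟩

lemma exists_conj_mem_sylow [Finite G] (P : Sylow 2 G) {g : G} {k : ℕ} (hg : orderOf g = 2 ^ k) :
    ∃ c : G, c * g * c⁻¹ ∈ P := by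
  have : Fact (Nat.Prime 2) := ⟨Nat.prime_two⟩
  obtain ⟨Q, hQ⟩ := (IsPGroup.of_card (p := 2) (n := k)
    (by rw [Nat.card_zpowers, hg] : Nat.card (zpowers g) = 2 ^ k)).exists_le_sylow
  obtain ⟨c, hc⟩ := MulAction.exists_smul_eq G Q P
  refine ⟨c, ?_⟩
  rw [← hc]
  exact smul_mem_pointwise_smul _ _ _ (hQ (mem_zpowers g))

lemma eq_of_isConj_of_complement [Finite G] {P : Subgroup G} (hP : IsMulCommutative P)
    {N : Subgroup G} [N.Normal] (hc : N.IsComplement' P) {a b : G} (ha : a ∈ P) (hb : b ∈ P)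
    (h : IsConj a b) : a = b := by
  obtain ⟨g, rfl⟩ := isConj_iff.mp h
  obtain ⟨⟨n, q⟩, hnq, -⟩ := hc.existsUnique g
  simp only at hnq
  have hcq : (q : G) * a = a * q := congrArg Subtype.val (hP.is_comm.comm q ⟨a, ha⟩)
  have h1 : g * a * g⁻¹ * a⁻¹ ∈ N := by
    rw [← hnq]
    have : (n : G) * q * a * ((n : G) * q)⁻¹ * a⁻¹ = n * (a * (n : G)⁻¹ * a⁻¹) := by
      rw [mul_assoc (n : G) (q : G) a, hcq]; group
    rw [this]
    exact mul_mem n.2 (‹N.Normal›.conj_mem _ (inv_mem n.2) a)
  have h2 : g * a * g⁻¹ * a⁻¹ ∈ P := mul_mem hb (inv_mem ha)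
  exact (mul_inv_eq_one.mp (disjoint_def.mp hc.disjoint h1 h2)).symm

theorem klein_sylow_cases [Finite G] (P : Sylow 2 G) (hP : IsKleinFour (P : Subgroup G)) :
    (numClasses G 2 = 1 ∧ ¬ ∃ N : Subgroup G, N.Normal ∧ IsComplement' N (P : Subgroup G)) ∨
    (numClasses G 2 = 3 ∧ ∃ N : Subgroup G, N.Normal ∧ IsComplement' N (P : Subgroup G)) := by
  classical
  have : Fact (Nat.Prime 2) := ⟨Nat.prime_two⟩
  have hab : IsMulCommutative (P : Subgroup G) :=
    IsKleinFour.isMulCommutative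
  have hfus := Cfsg.Agent.Lib.Transfer.controlsFusion_normalizer P hab
  have h4 : Nat.card (P : Subgroup G) = 4 := hP.card_four
  have hord : ∀ a : G, a ∈ P → a ≠ 1 → orderOf a = 2 := fun a ha h1 =>
    orderOf_two_of (congrArg Subtype.val (IsKleinFour.mul_self (G := (P : Subgroup G)) ⟨a, ha⟩)) h1
  by_cases hC : normalizer (P : Set G) ≤ centralizer (P : Set G)
  · refine Or.inr ⟨?_, _, inferInstance, MonoidHom.ker_transferSylow_isComplement' P hC⟩
    rw [numClasses_eq_card (α := {a : (P : Subgroup G) // a ≠ 1}) (fun a => (a.1 : G))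
      (fun a => hord _ a.1.2 (fun h => a.2 (OneMemClass.coe_eq_one.mp h)))]
    · rw [Nat.card_congr (Equiv.subtypeEquivRight (fun a : (P : Subgroup G) => Iff.rfl))]
      have := Fintype.ofFinite (P : Subgroup G)
      rw [Nat.card_eq_fintype_card, Fintype.card_subtype_compl, Fintype.card_subtype_eq,
        ← Nat.card_eq_fintype_card, h4]
    · intro a b h
      apply Subtype.ext
      apply Subtype.ext
      exact eq_of_isConj_of_complement hab (MonoidHom.ker_transferSylow_isComplement' P hC) a.1.2 b.1.2 h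
    · intro g hg
      obtain ⟨c, hc⟩ := exists_conj_mem_sylow P (k := 1) (by simpa using hg)
      refine ⟨⟨⟨_, hc⟩, ?_⟩, isConj_iff.mpr ⟨c, rfl⟩⟩
      intro h
      simp only [Subgroup.mk_eq_one, conj_eq_one_iff] at h
      exact ne_one hg h
  · obtain ⟨g, hgN, hgC⟩ := SetLike.not_le_iff_exists.mp hC
    have hmove : ∃ a ∈ (P : Subgroup G), g * a * g⁻¹ ≠ a := by
      by_contra h
      push Not at h
      exact hgC (mem_centralizer_iff.mpr fun a ha => (mul_inv_eq_iff_eq_mul.mp (h a ha)).symm)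
    obtain ⟨a, ha, hga⟩ := hmove
    have hconjP : ∀ w ∈ (P : Subgroup G), g * w * g⁻¹ ∈ (P : Subgroup G) :=
      fun w hw => (mem_normalizer_iff.mp hgN w).mp hw
    set b := g * a * g⁻¹ with hb
    have hbP : b ∈ (P : Subgroup G) := hconjP a ha
    have hgb : g * b * g⁻¹ ≠ a := by
      intro he
      have hc2 : Commute (g ^ 2) a := by
        rw [hb] at he
        have h0 : g ^ 2 * a * (g ^ 2)⁻¹ = a := by
          calc g ^ 2 * a * (g ^ 2)⁻¹ = g * (g * a * g⁻¹) * g⁻¹ := by simp [pow_two, mul_assoc]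
            _ = a := he
        exact mul_inv_eq_iff_eq_mul.mp h0
      have hgg : ∀ k : ℕ, (g ^ 2) ^ k * a * ((g ^ 2) ^ k)⁻¹ = a := fun k => by
        rw [(hc2.pow_left k).eq, mul_inv_cancel_right]
      obtain ⟨k, m, hm, he2⟩ :=
        Nat.exists_eq_pow_mul_and_not_dvd (orderOf_pos g).ne' 2 (by norm_num)
      have hm' : Odd m := Nat.not_even_iff_odd.mp fun h => hm h.two_dvd
      obtain ⟨j, hj⟩ := hm'
      have h2 : g ^ m ∈ (P : Subgroup G) := by
        have hm2 : IsPGroup 2 (zpowers (g ^ m)) := by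
          refine IsPGroup.of_card (n := k) ?_
          rw [Nat.card_zpowers, orderOf_pow' _ (by omega), he2, Nat.gcd_mul_left_left,
            Nat.mul_div_cancel _ (by omega)]
        have hn2 : zpowers (g ^ m) ≤ normalizer (P : Set G) := zpowers_le.mpr (pow_mem hgN m)
        have := IsPGroup.to_sup_of_normal_left' P.isPGroup' hm2 hn2
        have hP' := P.is_maximal' this le_sup_left
        rw [← hP']
        exact le_sup_right (a := (P : Subgroup G)) (mem_zpowers (g ^ m))
      have hc := congrArg Subtype.val (hab.is_comm.comm ⟨_, h2⟩ ⟨a, ha⟩)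
      simp only [Subgroup.coe_mul] at hc
      apply hga
      have h3 : g ^ m * a * (g ^ m)⁻¹ = a := by rw [hc, mul_inv_cancel_right]
      rw [hj, pow_succ', pow_mul] at h3
      have h4 : g ^ 2 * a * (g ^ 2)⁻¹ = a := by simpa using hgg 1
      calc g * a * g⁻¹ = g * ((g ^ 2) ^ j * a * ((g ^ 2) ^ j)⁻¹) * g⁻¹ := by rw [hgg]
        _ = g * (g ^ 2) ^ j * a * (g * (g ^ 2) ^ j)⁻¹ := by group
        _ = a := h3
    have ha1 : a ≠ 1 := fun h => hga (by simp [hb, h])
    have hb1 : b ≠ 1 := by rw [hb]; simpa using ha1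
    have hcl : ∀ w ∈ (P : Subgroup G), w ≠ 1 → IsConj w a := by
      intro w hw hw1
      by_cases hwa : w = a
      · rw [hwa]
      by_cases hwb : w = b
      · rw [hwb]; exact (isConj_iff.mpr ⟨g, rfl⟩ : IsConj a b).symm
      have hc : g * b * g⁻¹ = w := by
        have hcP : g * b * g⁻¹ ∈ (P : Subgroup G) := hconjP b hbP
        have hc1 : g * b * g⁻¹ ≠ 1 := by simpa using hb1
        have hcb : g * b * g⁻¹ ≠ b := by
          intro h
          apply hga
          have h' := (MulAut.conj g).injective (show MulAut.conj g b = MulAut.conj g a from h.trans hb)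
          exact h'
        by_contra hne
        have := Fintype.ofFinite (P : Subgroup G)
        have h5 : ({1, ⟨a, ha⟩, ⟨b, hbP⟩, ⟨_, hcP⟩, ⟨w, hw⟩} : Finset (P : Subgroup G)).card = 5 := by
          rw [Finset.card_insert_of_notMem, Finset.card_insert_of_notMem,
            Finset.card_insert_of_notMem, Finset.card_insert_of_notMem, Finset.card_singleton]
          all_goals simp only [Finset.mem_insert, Finset.mem_singleton, Subtype.ext_iff,
            OneMemClass.coe_one, not_or]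
          · exact hne
          · exact ⟨hcb.symm, Ne.symm hwb⟩
          · exact ⟨Ne.symm hga, Ne.symm hgb, Ne.symm hwa⟩
          · exact ⟨ha1.symm, hb1.symm, hc1.symm, hw1.symm⟩
        have := Finset.card_le_univ ({1, ⟨a, ha⟩, ⟨b, hbP⟩, ⟨_, hcP⟩, ⟨w, hw⟩} : Finset (P : Subgroup G))
        rw [h5, ← Nat.card_eq_fintype_card, h4] at this
        omega
      exact (isConj_iff.mpr ⟨g, hc⟩ : IsConj b w).symm.trans
        (isConj_iff.mpr ⟨g, rfl⟩ : IsConj a b).symm
    refine Or.inl ⟨numClasses_eq_one (hord a ha ha1) ?_, ?_⟩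
    · have key : ∀ u : G, orderOf u = 2 → IsConj u a := by
        intro u hu
        obtain ⟨c, hc⟩ := exists_conj_mem_sylow P (k := 1) (by simpa using hu)
        refine (isConj_iff.mpr ⟨c, rfl⟩ : IsConj u _).trans (hcl _ hc ?_)
        simpa using ne_one hu
      exact fun u v hu hv => (key u hu).trans (key v hv).symm
    · rintro ⟨N, hN, hc⟩
      exact hga (eq_of_isConj_of_complement hab hc ha hbP (isConj_iff.mpr ⟨g, rfl⟩)).symm

end Cfsg.Agent.Lib.Involution
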