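import Cfsg.Agent.Lib.Involution.FischerOrderM24

/-! Type M(24): a set of 24 pairwise commuting members, the parity on the group it generates and the sets of its
members that commute with an outside member. -/

set_option autoImplicit false
set_option maxHeartbeats 800000

namespace Cfsg.Agent.Lib.Involution.FischerTwentyFour

open Cfsg Cfsg.Agent.Lib.ThreeTransp Cfsg.Agent.Lib.Involution.FischerRel
open Cfsg.Agent.Lib.Involution.FischerTwentyTwo (Nb nb_conj nb_symm prod_mul_self' conj_list_prod)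

open scoped _root_.Classical

universe u

variable {G : Type u} [Group G]

/-- The product of a finite set of members. -/
noncomputable def pr (s : Finset G) : G := s.toList.prod

/-- The parity of a product of base members. -/
noncomputable def chi (B : Finset G) (a : G) : ℤˣ :=
  if ∃ s ⊆ B, pr s = a ∧ Even s.card then 1 else -1

/-- The base members commuting with `c`. -/
noncomputable def pat (B : Finset G) (c : G) : Finset G := B.filter fun x => Commute c x

theorem mem_pat {B : Finset G} {c x : G} : x ∈ pat B c ↔ x ∈ B ∧ Commute c x := Finset.mem_filter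

theorem pat_subset (B : Finset G) (c : G) : pat B c ⊆ B := Finset.filter_subset _ _

/-- The members outside the base commuting with all of `Q`. -/
def W (D : Set G) (B Q : Finset G) : Set G := {x | x ∈ D ∧ x ∉ B ∧ ∀ q ∈ Q, Commute x q}

variable [Finite G] {D : Set G}

/-- A set of 24 pairwise commuting members. -/
structure Base (D : Set G) (B : Finset G) : Prop where
  sub : ∀ x ∈ B, x ∈ D
  comm : ∀ x ∈ B, ∀ y ∈ B, Commute x y
  card : B.card = 24
  max : ∀ x ∈ D, (∀ y ∈ B, Commute x y) → x ∈ B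

variable {B : Finset G}

theorem pr_list (K : Base D B) {s : Finset G} (hs : s ⊆ B) {l : List G} (hn : l.Nodup)
    (h : ∀ x, x ∈ l ↔ x ∈ s) : l.prod = pr s :=
  ((List.perm_ext_iff_of_nodup hn s.nodup_toList).2 fun x => by rw [h, Finset.mem_toList]).prod_eq'
    (List.pairwise_of_forall_mem_list fun x hx y hy => K.comm x (hs ((h x).1 hx)) y (hs ((h y).1 hy)))

theorem pr_commute {x : G} {s : Finset G} (h : ∀ y ∈ s, Commute x y) : Commute x (pr s) :=
  Commute.list_prod_right _ _ fun y hy => h y (Finset.mem_toList.1 hy)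

theorem pr_empty : pr (∅ : Finset G) = 1 := by simp [pr]

theorem pr_singleton (x : G) : pr ({x} : Finset G) = x := by simp [pr]

theorem pr_union (K : Base D B) {s t : Finset G} (hs : s ⊆ B) (ht : t ⊆ B) (hd : Disjoint s t) :
    pr (s ∪ t) = pr s * pr t := by
  rw [pr, pr, pr, ← List.prod_append]
  refine (pr_list K (Finset.union_subset hs ht) ?_ fun x => by simp).symm
  exact List.nodup_append.2 ⟨s.nodup_toList, t.nodup_toList, fun a ha b hb e =>
    Finset.disjoint_left.1 hd (Finset.mem_toList.1 ha) (e ▸ Finset.mem_toList.1 hb)⟩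

variable (M : Hyp24 D) (K : Base D B)
include M K

theorem pr_sq {s : Finset G} (hs : s ⊆ B) : pr s * pr s = 1 :=
  prod_mul_self' M.tr _ (fun a ha => K.sub a (hs (Finset.mem_toList.1 ha)))
    fun a ha b hb => K.comm a (hs (Finset.mem_toList.1 ha)) b (hs (Finset.mem_toList.1 hb))

/-- The symmetric difference gives the product. -/
theorem pr_sd {s t : Finset G} (hs : s ⊆ B) (ht : t ⊆ B) : pr ((s \ t) ∪ (t \ s)) = pr s * pr t := by
  have h1 : s \ t ⊆ B := Finset.sdiff_subset.trans hs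
  have h2 : t \ s ⊆ B := Finset.sdiff_subset.trans ht
  have h3 : s ∩ t ⊆ B := Finset.inter_subset_left.trans hs
  have es : pr s = pr (s \ t) * pr (s ∩ t) := by
    rw [← pr_union K h1 h3 (Finset.disjoint_sdiff_inter s t), Finset.sdiff_union_inter]
  have et : pr t = pr (t \ s) * pr (s ∩ t) := by
    rw [Finset.inter_comm, ← pr_union K h2 (Finset.inter_subset_left.trans ht) (Finset.disjoint_sdiff_inter t s),
      Finset.sdiff_union_inter]
  have hc : Commute (pr (s ∩ t)) (pr (t \ s)) := pr_commute fun y hy => (pr_commute fun z hz =>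
    K.comm y (h2 hy) z (h3 hz)).symm
  rw [es, et, pr_union K h1 h2 disjoint_sdiff_sdiff, mul_assoc, ← mul_assoc (pr (s ∩ t)), hc.eq, mul_assoc,
    pr_sq M K h3, mul_one]

theorem pr_one {s : Finset G} (hs : s ⊆ B) (h : pr s = 1) : s.card = 0 ∨ 8 ≤ s.card := by
  by_contra hne
  rw [← s.length_toList] at hne
  refine no_rel M (n := s.toList.length) (by omega) (by omega)
    ⟨s.toList.get, List.nodup_iff_injective_get.1 s.nodup_toList,
      fun i => K.sub _ (hs (Finset.mem_toList.1 (List.get_mem _ _))),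
      fun i j => K.comm _ (hs (Finset.mem_toList.1 (List.get_mem _ _))) _
        (hs (Finset.mem_toList.1 (List.get_mem _ _))), ?_⟩
  rw [List.ofFn_get]
  exact h

omit M K in
theorem card_sd (s t : Finset G) : ((s \ t) ∪ (t \ s)).card + 2 * (s ∩ t).card = s.card + t.card := by
  rw [Finset.card_union_of_disjoint disjoint_sdiff_sdiff, ← Finset.card_sdiff_add_card_inter s t,
    ← Finset.card_sdiff_add_card_inter t s, Finset.inter_comm t s]
  ring

theorem pr_inj {s t : Finset G} (hs : s ⊆ B) (ht : t ⊆ B) (h : pr s = pr t) (hc : s.card + t.card ≤ 7) : s = t := by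
  have hsub : (s \ t) ∪ (t \ s) ⊆ B :=
    Finset.union_subset (Finset.sdiff_subset.trans hs) (Finset.sdiff_subset.trans ht)
  have h1 := pr_one M K hsub (by rw [pr_sd M K hs ht, h, pr_sq M K ht])
  have h2 := card_sd s t
  have h0 : (s \ t) ∪ (t \ s) = ∅ := Finset.card_eq_zero.1 (by omega)
  rw [Finset.union_eq_empty, Finset.sdiff_eq_empty_iff_subset, Finset.sdiff_eq_empty_iff_subset] at h0
  exact Finset.Subset.antisymm h0.1 h0.2

/-- A member commuting with a product of at most three base members commutes with each. -/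
theorem three_commute {c : G} (hc : c ∈ D) {s : Finset G} (hs : s ⊆ B) (h3 : s.card ≤ 3) (h : Commute c (pr s)) :
    ∀ x ∈ s, Commute c x := by
  intro x hx
  have hx' := Finset.mem_toList.2 hx
  have hm : ∀ y ∈ s.toList, y ∈ B := fun y hy => hs (Finset.mem_toList.1 hy)
  have hn := s.nodup_toList
  rw [← s.length_toList] at h3
  rw [pr] at h
  generalize s.toList = l at hx' hm hn h3 h
  rcases l with _ | ⟨u, _ | ⟨v, _ | ⟨w, _ | ⟨z, l⟩⟩⟩⟩
  · simp at hx'
  · simp only [List.mem_singleton] at hx'; subst hx'; simpa using h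
  · simp only [List.nodup_cons, List.mem_singleton, List.not_mem_nil, not_false_eq_true, List.nodup_nil, and_true] at hn
    simp only [List.prod_cons, List.prod_nil, mul_one] at h
    have huv := K.comm u (hm u (by simp)) v (hm v (by simp))
    simp only [List.mem_cons, List.not_mem_nil, or_false] at hx'
    rcases hx' with rfl | rfl
    · exact two M.tr hc (K.sub _ (hm _ (by simp))) (K.sub _ (hm _ (by simp))) hn huv h
    · exact two M.tr hc (K.sub _ (hm _ (by simp))) (K.sub _ (hm _ (by simp))) (Ne.symm hn) huv.symm (huv.eq ▸ h)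
  · simp only [List.nodup_cons, List.mem_cons, List.mem_singleton, List.not_mem_nil, not_false_eq_true,
      List.nodup_nil, and_true, or_false, not_or] at hn
    simp only [List.prod_cons, List.prod_nil, mul_one, ← mul_assoc] at h
    have h' := commute_of_commute_prod M.tr hc (K.sub u (hm u (by simp))) (K.sub v (hm v (by simp)))
      (K.sub w (hm w (by simp))) hn.2 hn.1.1 hn.1.2 (K.comm u (hm u (by simp)) v (hm v (by simp)))
      (K.comm u (hm u (by simp)) w (hm w (by simp))) (K.comm v (hm v (by simp)) w (hm w (by simp))) h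
    simp only [List.mem_cons, List.not_mem_nil, or_false] at hx'
    rcases hx' with rfl | rfl | rfl
    exacts [h'.1, h'.2.1, h'.2.2]
  · simp only [List.length_cons] at h3
    omega

/-- Five base members have the product of three. -/
theorem five {s : Finset G} (hs : s ⊆ B) (h5 : s.card = 5) : ∃ t ⊆ B, t.card = 3 ∧ pr t = pr s := by
  have hm : ∀ y ∈ s.toList, y ∈ B := fun y hy => hs (Finset.mem_toList.1 hy)
  have hmem : ∀ y, y ∈ s.toList ↔ y ∈ s := fun y => Finset.mem_toList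
  have hn := s.nodup_toList
  have hlen := s.length_toList
  rw [h5] at hlen
  generalize s.toList = l at hm hmem hn hlen
  rcases l with _ | ⟨a1, _ | ⟨a2, _ | ⟨a3, _ | ⟨a4, _ | ⟨a5, _ | ⟨a6, l⟩⟩⟩⟩⟩⟩ <;>
    simp only [List.length_nil, List.length_cons] at hlen <;> try omega
  simp only [List.nodup_cons, List.mem_cons, List.mem_singleton, List.not_mem_nil, not_false_eq_true,
    List.nodup_nil, and_true, or_false, not_or] at hn
  obtain ⟨⟨n12, n13, n14, n15⟩, ⟨n23, n24, n25⟩, ⟨n34, n35⟩, n45⟩ := hn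
  simp only [List.mem_cons, List.not_mem_nil, or_false, forall_eq_or_imp, forall_eq] at hm
  obtain ⟨b1, b2, b3, b4, b5⟩ := hm
  have hnb : ∀ {p q : G}, p ∈ B → q ∈ B → p ≠ q → q ∈ Nb D p := fun hp hq hne =>
    ⟨K.sub _ hq, Ne.symm hne, K.comm _ hp _ hq⟩
  set C := M.cv (K.sub a1 b1)
  have i2 := hnb b1 b2 n12
  have i3 := hnb b1 b3 n13
  have i4 := hnb b1 b4 n14
  have i5 := hnb b1 b5 n15
  obtain ⟨lx, hlx, hlxn, hlxm, hlxc, hlxp⟩ := FischerTwentyThree.second_triple C.hyp (C.pr_mem i2)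
    ((C.pr_nb i2 i3).2 (hnb b2 b3 n23)) ⟨(C.pr_nb i2 i4).2 (hnb b2 b4 n24), (C.pr_nb i3 i4).2 (hnb b3 b4 n34)⟩
    ⟨(C.pr_nb i2 i5).2 (hnb b2 b5 n25), (C.pr_nb i3 i5).2 (hnb b3 b5 n35), (C.pr_nb i4 i5).2 (hnb b4 b5 n45)⟩
  have hw := prod_mul_self' C.hyp.tr lx (fun e he => (hlxm e he).1) hlxc
  obtain ⟨e1, e2, e3, rfl⟩ := List.length_eq_three.1 hlx
  obtain ⟨x, hx, rfl⟩ := C.pr_surj (hlxm e1 (by simp)).1
  obtain ⟨y, hy, rfl⟩ := C.pr_surj (hlxm e2 (by simp)).1
  obtain ⟨z, hz, rfl⟩ := C.pr_surj (hlxm e3 (by simp)).1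
  simp only [List.nodup_cons, List.mem_cons, List.mem_singleton, List.not_mem_nil, not_false_eq_true,
    List.nodup_nil, and_true, or_false, not_or] at hlxn
  have hxy : Commute x y := (C.pr_comm hx hy).1 (hlxc _ (by simp) _ (by simp))
  have hxz : Commute x z := (C.pr_comm hx hz).1 (hlxc _ (by simp) _ (by simp))
  have hyz : Commute y z := (C.pr_comm hy hz).1 (hlxc _ (by simp) _ (by simp))
  have nxy : x ≠ y := fun e => hlxn.1.1 (by rw [e])
  have nxz : x ≠ z := fun e => hlxn.1.2 (by rw [e])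
  have nyz : y ≠ z := fun e => hlxn.2 (by rw [e])
  obtain ⟨hq, eq'⟩ := C.map_prod (l := [a3, a4, a5, a2]) (by
    simp only [List.mem_cons, List.not_mem_nil, or_false, forall_eq_or_imp, forall_eq]
    exact ⟨i3, i4, i5, i2⟩)
  obtain ⟨hp, ep⟩ := C.map_prod (l := [x, y, z]) (by
    simp only [List.mem_cons, List.not_mem_nil, or_false, forall_eq_or_imp, forall_eq]
    exact ⟨hx, hy, hz⟩)
  set q := [a3, a4, a5, a2].prod with hqdef
  set p := [x, y, z].prod with hpdef
  have e4 : ([a3, a4, a5, a2].map C.pr).prod = ([x, y, z].map C.pr).prod := by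
    simp only [List.map_cons, List.map_nil] at hlxp ⊢
    rw [hlxp]
    simp [mul_assoc]
  have hu : C.π (⟨q, hq⟩ * ⟨p, hp⟩) = 1 := by
    rw [map_mul, eq', ep, e4]
    simpa using hw
  have hrest : ({a3, a4, a5, a2} : Finset G) ⊆ B := by
    simp only [Finset.insert_subset_iff, Finset.singleton_subset_iff]; exact ⟨b3, b4, b5, b2⟩
  have hq1 : q = pr {a3, a4, a5, a2} := pr_list K hrest
    (by simp [n34, n35, Ne.symm n23, n45, Ne.symm n24, Ne.symm n25]) (by simp)
  have hqq : q * q = 1 := by rw [hq1]; exact pr_sq M K hrest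
  have hq2 : q * a1 = pr s := by
    rw [← pr_list K hs (l := [a3, a4, a5, a2, a1])
      (by simp [n34, n35, Ne.symm n23, Ne.symm n13, n45, Ne.symm n24, Ne.symm n14, Ne.symm n25, Ne.symm n15,
        Ne.symm n12])
      (fun w => by rw [← hmem]; simp only [List.mem_cons, List.not_mem_nil, or_false]; tauto)]
    simp [hqdef, mul_assoc]
  have hpv : p = pr {a3, a4, a5, a2} ∨ p = pr s := by
    rcases ker_cases M (K.sub a1 b1) _ hu with h | h
    · left
      simp only [Subgroup.coe_mul] at h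
      rw [← hq1]
      calc p = (q * q) * p := by rw [hqq, one_mul]
        _ = q := by rw [mul_assoc, h, mul_one]
    · right
      simp only [Subgroup.coe_mul] at h
      rw [← hq2]
      calc p = (q * q) * p := by rw [hqq, one_mul]
        _ = q * a1 := by rw [mul_assoc, h]
  have hcomm : ∀ w ∈ B, Commute w p := by
    intro w hw
    rcases hpv with h | h <;> rw [h]
    exacts [pr_commute fun v hv => K.comm w hw v (hrest hv), pr_commute fun v hv => K.comm w hw v (hs hv)]
  have hp3 : x * y * z = p := by simp [hpdef, mul_assoc]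
  have hin : ∀ w ∈ B, Commute w x ∧ Commute w y ∧ Commute w z := fun w hw =>
    commute_of_commute_prod M.tr (K.sub w hw) hx.1 hy.1 hz.1 nyz nxy nxz hxy hxz hyz (hp3 ▸ hcomm w hw)
  have bx : x ∈ B := K.max x hx.1 fun w hw => (hin w hw).1.symm
  have by' : y ∈ B := K.max y hy.1 fun w hw => (hin w hw).2.1.symm
  have bz : z ∈ B := K.max z hz.1 fun w hw => (hin w hw).2.2.symm
  have ht : ({x, y, z} : Finset G) ⊆ B := by
    simp only [Finset.insert_subset_iff, Finset.singleton_subset_iff]; exact ⟨bx, by', bz⟩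
  have htc : ({x, y, z} : Finset G).card = 3 := Finset.card_eq_three.2 ⟨x, y, z, nxy, nxz, nyz, rfl⟩
  have htp : pr {x, y, z} = p := (pr_list K ht (by simp [nxy, nxz, nyz]) (by simp)).symm
  rcases hpv with h | h
  · exfalso
    have h4 : ({a3, a4, a5, a2} : Finset G).card = 4 := by
      rw [Finset.card_insert_of_notMem (by simp [n34, n35, Ne.symm n23]),
        Finset.card_eq_three.2 ⟨a4, a5, a2, n45, Ne.symm n24, Ne.symm n25, rfl⟩]
    have := congrArg Finset.card (pr_inj M K ht hrest (htp.trans h) (by omega))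
    omega
  · exact ⟨_, ht, htc, htp.trans h⟩

/-- Every product of base members is one of at most four, with the same parity. -/
theorem small {s : Finset G} (hs : s ⊆ B) :
    ∃ t ⊆ B, t.card ≤ 4 ∧ pr t = pr s ∧ (Even t.card ↔ Even s.card) := by
  induction k : s.card using Nat.strong_induction_on generalizing s with
  | _ k ih =>
    by_cases h4 : s.card ≤ 4
    · exact ⟨s, hs, h4, rfl, by rw [k]⟩
    obtain ⟨u, hu, hu5⟩ := Finset.exists_subset_card_eq (s := s) (n := 5) (by omega)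
    obtain ⟨t, ht, ht3, htp⟩ := five M K (hu.trans hs) hu5
    have hsu : s \ u ⊆ B := Finset.sdiff_subset.trans hs
    set s' := ((s \ u) \ t) ∪ (t \ (s \ u)) with hs'
    have hps : pr s' = pr s := by
      rw [hs', pr_sd M K hsu ht, htp, ← pr_union K hsu (hu.trans hs) Finset.sdiff_disjoint,
        Finset.sdiff_union_of_subset hu]
    have hcard := card_sd (s \ u) t
    rw [← hs', ht3, Finset.card_sdiff_of_subset hu, hu5] at hcard
    obtain ⟨t', h1, h2, h3, h4'⟩ := ih s'.card (by omega) (s := s')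
      (Finset.union_subset (Finset.sdiff_subset.trans hsu) (Finset.sdiff_subset.trans ht)) rfl
    refine ⟨t', h1, h2, h3.trans hps, h4'.trans ?_⟩
    rw [← k]
    rw [Nat.even_iff, Nat.even_iff]
    omega

/-- No relation of odd length holds in the base. -/
theorem even_of_pr_one {s : Finset G} (hs : s ⊆ B) (h : pr s = 1) : Even s.card := by
  obtain ⟨t, ht, ht4, htp, hte⟩ := small M K hs
  rcases pr_one M K ht (htp.trans h) with e | e
  · exact hte.1 (by rw [e]; exact Even.zero)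
  · omega

theorem chi_pr {s : Finset G} (hs : s ⊆ B) : chi B (pr s) = (-1) ^ s.card := by
  unfold chi
  split_ifs with h
  · obtain ⟨t, ht, htp, hte⟩ := h
    have hsub : (s \ t) ∪ (t \ s) ⊆ B :=
      Finset.union_subset (Finset.sdiff_subset.trans hs) (Finset.sdiff_subset.trans ht)
    have h1 := even_of_pr_one M K hsub (by rw [pr_sd M K hs ht, htp, pr_sq M K hs])
    have h2 := card_sd s t
    rw [Nat.even_iff] at h1 hte
    rw [Even.neg_one_pow (Nat.even_iff.2 (by omega))]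
  · rw [Odd.neg_one_pow (Nat.not_even_iff_odd.1 fun he => h ⟨s, hs, rfl, he⟩)]

theorem exists_pr {a : G} (ha : a ∈ Subgroup.closure (B : Set G)) : ∃ s ⊆ B, pr s = a := by
  induction ha using Subgroup.closure_induction with
  | mem x hx => exact ⟨{x}, Finset.singleton_subset_iff.2 hx, pr_singleton x⟩
  | one => exact ⟨∅, Finset.empty_subset _, pr_empty⟩
  | mul x y _ _ hx hy =>
    obtain ⟨s, hs, rfl⟩ := hx
    obtain ⟨t, ht, rfl⟩ := hy
    exact ⟨_, Finset.union_subset (Finset.sdiff_subset.trans hs) (Finset.sdiff_subset.trans ht), pr_sd M K hs ht⟩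
  | inv x _ hx =>
    obtain ⟨s, hs, rfl⟩ := hx
    exact ⟨s, hs, (inv_eq_of_mul_eq_one_right (pr_sq M K hs)).symm⟩

omit M K in
theorem pr_mem {s : Finset G} (hs : s ⊆ B) : pr s ∈ Subgroup.closure (B : Set G) :=
  Subgroup.list_prod_mem _ fun _ hx => Subgroup.subset_closure (hs (Finset.mem_toList.1 hx))

theorem chi_mul {a b : G} (ha : a ∈ Subgroup.closure (B : Set G)) (hb : b ∈ Subgroup.closure (B : Set G)) :
    chi B (a * b) = chi B a * chi B b := by
  obtain ⟨s, hs, rfl⟩ := exists_pr M K ha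
  obtain ⟨t, ht, rfl⟩ := exists_pr M K hb
  rw [← pr_sd M K hs ht, chi_pr M K hs, chi_pr M K ht,
    chi_pr M K (Finset.union_subset (Finset.sdiff_subset.trans hs) (Finset.sdiff_subset.trans ht)), ← pow_add,
    ← card_sd s t, pow_add _ _ (2 * _), pow_mul, neg_one_sq, one_pow, mul_one]

theorem chi_member {x : G} (hx : x ∈ B) : chi B x = -1 := by
  conv_lhs => rw [← pr_singleton x]
  rw [chi_pr M K (Finset.singleton_subset_iff.2 hx), Finset.card_singleton, pow_one]

/-- Elements permuting the base keep the parity. -/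
theorem chi_conj {g a : G} (hg : ∀ x ∈ B, g * x * g⁻¹ ∈ B) (ha : a ∈ Subgroup.closure (B : Set G)) :
    g * a * g⁻¹ ∈ Subgroup.closure (B : Set G) ∧ chi B (g * a * g⁻¹) = chi B a := by
  obtain ⟨s, hs, rfl⟩ := exists_pr M K ha
  have hinj : Function.Injective fun x => g * x * g⁻¹ := fun p q h => mul_left_cancel (mul_right_cancel h)
  have hsub : s.image (fun x => g * x * g⁻¹) ⊆ B := fun x hx => by
    obtain ⟨y, hy, rfl⟩ := Finset.mem_image.1 hx
    exact hg y (hs hy)
  have e : g * pr s * g⁻¹ = pr (s.image fun x => g * x * g⁻¹) := by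
    rw [pr, conj_list_prod]
    exact pr_list K hsub (s.nodup_toList.map hinj) fun x => by simp
  rw [e]
  exact ⟨pr_mem hsub, by rw [chi_pr M K hsub, chi_pr M K hs, Finset.card_image_of_injective _ hinj]⟩

theorem card_closure : 4096 ≤ Nat.card ↥(Subgroup.closure (B : Set G)) := by
  set A := Subgroup.closure (B : Set G)
  haveI := Fintype.ofFinite ↥A
  have hle : (B.powersetCard 3 ∪ B.powersetCard 2).card ≤ Nat.card ↥A := by
    rw [← SetLike.coe_sort_coe, Nat.card_coe_set_eq, ← Set.ncard_coe_finset]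
    refine Set.ncard_le_ncard_of_injOn pr (fun s hs => ?_) (fun s hs t ht e => ?_) (Set.toFinite _)
    · simp only [Finset.mem_coe, Finset.mem_union, Finset.mem_powersetCard] at hs
      exact pr_mem (hs.elim (fun h => h.1) fun h => h.1)
    · simp only [Finset.mem_coe, Finset.mem_union, Finset.mem_powersetCard] at hs ht
      exact pr_inj M K (hs.elim (fun h => h.1) fun h => h.1) (ht.elim (fun h => h.1) fun h => h.1) e
        (by rcases hs with ⟨-, h⟩ | ⟨-, h⟩ <;> rcases ht with ⟨-, h'⟩ | ⟨-, h'⟩ <;> omega)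
  rw [Finset.card_union_of_disjoint (Finset.disjoint_left.2 fun s h1 h2 => by
    rw [Finset.mem_powersetCard] at h1 h2; omega), Finset.card_powersetCard, Finset.card_powersetCard, K.card,
    show Nat.choose 24 3 + Nat.choose 24 2 = 2300 by decide] at hle
  haveI : Fact (Nat.Prime 2) := ⟨Nat.prime_two⟩
  have hp : IsPGroup 2 ↥A := fun a => ⟨1, Subtype.ext (by
    obtain ⟨s, hs, e⟩ := exists_pr M K a.2
    rw [pow_one, Subgroup.coe_pow, pow_two, ← e, Subgroup.coe_one]
    exact pr_sq M K hs)⟩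
  obtain ⟨k, hk⟩ := IsPGroup.iff_card.1 hp
  rw [hk] at hle ⊢
  have : 12 ≤ k := by
    by_contra h
    have := Nat.pow_le_pow_right (show 0 < 2 by norm_num) (show k ≤ 11 by omega)
    norm_num at this
    omega
  exact le_trans (by norm_num) (Nat.pow_le_pow_right (show 0 < 2 by norm_num) this)

/-- What commutes with a member is a product of base members commuting with it. -/
theorem stab_sub {c b : G} (hc : c ∈ D) (hb : b ∈ pat B c) {a : G} (ha : a ∈ Subgroup.closure (B : Set G))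
    (h : Commute c a) : ∃ t ⊆ pat B c, pr t = a := by
  obtain ⟨hbB, hcb⟩ := mem_pat.1 hb
  obtain ⟨s₀, hs₀, rfl⟩ := exists_pr M K ha
  obtain ⟨s, hs, h4, hsp, -⟩ := small M K hs₀
  rw [← hsp] at h ⊢
  have key : ∀ {t : Finset G}, t ⊆ B → t.card ≤ 3 → Commute c (pr t) → t ⊆ pat B c := fun ht h3 hct x hx =>
    mem_pat.2 ⟨ht hx, three_commute M K hc ht h3 hct x hx⟩
  by_cases h3 : s.card ≤ 3
  · exact ⟨s, key hs h3 h, rfl⟩
  have hsb : ({b} : Finset G) ⊆ B := Finset.singleton_subset_iff.2 hbB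
  by_cases hbs : b ∈ s
  · refine ⟨s, ?_, rfl⟩
    have he : pr s = pr (s.erase b) * b := by
      have := pr_union K ((Finset.erase_subset b s).trans hs) hsb
        (Finset.disjoint_singleton_right.2 (Finset.notMem_erase b s))
      rwa [Finset.union_singleton, Finset.insert_erase hbs, pr_singleton] at this
    have h' : Commute c (pr (s.erase b)) := by
      have := h.mul_right hcb
      rwa [he, mul_assoc, M.sq (K.sub b hbB), mul_one] at this
    have hsub := key ((Finset.erase_subset b s).trans hs) (by rw [Finset.card_erase_of_mem hbs]; omega) h'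
    intro x hx
    by_cases e : x = b
    · exact e ▸ hb
    · exact hsub (Finset.mem_erase.2 ⟨e, hx⟩)
  · have hins : pr (insert b s) = pr s * b := by
      rw [← pr_singleton b, ← pr_union K hs hsb (Finset.disjoint_singleton_right.2 hbs), pr_singleton,
        Finset.union_singleton]
    obtain ⟨t, ht, ht3, htp⟩ := five M K (Finset.insert_subset hbB hs)
      (by rw [Finset.card_insert_of_notMem hbs]; omega)
    have htP := key ht (by omega) (by rw [htp, hins]; exact h.mul_right hcb)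
    refine ⟨(t \ {b}) ∪ ({b} \ t), Finset.union_subset (Finset.sdiff_subset.trans htP)
      (Finset.sdiff_subset.trans (Finset.singleton_subset_iff.2 hb)), ?_⟩
    rw [pr_sd M K ht hsb, htp, hins, pr_singleton, mul_assoc, M.sq (K.sub b hbB), mul_one]

/-- Five base members with their product's three form eight. -/
theorem eight {s : Finset G} (hs : s ⊆ B) (h5 : s.card = 5) :
    ∃ t ⊆ B, t.card = 3 ∧ pr t = pr s ∧ (s ∪ t).card = 8 ∧ pr (s ∪ t) = 1 := by
  obtain ⟨t, ht, ht3, htp⟩ := five M K hs h5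
  have hsub : (t \ s) ∪ (s \ t) ⊆ B :=
    Finset.union_subset (Finset.sdiff_subset.trans ht) (Finset.sdiff_subset.trans hs)
  have h1 := pr_one M K hsub (by rw [pr_sd M K ht hs, htp, pr_sq M K hs])
  have h2 := card_sd t s
  have hne : ((t \ s) ∪ (s \ t)).card ≠ 0 := fun e => by
    rw [Finset.card_eq_zero, Finset.union_eq_empty, Finset.sdiff_eq_empty_iff_subset,
      Finset.sdiff_eq_empty_iff_subset] at e
    rw [Finset.Subset.antisymm e.1 e.2] at ht3
    omega
  have hd : Disjoint s t :=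
    Finset.disjoint_iff_inter_eq_empty.2 (Finset.card_eq_zero.1 (by rw [Finset.inter_comm]; omega))
  exact ⟨t, ht, ht3, htp, by rw [Finset.card_union_of_disjoint hd]; omega,
    by rw [pr_union K hs ht hd, htp, pr_sq M K hs]⟩

theorem pat_five {c : G} (hc : c ∈ D) {s : Finset G} (hs : s ⊆ pat B c) (h5 : s.card = 5) :
    8 ≤ (pat B c).card := by
  have hsB := hs.trans (pat_subset B c)
  obtain ⟨t, ht, ht3, htp, hu, -⟩ := eight M K hsB h5
  have hct : Commute c (pr t) := htp ▸ pr_commute fun y hy => (mem_pat.1 (hs hy)).2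
  rw [← hu]
  exact Finset.card_le_card (Finset.union_subset hs fun x hx =>
    mem_pat.2 ⟨ht hx, three_commute M K hc ht (by omega) hct x hx⟩)

/-- The conjugates of an outside member under the group of the base. -/
theorem orbit_data {c : G} (hc : c ∈ D) (hcB : c ∉ B) :
    (∀ x ∈ (fun a => a * c * a⁻¹) '' (Subgroup.closure (B : Set G) : Set G), x ∈ D ∧ x ∉ B ∧ pat B x = pat B c) ∧
      ∀ b ∈ pat B c, ∀ R : Finset G, (∀ t ⊆ pat B c, ∃ t' ⊆ R, pr t' = pr t) → 4096 ≤
        ((fun a => a * c * a⁻¹) '' (Subgroup.closure (B : Set G) : Set G)).ncard * 2 ^ R.card := by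
  set A := Subgroup.closure (B : Set G) with hA
  have hcA : ∀ a ∈ A, ∀ y ∈ B, a * y * a⁻¹ = y := by
    intro a ha y hy
    obtain ⟨s, hs, rfl⟩ := exists_pr M K ha
    rw [← (pr_commute fun z hz => K.comm y hy z (hs hz)).eq, mul_inv_cancel_right]
  refine ⟨?_, fun b hb R hR => ?_⟩
  · rintro _ ⟨a, ha, rfl⟩
    refine ⟨M.cl a c hc, fun h => hcB ?_, ?_⟩
    · have := hcA a⁻¹ (A.inv_mem ha) _ h
      rw [show a⁻¹ * (a * c * a⁻¹) * a⁻¹⁻¹ = c by group] at this
      exact this ▸ h
    · ext y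
      simp only [mem_pat, and_congr_right_iff]
      intro hy
      conv_lhs => rw [show y = a * y * a⁻¹ from (hcA a ha y hy).symm]
      exact commute_conj_iff a c y
  haveI := Fintype.ofFinite G
  set Af := (A : Set G).toFinite.toFinset with hAf
  have h := Finset.card_le_mul_card_image Af (2 ^ R.card) (f := fun a => a * c * a⁻¹) ?_
  · refine le_trans (card_closure M K) ?_
    rw [← SetLike.coe_sort_coe, Nat.card_coe_set_eq, Set.ncard_eq_toFinset_card (A : Set G), mul_comm]
    refine le_trans h (Nat.mul_le_mul_left _ (le_of_eq ?_))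
    rw [← Set.ncard_coe_finset, Finset.coe_image, hAf, Set.Finite.coe_toFinset]
  · intro y hy
    obtain ⟨a₀, ha₀, rfl⟩ := Finset.mem_image.1 hy
    rw [hAf, Set.Finite.mem_toFinset] at ha₀
    rw [← Finset.card_powerset]
    refine Finset.card_le_card_of_surjOn (fun t => a₀ * pr t) fun a ha => ?_
    simp only [Finset.coe_filter, hAf, Set.Finite.mem_toFinset] at ha
    obtain ⟨t, ht, e⟩ := stab_sub M K hc hb (A.mul_mem (A.inv_mem ha₀) ha.1) (by
      refine Commute.symm (mul_inv_eq_iff_eq_mul.1 ?_)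
      rw [show a₀⁻¹ * a * c * (a₀⁻¹ * a)⁻¹ = a₀⁻¹ * (a * c * a⁻¹) * a₀ by group, ha.2]
      group)
    obtain ⟨t', ht', e'⟩ := hR t ht
    exact ⟨t', Finset.mem_powerset.2 ht', by show a₀ * pr t' = a; rw [e', e, mul_inv_cancel_left]⟩

/-- Outside members commuting with given base members. -/
theorem W_add {Q : Finset G} (hQ : Q ⊆ B) (hne : Q.Nonempty) :
    (W D B Q).ncard + (24 - Q.card) = {x | ∀ q ∈ Q, x ∈ Nb D q}.ncard := by
  have e : {x | ∀ q ∈ Q, x ∈ Nb D q} = W D B Q ∪ ((B \ Q : Finset G) : Set G) := by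
    ext x
    simp only [Set.mem_setOf_eq, Set.mem_union, Finset.coe_sdiff, Set.mem_sdiff, Finset.mem_coe]
    constructor
    · intro h
      obtain ⟨q, hq⟩ := hne
      by_cases hxB : x ∈ B
      · exact Or.inr ⟨hxB, fun hxQ => (h x hxQ).2.1 rfl⟩
      · exact Or.inl ⟨(h q hq).1, hxB, fun q' hq' => (h q' hq').2.2.symm⟩
    · rintro (⟨hx, hxB, h⟩ | ⟨hxB, hxQ⟩) q hq
      · exact ⟨hx, fun e => hxB (e ▸ hQ hq), (h q hq).symm⟩
      · exact ⟨K.sub x hxB, fun e => hxQ (e ▸ hq), K.comm q (hQ hq) x hxB⟩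
  rw [e, Set.ncard_union_eq (Set.disjoint_left.2 fun x h1 h2 => h1.2.1 (Finset.mem_sdiff.1 (Finset.mem_coe.1 h2)).1),
    Set.ncard_coe_finset, Finset.card_sdiff_of_subset hQ, K.card]

theorem W_two {Q : Finset G} (hQ : Q ⊆ B) (h : Q.card = 2) : (W D B Q).ncard = 3488 := by
  obtain ⟨p, q, hpq, rfl⟩ := Finset.card_eq_two.1 h
  have hp := hQ (by simp : p ∈ ({p, q} : Finset G))
  have hq := hQ (by simp : q ∈ ({p, q} : Finset G))
  have h1 := W_add M K hQ ⟨p, by simp⟩
  rw [show {x | ∀ v ∈ ({p, q} : Finset G), x ∈ Nb D v} = Nb D p ∩ Nb D q by ext x; simp,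
    card_two M (K.sub p hp) ⟨K.sub q hq, Ne.symm hpq, K.comm p hp q hq⟩, h] at h1
  omega

theorem W_three {Q : Finset G} (hQ : Q ⊆ B) (h : Q.card = 3) : (W D B Q).ncard = 672 := by
  obtain ⟨p, q, r, hpq, hpr, hqr, rfl⟩ := Finset.card_eq_three.1 h
  have hp := hQ (by simp : p ∈ ({p, q, r} : Finset G))
  have hq := hQ (by simp : q ∈ ({p, q, r} : Finset G))
  have hr := hQ (by simp : r ∈ ({p, q, r} : Finset G))
  have h1 := W_add M K hQ ⟨p, by simp⟩
  rw [show {x | ∀ v ∈ ({p, q, r} : Finset G), x ∈ Nb D v} = Nb D p ∩ Nb D q ∩ Nb D r by ext x; simp [and_assoc],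
    card_comm M (K.sub p hp) ⟨K.sub q hq, Ne.symm hpq, K.comm p hp q hq⟩ ⟨K.sub r hr, Ne.symm hpr, K.comm p hp r hr⟩
      ⟨K.sub r hr, Ne.symm hqr, K.comm q hq r hr⟩, h] at h1
  omega

theorem W_four {Q : Finset G} (hQ : Q ⊆ B) (h : Q.card = 4) : (W D B Q).ncard = 160 := by
  obtain ⟨p, Q', hp', rfl, h'⟩ := Finset.card_eq_succ.1 h
  obtain ⟨q, r, t, hqr, hqt, hrt, rfl⟩ := Finset.card_eq_three.1 h'
  simp only [Finset.mem_insert, Finset.mem_singleton, not_or] at hp'
  obtain ⟨hpq, hpr, hpt⟩ := hp'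
  have hnb : ∀ {u v : G}, u ∈ B → v ∈ B → u ≠ v → v ∈ Nb D u := fun hu hv hne =>
    ⟨K.sub _ hv, Ne.symm hne, K.comm _ hu _ hv⟩
  have hp := hQ (Finset.mem_insert_self p _)
  have hq : q ∈ B := hQ (by simp)
  have hr : r ∈ B := hQ (by simp)
  have ht : t ∈ B := hQ (by simp)
  have h1 := W_add M K hQ ⟨p, Finset.mem_insert_self p _⟩
  set C := M.cv (K.sub p hp)
  have iq := hnb hp hq hpq
  have ir := hnb hp hr hpr
  have it := hnb hp ht hpt
  rw [show {x | ∀ v ∈ insert p ({q, r, t} : Finset G), x ∈ Nb D v} =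
      {x | x ∈ Nb D p ∧ (x ∈ Nb D q ∧ x ∈ Nb D r ∧ x ∈ Nb D t)} by ext x; simp,
    C.ncard (fun x => x ∈ Nb D q ∧ x ∈ Nb D r ∧ x ∈ Nb D t)
      (fun e => e ∈ Nb C.E (C.pr q) ∧ e ∈ Nb C.E (C.pr r) ∧ e ∈ Nb C.E (C.pr t))
      fun x hx => and_congr (C.pr_nb iq hx).symm (and_congr (C.pr_nb ir hx).symm (C.pr_nb it hx).symm), h] at h1
  have h2 := FischerTwentyThree.card_comm C.hyp (C.pr_mem iq) ((C.pr_nb iq ir).2 (hnb hq hr hqr))
    ((C.pr_nb iq it).2 (hnb hq ht hqt)) ((C.pr_nb ir it).2 (hnb hr ht hrt))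
  rw [show {e | e ∈ C.E ∧ (e ∈ Nb C.E (C.pr q) ∧ e ∈ Nb C.E (C.pr r) ∧ e ∈ Nb C.E (C.pr t))} =
      Nb C.E (C.pr q) ∩ Nb C.E (C.pr r) ∩ Nb C.E (C.pr t) from Set.ext fun e =>
      ⟨fun h => ⟨⟨h.2.1, h.2.2.1⟩, h.2.2.2⟩, fun h => ⟨h.1.1.1, h.1.1, h.1.2, h.2⟩⟩, h2] at h1
  omega

theorem W_five {Q : Finset G} (hQ : Q ⊆ B) (h : Q.card = 5) : (W D B Q).ncard = 32 := by
  obtain ⟨p, Q', hp', rfl, h'⟩ := Finset.card_eq_succ.1 h
  obtain ⟨q, Q'', hq', rfl, h''⟩ := Finset.card_eq_succ.1 h'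
  obtain ⟨r, t, w, hrt, hrw, htw, rfl⟩ := Finset.card_eq_three.1 h''
  simp only [Finset.mem_insert, Finset.mem_singleton, not_or] at hp' hq'
  obtain ⟨hpq, hpr, hpt, hpw⟩ := hp'
  obtain ⟨hqr, hqt, hqw⟩ := hq'
  have hnb : ∀ {u v : G}, u ∈ B → v ∈ B → u ≠ v → v ∈ Nb D u := fun hu hv hne =>
    ⟨K.sub _ hv, Ne.symm hne, K.comm _ hu _ hv⟩
  have hp := hQ (Finset.mem_insert_self p _)
  have hq : q ∈ B := hQ (by simp)
  have hr : r ∈ B := hQ (by simp)
  have ht : t ∈ B := hQ (by simp)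
  have hw : w ∈ B := hQ (by simp)
  have h1 := W_add M K hQ ⟨p, Finset.mem_insert_self p _⟩
  set C := M.cv (K.sub p hp)
  have iq := hnb hp hq hpq
  have ir := hnb hp hr hpr
  have it := hnb hp ht hpt
  have iw := hnb hp hw hpw
  rw [show {x | ∀ v ∈ insert p (insert q ({r, t, w} : Finset G)), x ∈ Nb D v} =
      {x | x ∈ Nb D p ∧ (x ∈ Nb D q ∧ x ∈ Nb D r ∧ x ∈ Nb D t ∧ x ∈ Nb D w)} by ext x; simp,
    C.ncard (fun x => x ∈ Nb D q ∧ x ∈ Nb D r ∧ x ∈ Nb D t ∧ x ∈ Nb D w)
      (fun e => e ∈ Nb C.E (C.pr q) ∧ e ∈ Nb C.E (C.pr r) ∧ e ∈ Nb C.E (C.pr t) ∧ e ∈ Nb C.E (C.pr w))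
      fun x hx => and_congr (C.pr_nb iq hx).symm (and_congr (C.pr_nb ir hx).symm
        (and_congr (C.pr_nb it hx).symm (C.pr_nb iw hx).symm)), h] at h1
  set E := C.E
  set q' := C.pr q
  set r' := C.pr r
  set t' := C.pr t
  set w' := C.pr w
  have jr : r' ∈ Nb E q' := (C.pr_nb iq ir).2 (hnb hq hr hqr)
  have jt : t' ∈ Nb E q' := (C.pr_nb iq it).2 (hnb hq ht hqt)
  have jw : w' ∈ Nb E q' := (C.pr_nb iq iw).2 (hnb hq hw hqw)
  have krt : t' ∈ Nb E r' := (C.pr_nb ir it).2 (hnb hr ht hrt)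
  have krw : w' ∈ Nb E r' := (C.pr_nb ir iw).2 (hnb hr hw hrw)
  have ktw : w' ∈ Nb E t' := (C.pr_nb it iw).2 (hnb ht hw htw)
  set C2 := C.hyp.cv (C.pr_mem iq)
  rw [show {e | e ∈ E ∧ (e ∈ Nb E q' ∧ e ∈ Nb E r' ∧ e ∈ Nb E t' ∧ e ∈ Nb E w')} =
      {e | e ∈ Nb E q' ∧ (e ∈ Nb E r' ∧ e ∈ Nb E t' ∧ e ∈ Nb E w')} from Set.ext fun e =>
      ⟨fun h => h.2, fun h => ⟨h.1.1, h⟩⟩,
    C2.ncard (fun x => x ∈ Nb E r' ∧ x ∈ Nb E t' ∧ x ∈ Nb E w')
      (fun e => e ∈ Nb C2.E (C2.pr r') ∧ e ∈ Nb C2.E (C2.pr t') ∧ e ∈ Nb C2.E (C2.pr w'))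
      fun x hx => and_congr (C2.pr_nb jr hx).symm (and_congr (C2.pr_nb jt hx).symm (C2.pr_nb jw hx).symm),
    show {e | e ∈ C2.E ∧ (e ∈ Nb C2.E (C2.pr r') ∧ e ∈ Nb C2.E (C2.pr t') ∧ e ∈ Nb C2.E (C2.pr w'))} =
      Nb C2.E (C2.pr r') ∩ Nb C2.E (C2.pr t') ∩ Nb C2.E (C2.pr w') from Set.ext fun e =>
      ⟨fun h => ⟨⟨h.2.1, h.2.2.1⟩, h.2.2.2⟩, fun h => ⟨h.1.1.1, h.1.1, h.1.2, h.2⟩⟩,
    FischerTwentyTwo.card_nb_comm C2.hyp (C2.pr_mem jr) ((C2.pr_nb jr jt).2 krt) ((C2.pr_nb jr jw).2 krw)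
      (fun e => ktw.2.1 (C2.pr_inj jt jw e).symm) ((C2.pr_comm jt jw).2 ktw.2.2)] at h1
  omega

/-- An outside member commuting with four base members commutes with exactly eight. -/
theorem pat_eight {c : G} (hc : c ∈ D) (hcB : c ∉ B) (h4 : 4 ≤ (pat B c).card) : (pat B c).card = 8 := by
  obtain ⟨Q, hQ, hQ4⟩ := Finset.exists_subset_card_eq h4
  have hQB := hQ.trans (pat_subset B c)
  have hge : ∀ x ∈ W D B Q, Q ⊆ pat B x ∧ 8 ≤ (pat B x).card := by
    intro x hx
    have hsub : Q ⊆ pat B x := fun q hq => mem_pat.2 ⟨hQB hq, hx.2.2 q hq⟩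
    refine ⟨hsub, ?_⟩
    by_cases h5 : 5 ≤ (pat B x).card
    · obtain ⟨s, hs, hs5⟩ := Finset.exists_subset_card_eq h5
      exact pat_five M K hx.1 hs hs5
    exfalso
    obtain ⟨b, hb⟩ := Finset.card_pos.1 (show 0 < Q.card by omega)
    obtain ⟨ho, hcard⟩ := orbit_data M K hx.1 hx.2.1
    have hle : ((fun a => a * x * a⁻¹) '' (Subgroup.closure (B : Set G) : Set G)).ncard ≤ 160 := by
      rw [← W_four M K hQB hQ4]
      refine Set.ncard_le_ncard fun y hy => ?_
      obtain ⟨h1, h2, h3⟩ := ho y hy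
      refine ⟨h1, h2, fun q hq => ?_⟩
      have : q ∈ pat B y := h3 ▸ hsub hq
      exact (mem_pat.1 this).2
    have := hcard b (hsub hb) _ fun t ht => ⟨t, ht, rfl⟩
    have hp : (pat B x).card = 4 := by have := Finset.card_le_card hsub; omega
    rw [hp] at this
    norm_num at this
    omega
  set Wf := (W D B Q).toFinite.toFinset with hWf
  have hWm : ∀ x, x ∈ Wf ↔ x ∈ W D B Q := fun x => Set.Finite.mem_toFinset _
  have hsum := Finset.sum_card_bipartiteAbove_eq_sum_card_bipartiteBelow (s := Wf) (t := B \ Q)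
    (fun x g => Commute x g)
  have hR : ∀ g ∈ B \ Q, (Finset.bipartiteBelow (fun x g => Commute x g) Wf g).card = 32 := by
    intro g hg
    obtain ⟨hgB, hgQ⟩ := Finset.mem_sdiff.1 hg
    rw [← W_five M K (Finset.insert_subset hgB hQB) (by rw [Finset.card_insert_of_notMem hgQ, hQ4]),
      ← Set.ncard_coe_finset]
    congr 1
    ext x
    simp only [Finset.mem_coe, Finset.mem_bipartiteBelow, hWm, W, Set.mem_setOf_eq, Finset.forall_mem_insert]
    tauto
  have hL : ∀ x ∈ Wf, (Finset.bipartiteAbove (fun x g => Commute x g) (B \ Q) x).card = (pat B x).card - 4 := by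
    intro x hx
    rw [← hQ4, ← Finset.card_sdiff_of_subset (hge x ((hWm x).1 hx)).1]
    congr 1
    ext g
    simp only [Finset.mem_bipartiteAbove, Finset.mem_sdiff, mem_pat]
    tauto
  rw [Finset.sum_congr rfl hL, Finset.sum_congr rfl hR, Finset.sum_const, Finset.card_sdiff_of_subset hQB, K.card,
    hQ4, smul_eq_mul] at hsum
  have hW : Wf.card = 160 := by rw [hWf, ← Set.ncard_eq_toFinset_card, W_four M K hQB hQ4]
  have h4' : ∀ x ∈ Wf, 4 ≤ (pat B x).card - 4 := fun x hx => by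
    have := (hge x ((hWm x).1 hx)).2
    omega
  have heq := (Finset.sum_eq_sum_iff_of_le h4').1 (by rw [hsum, Finset.sum_const, hW, smul_eq_mul])
  have hcW : c ∈ Wf := (hWm c).2 ⟨hc, hcB, fun q hq => (mem_pat.1 (hQ hq)).2⟩
  have := heq c hcW
  have := (hge c ((hWm c).1 hcW)).2
  omega

/-- No outside member commutes with exactly three base members. -/
theorem pat_ne_three {c : G} (hc : c ∈ D) (hcB : c ∉ B) : (pat B c).card ≠ 3 := by
  intro h3
  set T := pat B c with hT
  have hTB : T ⊆ B := pat_subset B c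
  obtain ⟨b, hb⟩ := Finset.card_pos.1 (show 0 < T.card by omega)
  obtain ⟨ho, hcard⟩ := orbit_data M K hc hcB
  set Oc := (fun a => a * c * a⁻¹) '' (Subgroup.closure (B : Set G) : Set G)
  have h512 := hcard b hb T fun t ht => ⟨t, ht, rfl⟩
  rw [h3] at h512
  norm_num at h512
  have hsub : ∀ g ∈ B \ T, W D B T = Oc ∪ W D B (insert g T) := by
    intro g hg
    obtain ⟨hgB, hgT⟩ := Finset.mem_sdiff.1 hg
    refine (Set.eq_of_subset_of_ncard_le ?_ ?_).symm
    · rintro x (hx | hx)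
      · obtain ⟨h1, h2, h3'⟩ := ho x hx
        refine ⟨h1, h2, fun q hq => ?_⟩
        have : q ∈ pat B x := h3' ▸ hq
        exact (mem_pat.1 this).2
      · exact ⟨hx.1, hx.2.1, fun q hq => hx.2.2 q (Finset.mem_insert_of_mem hq)⟩
    · rw [Set.ncard_union_eq, W_three M K hTB h3,
        W_four M K (Finset.insert_subset hgB hTB) (by rw [Finset.card_insert_of_notMem hgT, h3])]
      · omega
      · refine Set.disjoint_left.2 fun x h1 h2 => hgT ?_
        show g ∈ pat B c
        rw [← (ho x h1).2.2, mem_pat]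
        exact ⟨hgB, h2.2.2 g (Finset.mem_insert_self g T)⟩
  obtain ⟨g₀, hg₀⟩ := Finset.card_pos.1 (show 0 < (B \ T).card by
    rw [Finset.card_sdiff_of_subset hTB, K.card]; omega)
  obtain ⟨hg₀B, hg₀T⟩ := Finset.mem_sdiff.1 hg₀
  obtain ⟨x, hx⟩ := Set.nonempty_of_ncard_ne_zero (s := W D B (insert g₀ T)) (by
    rw [W_four M K (Finset.insert_subset hg₀B hTB) (by rw [Finset.card_insert_of_notMem hg₀T, h3])]; norm_num)
  refine hx.2.1 (K.max x hx.1 fun g hg => ?_)
  by_cases hgT : g ∈ T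
  · exact hx.2.2 g (Finset.mem_insert_of_mem hgT)
  have hxT : x ∈ W D B T := (hsub g₀ hg₀) ▸ Or.inr hx
  rw [hsub g (Finset.mem_sdiff.2 ⟨hg, hgT⟩)] at hxT
  rcases hxT with h | h
  · exfalso
    apply hg₀T
    rw [hT, ← (ho x h).2.2, mem_pat]
    exact ⟨hg₀B, hx.2.2 g₀ (Finset.mem_insert_self g₀ T)⟩
  · exact h.2.2 g (Finset.mem_insert_self g T)

end Cfsg.Agent.Lib.Involution.FischerTwentyFour
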