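import Cfsg.Agent.Lib.Involution.FischerAutLines
import Cfsg.Agent.Lib.Involution.FischerClasses

/-! Type M(22): frames and products of their members. -/

set_option autoImplicit false

namespace Cfsg.Agent.Lib.Involution.FischerTwentyTwo

open Cfsg Cfsg.Agent.Lib.AutPSU Cfsg.Agent.Lib.ThreeTransp Cfsg.Agent.Lib.Forms
  Cfsg.Agent.Lib.Involution.UnitaryTransp Cfsg.Agent.Lib.Involution.FischerRel Cfsg.Agent.Lib.Involution.FischerLocal

universe u

variable {G : Type u} [Group G] [Finite G] {D : Set G}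

theorem exists_maxComm {E : Set G} (hE : E ⊆ D) (hc : ∀ a ∈ E, ∀ b ∈ E, Commute a b) :
    ∃ F, MaxComm D F ∧ E ⊆ F := by
  classical
  obtain ⟨F, ⟨hs, hcF, hEF⟩, hmax⟩ := Set.exists_max_image
    {F : Set G | F ⊆ D ∧ (∀ a ∈ F, ∀ b ∈ F, Commute a b) ∧ E ⊆ F} Set.ncard (Set.toFinite _) ⟨E, hE, hc, subset_rfl⟩
  refine ⟨F, ⟨hs, hcF, fun y hy hyc => ?_⟩, hEF⟩
  by_contra hn
  have h := hmax (insert y F) ⟨Set.insert_subset hy hs, by
    rintro a (rfl | ha) b (rfl | hb)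
    exacts [Commute.refl _, hyc b hb, (hyc a ha).symm, hcF a ha b hb], hEF.trans (Set.subset_insert _ _)⟩
  rw [Set.ncard_insert_of_notMem hn] at h
  omega

variable (M : Hyp D)
include M

theorem commute_of_conj_commute {a f : G} (ha : a ∈ D) (hf : f ∈ D) (h : Commute (f * a * f⁻¹) a) :
    Commute a f := by
  by_contra hn
  obtain ⟨-, e, -, -, h1, -⟩ := th_facts M ha hf hn
  rw [e] at h1
  exact h1 h.symm

theorem bl_conj (g : G) {a b c r : G} (h : r ∈ Bl D a b c) :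
    g * r * g⁻¹ ∈ Bl D (g * a * g⁻¹) (g * b * g⁻¹) (g * c * g⁻¹) := by
  refine ⟨M.cl g r h.1, fun x hx h1 h2 h3 => ?_⟩
  have key : ∀ {z : G}, Commute x (g * z * g⁻¹) → Commute (g⁻¹ * x * g) z := fun {z} e => by
    rwa [← commute_conj_iff g, show g * (g⁻¹ * x * g) * g⁻¹ = x by group]
  have hx' : g⁻¹ * x * g ∈ D := by simpa using M.cl g⁻¹ x hx
  have := (commute_conj_iff g r (g⁻¹ * x * g)).2 (h.2 _ hx' (key h1) (key h2) (key h3))
  rwa [show g * (g⁻¹ * x * g) * g⁻¹ = x by group] at this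

theorem pair_unique {p q r s : G} (hp : p ∈ D) (hq : q ∈ Nb D p) (hr : r ∈ D) (hs : s ∈ Nb D r)
    (e : p * q = r * s) : p = r ∧ q = s ∨ p = s ∧ q = r := by
  obtain ⟨hpairs, -⟩ := S5463.pairs_triples M.grp M.prim M.type
  have hl : ∀ {p q : G}, p ∈ D → q ∈ Nb D p →
      [p, q].Nodup ∧ [p, q].length = 2 ∧ (∀ w ∈ [p, q], w ∈ D) ∧
        (∀ w ∈ [p, q], ∀ v ∈ [p, q], Commute w v) := by
    intro p q hp' hq'
    refine ⟨by simpa using hq'.2.1.symm, rfl, ?_, ?_⟩
    · simp only [List.mem_cons, List.not_mem_nil, or_false, forall_eq_or_imp, forall_eq]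
      exact ⟨hp', hq'.1⟩
    · simp only [List.mem_cons, List.not_mem_nil, or_false, forall_eq_or_imp, forall_eq]
      exact ⟨⟨Commute.refl _, hq'.2.2⟩, hq'.2.2.symm, Commute.refl _⟩
  obtain ⟨a1, a2, a3, a4⟩ := hl hp hq
  obtain ⟨b1, b2, b3, b4⟩ := hl hr hs
  have h := hpairs (r * s) [p, q] [r, s] ⟨a1, a2, a3, a4, by simpa using e⟩ ⟨b1, b2, b3, b4, by simp⟩
  have h1 : p = r ∨ p = s := by simpa using (h p).1 (by simp)
  have h2 : q = r ∨ q = s := by simpa using (h q).1 (by simp)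
  rcases h1 with rfl | rfl <;> rcases h2 with rfl | rfl
  · exact absurd rfl hq.2.1
  · exact Or.inl ⟨rfl, rfl⟩
  · exact Or.inr ⟨rfl, rfl⟩
  · exact absurd rfl hq.2.1

/-- All the triples with the same product lie in one block. -/
theorem triple_block {F : Set G} (K : MaxComm D F) {a b c : G} (ha : a ∈ F) (hb : b ∈ F) (hc : c ∈ F)
    (hba : b ≠ a) (hca : c ≠ a) (hbc : b ≠ c) {l : List G}
    (hl : l.Nodup ∧ l.length = 3 ∧ (∀ x ∈ l, x ∈ D) ∧ (∀ x ∈ l, ∀ y ∈ l, Commute x y) ∧ l.prod = a * b * c) :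
    ∀ x ∈ l, x ∈ Bl D a b c := by
  classical
  set L := M.lk (K.sub ha)
  haveI := charTwo L.card_F
  have hF := card2 L.card_F
  obtain ⟨ω, hω0, hω1, hω, -⟩ := exists_other L.card_F
  have hbN := K.nb ha hb hba
  have hcN := K.nb ha hc hca
  set P := L.pt b
  set Q := L.pt c
  have hPP : hm 2 P P = 0 := (L.valid b hbN).2
  have hQQ : hm 2 Q Q = 0 := (L.valid c hcN).2
  have hPQ : hm 2 P Q = 0 := (L.orth hbN hcN).2 (K.comm b hb c hc)
  have hli : ∀ p q : L.F, p • P + q • Q = 0 → p = 0 ∧ q = 0 := by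
    intro p q e
    by_cases hp : p = 0
    · subst hp
      rw [zero_smul, zero_add, smul_eq_zero] at e
      exact ⟨rfl, e.resolve_right (L.valid c hcN).1⟩
    exfalso
    rcases eq_or_ne q 0 with rfl | hq
    · rw [zero_smul, add_zero, smul_eq_zero] at e
      exact hp (e.resolve_right (L.valid b hbN).1)
    refine hbc (L.eq_of_prop hbN hcN (mul_ne_zero (inv_ne_zero hp) hq) ?_)
    rw [mul_smul, show q • Q = p • P from (funext fun i => CharTwo.add_eq_zero.1 (congrFun e i)).symm, smul_smul,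
      inv_mul_cancel₀ hp, one_smul]
  have hU : ∀ k : L.F, k ≠ 0 → ∃ g ∈ F, g ≠ a ∧ g ≠ b ∧ g ≠ c ∧ g ∈ Bl D a b c ∧
      ∃ s : L.F, s ≠ 0 ∧ P + k • Q = s • L.pt g := by
    intro k hk
    have hmem : P + k • Q ∈ Submodule.span L.F {P, Q} := Submodule.mem_span_pair.2 ⟨1, k, by rw [one_smul]⟩
    have hsub : Submodule.span L.F {P, Q} ≤ frameSpan L F := Submodule.span_le.2 (by
      rintro v (rfl | rfl)
      exacts [pt_mem_frameSpan M K L hb hba, pt_mem_frameSpan M K L hc hca])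
    obtain ⟨g, hg, hga, s, hs, e⟩ := exists_member M K ha L (hsub hmem)
      fun e => one_ne_zero (hli 1 k (by rw [one_smul]; exact e)).1
    refine ⟨g, hg, hga, ?_, ?_, ?_, s, hs, e⟩
    · rintro rfl
      exact hk (hli (1 + s) k (by rw [add_smul, one_smul, add_right_comm, e, vec_add_self L.card_F])).2
    · rintro rfl
      exact one_ne_zero (hli 1 (k + s) (by rw [one_smul, add_smul, ← add_assoc, e, vec_add_self L.card_F])).1
    · exact (mem_bl_iff M K ha hb hc hba hca L).2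
        (Or.inr ⟨hg, hga, (Submodule.smul_mem_iff _ hs).1 (e ▸ hmem)⟩)
  obtain ⟨x, hx, hxa, hxb, hxc, hxB, s1, hs1, e1⟩ := hU 1 one_ne_zero
  obtain ⟨y, hy, hya, hyb, hyc, hyB, s2, hs2, e2⟩ := hU ω hω0
  obtain ⟨z, hz, hza, hzb, hzc, hzB, s3, hs3, e3⟩ := hU (ω + 1) fun e => hω1 (CharTwo.add_eq_zero.1 e)
  have hne : ∀ {k k' : L.F} {s s' : L.F} {g g' : G}, k ≠ k' → s ≠ 0 → s' ≠ 0 → P + k • Q = s • L.pt g →
      P + k' • Q = s' • L.pt g' → g ≠ g' := by
    intro k k' s s' g g' hk hs hs' ee ee' hgg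
    subst hgg
    have e : (s' + s) • P + (s' * k + s * k') • Q = 0 := by
      have : s' • (P + k • Q) + s • (P + k' • Q) = 0 := by
        rw [ee, ee', smul_smul, smul_smul, mul_comm, vec_add_self L.card_F]
      rw [← this]; module
    obtain ⟨h1, h2⟩ := hli _ _ e
    obtain rfl : s' = s := CharTwo.add_eq_zero.1 h1
    exact hk (mul_left_cancel₀ hs' (CharTwo.add_eq_zero.1 h2))
  have hxy : x ≠ y := hne (Ne.symm hω1) hs1 hs2 e1 e2
  have hxz : x ≠ z := hne (fun e => hω0 (by linear_combination -e)) hs1 hs3 e1 e3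
  have hyz : y ≠ z := hne (fun e => one_ne_zero (by linear_combination -e : (1 : L.F) = 0)) hs2 hs3 e2 e3
  have hτ : ∀ {g : G} {s : L.F} {v : Fin 6 → L.F}, g ∈ F → g ≠ a → s ≠ 0 → v = s • L.pt g →
      τ L.card_F v = τ L.card_F (L.pt g) := fun hg hga hs e' => by
    rw [e', τ_smul L.card_F (L.valid _ (K.nb ha hg hga)).2 hs]
  have h5 : ∀ w ∈ [b, c, x, y, z], w ∈ Nb D a := List.forall_mem_cons.2 ⟨hbN, List.forall_mem_cons.2 ⟨hcN,
    List.forall_mem_cons.2 ⟨K.nb ha hx hxa, List.forall_mem_cons.2 ⟨K.nb ha hy hya,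
      List.forall_mem_singleton.2 (K.nb ha hz hza)⟩⟩⟩⟩
  have hp := (L.prod [b, c, x, y, z] h5).1 (by
    rw [← five_prod L.card_F hω hPP hQQ hPQ]
    simp only [List.map_cons, List.map_nil]
    rw [hτ hx hxa hs1 e1, hτ hy hya hs2 e2, hτ hz hza hs3 e3])
  have hcl := centralizer_link M.grp M.prim M.type (K.sub ha) hbN (z := [b, c, x, y, z].prod)
    (Commute.list_prod_right _ _ fun w hw => (h5 w hw).2.2).symm hp
  simp only [List.prod_cons, List.prod_nil, mul_one] at hcl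
  have hbb : b * b = 1 := M.sq (K.sub hb)
  have hcc : c * c = 1 := M.sq (K.sub hc)
  have hBC : b * c * (b * c) = 1 := by
    nth_rewrite 2 [(K.comm b hb c hc).eq]
    simp only [mul_assoc, mul_eq_one_iff_eq_inv]
    rw [← mul_assoc c c, hcc, one_mul, inv_eq_of_mul_eq_one_right hbb]
  have hyN : y ∈ Nb D x := ⟨K.sub hy, hxy.symm, K.comm x hx y hy⟩
  have hzN : z ∈ Nb D x ∩ Nb D y :=
    ⟨⟨K.sub hz, hxz.symm, K.comm x hx z hz⟩, K.sub hz, hyz.symm, K.comm y hy z hz⟩
  have hj : a * b * c = x * y * z := by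
    rcases hcl with h | h
    · exfalso
      have e : x * y * z = b * c := by
        rw [mul_assoc]
        calc x * (y * z) = b * c * (b * c) * (x * (y * z)) := by rw [hBC, one_mul]
          _ = b * c * (b * (c * (x * (y * z)))) := by simp only [mul_assoc]
          _ = b * c := by rw [h, mul_one]
      have h2 : IsProd D 2 (b * c) := isProd_two (K.sub hb) ⟨K.sub hc, hbc.symm, K.comm b hb c hc⟩
      have h3 : IsProd D 3 (b * c) := e ▸ isProd_three (K.sub hx) hyN hzN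
      have := isProd_unique M (by norm_num) (by norm_num) (by norm_num) le_rfl h2 h3
      omega
    · rw [mul_assoc x, mul_assoc a]
      calc a * (b * c) = (b * c) * a := ((hbN.2.2).mul_right hcN.2.2).eq
        _ = b * c * (b * (c * (x * (y * z)))) := by rw [h]
        _ = b * c * (b * c) * (x * (y * z)) := by simp only [mul_assoc]
        _ = x * (y * z) := by rw [hBC, one_mul]
  obtain ⟨-, htri⟩ := S5463.pairs_triples M.grp M.prim M.type
  have mk : ∀ {p q r : G}, p ∈ F → q ∈ F → r ∈ F → p ≠ q → p ≠ r → q ≠ r → p * q * r = a * b * c →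
      [p, q, r].Nodup ∧ [p, q, r].length = 3 ∧ (∀ w ∈ [p, q, r], w ∈ D) ∧
        (∀ w ∈ [p, q, r], ∀ v ∈ [p, q, r], Commute w v) ∧ [p, q, r].prod = a * b * c := by
    intro p q r hp hq hr h1 h2 h3 e
    have hm : ∀ w ∈ [p, q, r], w ∈ F :=
      List.forall_mem_cons.2 ⟨hp, List.forall_mem_cons.2 ⟨hq, List.forall_mem_singleton.2 hr⟩⟩
    exact ⟨by simp [h1, h2, h3], rfl, fun w hw => K.sub (hm w hw), fun w hw v hv => K.comm w (hm w hw) v (hm v hv),
      by simpa [mul_assoc] using e⟩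
  have hA := mk ha hb hc hba.symm hca.symm hbc rfl
  have hX := mk hx hy hz hxy hxz hyz hj.symm
  obtain ⟨l1, l2, -, -, -, hall⟩ := htri _ _ hA
  obtain ⟨m1, m2, m3⟩ := bl_mem M K ha hb hc
  have hAB : ∀ w ∈ [a, b, c], w ∈ Bl D a b c :=
    List.forall_mem_cons.2 ⟨m1, List.forall_mem_cons.2 ⟨m2, List.forall_mem_singleton.2 m3⟩⟩
  have hXB : ∀ w ∈ [x, y, z], w ∈ Bl D a b c :=
    List.forall_mem_cons.2 ⟨hxB, List.forall_mem_cons.2 ⟨hyB, List.forall_mem_singleton.2 hzB⟩⟩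
  have hdiff : ¬ ∀ w, w ∈ [a, b, c] ↔ w ∈ [x, y, z] := fun h => by
    have := (h a).1 (by simp)
    simp [hxa.symm, hya.symm, hza.symm] at this
  intro w hw
  rcases hall l hl with h | h <;> rcases hall _ hA with h' | h' <;> rcases hall _ hX with h'' | h''
  · exact hAB w ((h' w).2 ((h w).1 hw))
  · exact hAB w ((h' w).2 ((h w).1 hw))
  · exact hXB w ((h'' w).2 ((h w).1 hw))
  · exact absurd (fun v => (h' v).trans (h'' v).symm) hdiff
  · exact absurd (fun v => (h' v).trans (h'' v).symm) hdiff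
  · exact hXB w ((h'' w).2 ((h w).1 hw))
  · exact hAB w ((h' w).2 ((h w).1 hw))
  · exact hAB w ((h' w).2 ((h w).1 hw))

/-- The other three members of a block have the same product. -/
theorem block_split {F : Set G} (K : MaxComm D F) {a b c : G} (ha : a ∈ F) (hb : b ∈ F) (hc : c ∈ F)
    (hba : b ≠ a) (hca : c ≠ a) (hbc : b ≠ c) :
    ∃ x y z, x ∈ Bl D a b c ∧ y ∈ Bl D a b c ∧ z ∈ Bl D a b c ∧ x ∈ Nb D a ∧ y ∈ Nb D a ∧ z ∈ Nb D a ∧
      (x ≠ b ∧ y ≠ b ∧ z ≠ b) ∧ (x ≠ c ∧ y ≠ c ∧ z ≠ c) ∧ (x ≠ y ∧ x ≠ z ∧ y ≠ z) ∧ a * b * c = x * y * z ∧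
      Bl D a b c = {a, b, c, x, y, z} := by
  classical
  set L := M.lk (K.sub ha)
  haveI := charTwo L.card_F
  have hF := card2 L.card_F
  obtain ⟨ω, hω0, hω1, hω, -⟩ := exists_other L.card_F
  have hbN := K.nb ha hb hba
  have hcN := K.nb ha hc hca
  set P := L.pt b
  set Q := L.pt c
  have hPP : hm 2 P P = 0 := (L.valid b hbN).2
  have hQQ : hm 2 Q Q = 0 := (L.valid c hcN).2
  have hPQ : hm 2 P Q = 0 := (L.orth hbN hcN).2 (K.comm b hb c hc)
  have hli : ∀ p q : L.F, p • P + q • Q = 0 → p = 0 ∧ q = 0 := by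
    intro p q e
    by_cases hp : p = 0
    · subst hp
      rw [zero_smul, zero_add, smul_eq_zero] at e
      exact ⟨rfl, e.resolve_right (L.valid c hcN).1⟩
    exfalso
    rcases eq_or_ne q 0 with rfl | hq
    · rw [zero_smul, add_zero, smul_eq_zero] at e
      exact hp (e.resolve_right (L.valid b hbN).1)
    refine hbc (L.eq_of_prop hbN hcN (mul_ne_zero (inv_ne_zero hp) hq) ?_)
    rw [mul_smul, show q • Q = p • P from (funext fun i => CharTwo.add_eq_zero.1 (congrFun e i)).symm, smul_smul,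
      inv_mul_cancel₀ hp, one_smul]
  have hU : ∀ k : L.F, k ≠ 0 → ∃ g ∈ F, g ≠ a ∧ g ≠ b ∧ g ≠ c ∧ g ∈ Bl D a b c ∧
      ∃ s : L.F, s ≠ 0 ∧ P + k • Q = s • L.pt g := by
    intro k hk
    have hmem : P + k • Q ∈ Submodule.span L.F {P, Q} := Submodule.mem_span_pair.2 ⟨1, k, by rw [one_smul]⟩
    have hsub : Submodule.span L.F {P, Q} ≤ frameSpan L F := Submodule.span_le.2 (by
      rintro v (rfl | rfl)
      exacts [pt_mem_frameSpan M K L hb hba, pt_mem_frameSpan M K L hc hca])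
    obtain ⟨g, hg, hga, s, hs, e⟩ := exists_member M K ha L (hsub hmem)
      fun e => one_ne_zero (hli 1 k (by rw [one_smul]; exact e)).1
    refine ⟨g, hg, hga, ?_, ?_, ?_, s, hs, e⟩
    · rintro rfl
      exact hk (hli (1 + s) k (by rw [add_smul, one_smul, add_right_comm, e, vec_add_self L.card_F])).2
    · rintro rfl
      exact one_ne_zero (hli 1 (k + s) (by rw [one_smul, add_smul, ← add_assoc, e, vec_add_self L.card_F])).1
    · exact (mem_bl_iff M K ha hb hc hba hca L).2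
        (Or.inr ⟨hg, hga, (Submodule.smul_mem_iff _ hs).1 (e ▸ hmem)⟩)
  obtain ⟨x, hx, hxa, hxb, hxc, hxB, s1, hs1, e1⟩ := hU 1 one_ne_zero
  obtain ⟨y, hy, hya, hyb, hyc, hyB, s2, hs2, e2⟩ := hU ω hω0
  obtain ⟨z, hz, hza, hzb, hzc, hzB, s3, hs3, e3⟩ := hU (ω + 1) fun e => hω1 (CharTwo.add_eq_zero.1 e)
  have hne : ∀ {k k' : L.F} {s s' : L.F} {g g' : G}, k ≠ k' → s ≠ 0 → s' ≠ 0 → P + k • Q = s • L.pt g →
      P + k' • Q = s' • L.pt g' → g ≠ g' := by
    intro k k' s s' g g' hk hs hs' ee ee' hgg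
    subst hgg
    have e : (s' + s) • P + (s' * k + s * k') • Q = 0 := by
      have : s' • (P + k • Q) + s • (P + k' • Q) = 0 := by
        rw [ee, ee', smul_smul, smul_smul, mul_comm, vec_add_self L.card_F]
      rw [← this]; module
    obtain ⟨h1, h2⟩ := hli _ _ e
    obtain rfl : s' = s := CharTwo.add_eq_zero.1 h1
    exact hk (mul_left_cancel₀ hs' (CharTwo.add_eq_zero.1 h2))
  have hxy : x ≠ y := hne (Ne.symm hω1) hs1 hs2 e1 e2
  have hxz : x ≠ z := hne (fun e => hω0 (by linear_combination -e)) hs1 hs3 e1 e3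
  have hyz : y ≠ z := hne (fun e => one_ne_zero (by linear_combination -e : (1 : L.F) = 0)) hs2 hs3 e2 e3
  have hτ : ∀ {g : G} {s : L.F} {v : Fin 6 → L.F}, g ∈ F → g ≠ a → s ≠ 0 → v = s • L.pt g →
      τ L.card_F v = τ L.card_F (L.pt g) := fun hg hga hs e' => by
    rw [e', τ_smul L.card_F (L.valid _ (K.nb ha hg hga)).2 hs]
  have h5 : ∀ w ∈ [b, c, x, y, z], w ∈ Nb D a := List.forall_mem_cons.2 ⟨hbN, List.forall_mem_cons.2 ⟨hcN,
    List.forall_mem_cons.2 ⟨K.nb ha hx hxa, List.forall_mem_cons.2 ⟨K.nb ha hy hya,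
      List.forall_mem_singleton.2 (K.nb ha hz hza)⟩⟩⟩⟩
  have hp := (L.prod [b, c, x, y, z] h5).1 (by
    rw [← five_prod L.card_F hω hPP hQQ hPQ]
    simp only [List.map_cons, List.map_nil]
    rw [hτ hx hxa hs1 e1, hτ hy hya hs2 e2, hτ hz hza hs3 e3])
  have hcl := centralizer_link M.grp M.prim M.type (K.sub ha) hbN (z := [b, c, x, y, z].prod)
    (Commute.list_prod_right _ _ fun w hw => (h5 w hw).2.2).symm hp
  simp only [List.prod_cons, List.prod_nil, mul_one] at hcl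
  have hbb : b * b = 1 := M.sq (K.sub hb)
  have hcc : c * c = 1 := M.sq (K.sub hc)
  have hBC : b * c * (b * c) = 1 := by
    nth_rewrite 2 [(K.comm b hb c hc).eq]
    simp only [mul_assoc, mul_eq_one_iff_eq_inv]
    rw [← mul_assoc c c, hcc, one_mul, inv_eq_of_mul_eq_one_right hbb]
  have hyN : y ∈ Nb D x := ⟨K.sub hy, hxy.symm, K.comm x hx y hy⟩
  have hzN : z ∈ Nb D x ∩ Nb D y :=
    ⟨⟨K.sub hz, hxz.symm, K.comm x hx z hz⟩, K.sub hz, hyz.symm, K.comm y hy z hz⟩
  have hj : a * b * c = x * y * z := by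
    rcases hcl with h | h
    · exfalso
      have e : x * y * z = b * c := by
        rw [mul_assoc]
        calc x * (y * z) = b * c * (b * c) * (x * (y * z)) := by rw [hBC, one_mul]
          _ = b * c * (b * (c * (x * (y * z)))) := by simp only [mul_assoc]
          _ = b * c := by rw [h, mul_one]
      have h2 : IsProd D 2 (b * c) := isProd_two (K.sub hb) ⟨K.sub hc, hbc.symm, K.comm b hb c hc⟩
      have h3 : IsProd D 3 (b * c) := e ▸ isProd_three (K.sub hx) hyN hzN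
      have := isProd_unique M (by norm_num) (by norm_num) (by norm_num) le_rfl h2 h3
      omega
    · rw [mul_assoc x, mul_assoc a]
      calc a * (b * c) = (b * c) * a := ((hbN.2.2).mul_right hcN.2.2).eq
        _ = b * c * (b * (c * (x * (y * z)))) := by rw [h]
        _ = b * c * (b * c) * (x * (y * z)) := by simp only [mul_assoc]
        _ = x * (y * z) := by rw [hBC, one_mul]
  refine ⟨x, y, z, hxB, hyB, hzB, K.nb ha hx hxa, K.nb ha hy hya, K.nb ha hz hza, ⟨hxb, hyb, hzb⟩, ⟨hxc, hyc, hzc⟩,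
    ⟨hxy, hxz, hyz⟩, hj, (Set.eq_of_subset_of_ncard_le ?_ ?_ (Set.toFinite _)).symm⟩
  · obtain ⟨m1, m2, m3⟩ := bl_mem M K ha hb hc
    rintro w (rfl | rfl | rfl | rfl | rfl | rfl) <;> assumption
  · rw [card_bl M K ha hb hc hba hca hbc, Set.ncard_insert_of_notMem, Set.ncard_insert_of_notMem,
      Set.ncard_insert_of_notMem, Set.ncard_eq_three.2 ⟨x, y, z, hxy, hxz, hyz, rfl⟩]
    · simp [hxc.symm, hyc.symm, hzc.symm]
    · simp [hbc, hxb.symm, hyb.symm, hzb.symm]
    · simp [hba.symm, hca.symm, hxa.symm, hya.symm, hza.symm]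

/-- An involution centralizing a frame lies in the subgroup it generates. -/
theorem mem_closure_frame {F : Set G} (K : MaxComm D F) {x : G} (hx : orderOf x = 2)
    (hc : ∀ f ∈ F, Commute x f) : x ∈ Subgroup.closure F := by
  obtain ⟨m, h1, h3, hm⟩ := involution_prod M hx
  rcases (by omega : m = 1 ∨ m = 2 ∨ m = 3) with rfl | rfl | rfl
  · exact Subgroup.subset_closure (K.max x hm.one_elim hc)
  · obtain ⟨p, q, hp, hq, rfl⟩ := hm.two_elim
    have hpF : ∀ f ∈ F, Commute p f ∧ Commute q f := by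
      intro f hf
      have e : f * (p * q) * f⁻¹ = p * q := by rw [(hc f hf).symm.eq, mul_inv_cancel_right]
      have hq' : f * q * f⁻¹ ∈ Nb D (f * p * f⁻¹) := nb_conj M.cl f hq
      have hsp : f * p * f⁻¹ * (f * q * f⁻¹) = p * q := by rw [← e]; group
      refine ⟨commute_of_conj_commute M hp (K.sub hf) ?_, commute_of_conj_commute M hq.1 (K.sub hf) ?_⟩ <;>
        rcases pair_unique M (M.cl f p hp) hq' hp hq hsp with ⟨h, h'⟩ | ⟨h, h'⟩
      exacts [by rw [h], by rw [h]; exact hq.2.2.symm, by rw [h'], by rw [h']; exact hq.2.2]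
    exact Subgroup.mul_mem _ (Subgroup.subset_closure (K.max p hp fun f hf => (hpF f hf).1))
      (Subgroup.subset_closure (K.max q hq.1 fun f hf => (hpF f hf).2))
  · obtain ⟨p, q, r, hp, hq, hr, rfl⟩ := hm.three_elim
    obtain ⟨F', K', hsub⟩ := exists_maxComm (D := D) (E := {p, q, r})
      (by rintro w (rfl | rfl | rfl); exacts [hp, hq.1, hr.1.1])
      (by
        rintro w (rfl | rfl | rfl) v (rfl | rfl | rfl)
        exacts [Commute.refl _, hq.2.2, hr.1.2.2, hq.2.2.symm, Commute.refl _, hr.2.2.2, hr.1.2.2.symm,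
          hr.2.2.2.symm, Commute.refl _])
    have hpF' : p ∈ F' := hsub (by simp)
    have hqF' : q ∈ F' := hsub (by simp)
    have hrF' : r ∈ F' := hsub (by simp)
    have hB : ∀ w ∈ ({p, q, r} : Set G), ∀ f ∈ F, Commute w f := by
      intro w hw f hf
      have hwF' := hsub hw
      refine commute_of_conj_commute M (K'.sub hwF') (K.sub hf) ?_
      have hl : [f * p * f⁻¹, f * q * f⁻¹, f * r * f⁻¹].Nodup ∧ [f * p * f⁻¹, f * q * f⁻¹, f * r * f⁻¹].length = 3 ∧
          (∀ v ∈ [f * p * f⁻¹, f * q * f⁻¹, f * r * f⁻¹], v ∈ D) ∧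
          (∀ v ∈ [f * p * f⁻¹, f * q * f⁻¹, f * r * f⁻¹], ∀ u ∈ [f * p * f⁻¹, f * q * f⁻¹, f * r * f⁻¹],
            Commute v u) ∧ [f * p * f⁻¹, f * q * f⁻¹, f * r * f⁻¹].prod = p * q * r := by
        refine ⟨by simp [hq.2.1.symm, hr.1.2.1.symm, hr.2.2.1.symm], rfl, ?_, ?_, ?_⟩
        · simp only [List.mem_cons, List.not_mem_nil, or_false, forall_eq_or_imp, forall_eq]
          exact ⟨M.cl f p hp, M.cl f q hq.1, M.cl f r hr.1.1⟩
        · simp only [List.mem_cons, List.not_mem_nil, or_false, forall_eq_or_imp, forall_eq, commute_conj_iff]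
          exact ⟨⟨Commute.refl _, hq.2.2, hr.1.2.2⟩, ⟨hq.2.2.symm, Commute.refl _, hr.2.2.2⟩, hr.1.2.2.symm,
            hr.2.2.2.symm, Commute.refl _⟩
        · have e : f * (p * q * r) * f⁻¹ = p * q * r := by rw [(hc f hf).symm.eq, mul_inv_cancel_right]
          rw [← e]; simp [mul_assoc]
      have hin := triple_block M K' hpF' hqF' hrF' hq.2.1 hr.1.2.1 hr.2.2.1.symm hl (f * w * f⁻¹)
        (by rcases hw with rfl | rfl | rfl <;> simp)
      exact K'.comm _ (bl_subset M K' hpF' hqF' hrF' hq.2.1 hr.1.2.1 hin) w hwF'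
    refine Subgroup.mul_mem _ (Subgroup.mul_mem _ ?_ ?_) ?_
    exacts [Subgroup.subset_closure (K.max p hp (hB p (by simp))),
      Subgroup.subset_closure (K.max q hq.1 (hB q (by simp))),
      Subgroup.subset_closure (K.max r hr.1.1 (hB r (by simp)))]

end Cfsg.Agent.Lib.Involution.FischerTwentyTwo
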