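import Cfsg.Agent.Lib.Involution.UnitaryPointQuotient
import Cfsg.Agent.Lib.Involution.FischerClassCounts
import Cfsg.Agent.Lib.Involution.FischerFrameProducts
import Cfsg.Agent.Lib.AutPSU.Count

/-! Type M(22): the centralizer of two commuting members and its map onto `PSU(4, 2)`. -/

set_option autoImplicit false

namespace Cfsg.Agent.Lib.Involution.FischerTwentyTwo

open Subgroup
open Cfsg Cfsg.Agent.Lib.AutPSU Cfsg.Agent.Lib.ThreeTransp Cfsg.Agent.Lib.Classical
  Cfsg.Agent.Lib.Involution.UnitaryTransp Cfsg.Agent.Lib.Involution.UnitaryPointQuot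
  Cfsg.Agent.Lib.Involution.FischerRel Cfsg.Agent.Lib.Involution.FischerLocal

universe u

variable {G : Type u} [Group G] [Finite G] {D : Set G}

theorem card_psu_four {F : Type*} [Field F] [Fintype F] (hF4 : Fintype.card F = 4) :
    Nat.card (Cfsg.PSU 4 F 2) = 25920 := by
  have hF := card2 hF4
  have := Herm.card_PSU hF (n := 4) (by norm_num)
  rw [Herm.card_GU hF] at this
  norm_num [Finset.prod_range_succ, Nat.even_iff, Nat.gcd, -Nat.card_eq_fintype_card] at this
  omega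

theorem card_psu_six {F : Type*} [Field F] [Fintype F] (hF4 : Fintype.card F = 4) :
    Nat.card (Cfsg.PSU 6 F 2) = 9196830720 := by
  have h := Herm.card_PSU (card2 hF4) (n := 6) (by norm_num)
  have hv : (2 : ℕ) ^ (6 * (6 - 1) / 2) *
      ∏ i ∈ Finset.range 6, (if Even i then 2 ^ (i + 1) + 1 else 2 ^ (i + 1) - 1) = 9 * 9196830720 := by
    decide +kernel
  rw [Herm.card_GU (card2 hF4), hv, show Nat.gcd 6 (2 + 1) = 3 from rfl, ← mul_assoc] at h
  exact Nat.eq_of_mul_eq_mul_left (by norm_num : 0 < 9) h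

variable (M : Hyp D)
include M

theorem exists_frame_three' {d a b : G} (hd : d ∈ D) (ha : a ∈ Nb D d) (hb : b ∈ Nb D d ∩ Nb D a) :
    ∃ F, MaxComm D F ∧ d ∈ F ∧ a ∈ F ∧ b ∈ F := by
  obtain ⟨F, K, hsub⟩ := exists_maxComm (D := D) (E := {d, a, b})
    (by rintro w (rfl | rfl | rfl); exacts [hd, ha.1, hb.1.1])
    (by
      rintro w (rfl | rfl | rfl) v (rfl | rfl | rfl)
      exacts [Commute.refl _, ha.2.2, hb.1.2.2, ha.2.2.symm, Commute.refl _, hb.2.2.2, hb.1.2.2.symm,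
        hb.2.2.2.symm, Commute.refl _])
  exact ⟨F, K, hsub (by simp), hsub (by simp), hsub (by simp)⟩

/-- The map of the centralizer of a member onto `PSU(6, 2)`. -/
theorem exists_linkHom {d : G} (hd : d ∈ D) :
    ∃ π : ↥(centralizer ({d} : Set G)) →* P 6 (M.lk hd).F 2,
      (∀ (a : G) (ha : a ∈ centralizer ({d} : Set G)), a ∈ Nb D d →
        π ⟨a, ha⟩ = τ (M.lk hd).card_F ((M.lk hd).pt a)) ∧
      (∀ x : ↥(centralizer ({d} : Set G)), π x = 1 ↔ (x : G) = 1 ∨ (x : G) = d) ∧ Function.Surjective π := by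
  classical
  set L := M.lk hd
  obtain ⟨b, hb⟩ : (Nb D d).Nonempty := Set.nonempty_of_ncard_ne_zero (by rw [card_nb M hd]; norm_num)
  have key : ∀ y : ↥(centralizer ({d} : Set G)), ∃ l : List G, (∀ a ∈ l, a ∈ Nb D d) ∧ l.prod = y := by
    rintro ⟨y, hy⟩
    have hy' := hy
    rw [← centralizer_eq_link M hd] at hy'
    show ∃ l : List G, (∀ a ∈ l, a ∈ Nb D d) ∧ l.prod = y
    clear hy
    induction hy' using Subgroup.closure_induction with
    | mem y hy => exact ⟨[y], fun a ha => by rw [List.mem_singleton.1 ha]; exact hy, by simp⟩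
    | one => exact ⟨[], by simp, rfl⟩
    | mul p q _ _ hp hq =>
      obtain ⟨l, hl, rfl⟩ := hp
      obtain ⟨l', hl', rfl⟩ := hq
      exact ⟨l ++ l', fun a ha => (List.mem_append.1 ha).elim (hl a) (hl' a), List.prod_append⟩
    | inv p _ hp =>
      obtain ⟨l, hl, rfl⟩ := hp
      exact ⟨l.reverse, fun a ha => hl a (List.mem_reverse.1 ha),
        (prod_inv_rev M.tr fun a ha => (hl a ha).1).symm⟩
  choose ls hls hlp using key
  set f : List G → P 6 L.F 2 := fun l => (l.map fun a => τ L.card_F (L.pt a)).prod with hf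
  have happ : ∀ l l', f (l ++ l') = f l * f l' := fun l l' => by simp [hf]
  have hcong : ∀ l l', (∀ a ∈ l, a ∈ Nb D d) → (∀ a ∈ l', a ∈ Nb D d) → l.prod = l'.prod → f l = f l' := by
    intro l l' hl hl' e
    have hm' : ∀ a ∈ l ++ l'.reverse, a ∈ Nb D d :=
      fun a ha => (List.mem_append.1 ha).elim (hl a) fun h => hl' a (List.mem_reverse.1 h)
    have hm : ∀ a ∈ l' ++ l'.reverse, a ∈ Nb D d :=
      fun a ha => (List.mem_append.1 ha).elim (hl' a) fun h => hl' a (List.mem_reverse.1 h)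
    have h1 : f (l ++ l'.reverse) = 1 := (L.prod _ hm').2 fun e' _ => by
      rw [List.prod_append, e, ← prod_inv_rev M.tr (fun a ha => (hl' a ha).1), mul_inv_cancel]
      exact Commute.one_left e'
    have h2 : f (l' ++ l'.reverse) = 1 := (L.prod _ hm).2 fun e' _ => by
      rw [List.prod_append, ← prod_inv_rev M.tr (fun a ha => (hl' a ha).1), mul_inv_cancel]
      exact Commute.one_left e'
    rw [happ] at h1 h2
    exact mul_right_cancel (h1.trans h2.symm)
  set π : ↥(centralizer ({d} : Set G)) →* P 6 L.F 2 := MonoidHom.mk' (fun x => f (ls x)) fun x y => by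
    rw [← happ]
    exact hcong _ _ (hls _) (fun a ha => (List.mem_append.1 ha).elim (hls x a) (hls y a))
      (by rw [hlp, List.prod_append, hlp, hlp]; rfl)
  have hker : ∀ x, π x = 1 ↔ (x : G) = 1 ∨ (x : G) = d := by
    intro x
    have hxd : Commute (x : G) d := mem_centralizer_singleton_iff.1 x.2
    constructor
    · intro h
      exact centralizer_link M.grp M.prim M.type hd hb hxd fun e he => hlp x ▸ (L.prod _ (hls x)).1 h e he
    · intro h
      refine (L.prod _ (hls x)).2 fun e he => ?_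
      rw [hlp]
      rcases h with h | h <;> rw [h]
      exacts [Commute.one_left e, he.2.2]
  refine ⟨π, fun a ha haN => ?_, hker, ?_⟩
  · show f (ls _) = _
    rw [hcong (ls ⟨a, ha⟩) [a] (hls _) (by simpa using haN) (by rw [hlp]; simp)]
    simp [hf]
  · have hk : Nat.card π.ker ≤ 2 := by
      refine le_trans (Nat.card_le_card_of_injective (fun x : π.ker => (⟨(x : ↥(centralizer ({d} : Set G))),
        (hker _).1 x.2⟩ : {y : G // y = 1 ∨ y = d})) fun x y e => Subtype.ext (Subtype.ext (by simpa using congrArg Subtype.val e))) ?_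
      rw [← Set.coe_setOf, Nat.card_coe_set_eq]
      refine (Set.ncard_le_ncard (show {y : G | y = 1 ∨ y = d} ⊆ {1, d} from fun y hy => hy) (Set.toFinite _)).trans ?_
      exact (Set.ncard_insert_le _ _).trans (by simp)
    have h := π.ker.card_mul_index
    rw [Subgroup.index_ker, card_centralizer M hd] at h
    have hr : Nat.card (P 6 L.F 2) ≤ Nat.card π.range := by
      change Nat.card (Cfsg.PSU 6 L.F 2) ≤ _
      rw [card_psu_six L.card_F]
      nlinarith
    exact MonoidHom.range_eq_top.1 (Subgroup.eq_top_of_le_card _ hr)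

/-- The projection of the joint centralizer onto `PSU(4, 2)`. -/
structure PairMap (D : Set G) (d e : G) (F : Type) [Field F] [Fintype F] where
  card_F : Fintype.card F = 4
  ψ : ↥(centralizer ({d, e} : Set G)) →* P 4 F 2
  surj : Function.Surjective ψ
  card_ker : Nat.card ψ.ker = 1024
  mem_d : ∀ h : d ∈ centralizer ({d, e} : Set G), ψ ⟨d, h⟩ = 1
  mem_e : ∀ h : e ∈ centralizer ({d, e} : Set G), ψ ⟨e, h⟩ = 1
  ker_rel : ∀ x y : ↥(centralizer ({d, e} : Set G)), ψ x = 1 → ψ y = 1 →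
    ((x * y * x⁻¹ * y⁻¹ : G) ∈ closure ({d, e} : Set G)) ∧ ((x : G) ^ 2 ∈ closure ({d, e} : Set G))
  central : ∀ x : ↥(centralizer ({d, e} : Set G)), (∀ y, Commute x y) → (x : G) ∈ closure ({d, e} : Set G)
  center_ker : ∀ x : ↥(centralizer ({d, e} : Set G)), ψ x = 1 → (∀ y, ψ y = 1 → Commute x y) →
    (x : G) ∈ closure ({d, e} : Set G)
  same : ∀ (c r : G) (hc : c ∈ centralizer ({d, e} : Set G)) (hr : r ∈ centralizer ({d, e} : Set G)),
    c ∈ Nb D d ∩ Nb D e → r ∈ Nb D d ∩ Nb D e → r ∈ Bl D d e c → ψ ⟨r, hr⟩ = ψ ⟨c, hc⟩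
  point : ∀ (c : G) (hc : c ∈ centralizer ({d, e} : Set G)), c ∈ Nb D d ∩ Nb D e →
    ∃ v : Fin 4 → F, Valid 2 v ∧ ψ ⟨c, hc⟩ = τ card_F v
  sep : ∀ (c c' : G) (hc : c ∈ centralizer ({d, e} : Set G)) (hc' : c' ∈ centralizer ({d, e} : Set G)),
    c ∈ Nb D d ∩ Nb D e → c' ∈ Nb D d ∩ Nb D e → ψ ⟨c, hc⟩ = ψ ⟨c', hc'⟩ → c' ∈ Bl D d e c
  perp : ∀ v : Fin 4 → F, Valid 2 v → ∃ q, q ∈ Nb D d ∩ Nb D e ∧
    ∀ (c : G) (hc : c ∈ centralizer ({d, e} : Set G)), c ∈ Nb D d ∩ Nb D e →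
      Commute (τ card_F v) (ψ ⟨c, hc⟩) → Commute c q

omit M in
theorem cent_pair_iff {d e x : G} :
    x ∈ centralizer ({d, e} : Set G) ↔ x * d = d * x ∧ x * e = e * x := by
  rw [mem_centralizer_iff]
  constructor
  · exact fun h => ⟨(h d (by simp)).symm, (h e (by simp)).symm⟩
  · rintro ⟨h1, h2⟩ y (rfl | rfl)
    exacts [h1.symm, h2.symm]

theorem closure_pair_mem {d e x : G} (h : x = 1 ∨ x = d ∨ x = e ∨ x = d * e) : x ∈ closure ({d, e} : Set G) := by
  rcases h with rfl | rfl | rfl | rfl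
  exacts [one_mem _, subset_closure (by simp), subset_closure (by simp),
    mul_mem (subset_closure (by simp)) (subset_closure (by simp))]

theorem card_centralizer_two {d e : G} (hd : d ∈ D) (he : e ∈ Nb D d) :
    Nat.card ↥(centralizer ({d * e} : Set G)) = 53084160 := by
  have h1 := ncard_conjugates_mul (d * e)
  have h2 := class_two M (isProd_two hd he)
  rw [card_group M hd] at h1
  have e' : (conjugatesOf (d * e)).ncard = 1216215 := by omega
  rw [e'] at h1
  omega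

theorem conj_mem_pair {d e g : G} (hd : d ∈ D) (he : e ∈ Nb D d) (hg : g ∈ centralizer ({d * e} : Set G)) :
    g * d * g⁻¹ = d ∧ g * e * g⁻¹ = e ∨ g * d * g⁻¹ = e ∧ g * e * g⁻¹ = d := by
  have h : g * d * g⁻¹ * (g * e * g⁻¹) = d * e := by
    rw [show g * d * g⁻¹ * (g * e * g⁻¹) = g * (d * e) * g⁻¹ by group, mem_centralizer_singleton_iff.1 hg,
      mul_inv_cancel_right]
  exact pair_unique M (M.cl g d hd) (nb_conj M.cl g he) hd he h

theorem pair_le_single {d e : G} (hd : d ∈ D) (he : e ∈ Nb D d) :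
    centralizer ({d, e} : Set G) ≤ centralizer ({d * e} : Set G) ∧
      ((centralizer ({d, e} : Set G)).subgroupOf (centralizer ({d * e} : Set G))).index = 2 := by
  have hle : centralizer ({d, e} : Set G) ≤ centralizer ({d * e} : Set G) := fun x hx => by
    obtain ⟨h1, h2⟩ := cent_pair_iff.1 hx
    exact mem_centralizer_singleton_iff.2 ((show Commute x d from h1).mul_right (show Commute x e from h2)).eq
  refine ⟨hle, ?_⟩
  obtain ⟨g, hg1, hg2⟩ := conj_pair M hd he.1 he (nb_symm hd he)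
  have hg : g ∈ centralizer ({d * e} : Set G) := mem_centralizer_singleton_iff.2 (mul_inv_eq_iff_eq_mul.1 (by
    rw [show g * (d * e) * g⁻¹ = g * d * g⁻¹ * (g * e * g⁻¹) by group, hg1, hg2]; exact he.2.2.eq.symm))
  have hmem : ∀ x : ↥(centralizer ({d * e} : Set G)),
      x ∈ (centralizer ({d, e} : Set G)).subgroupOf (centralizer ({d * e} : Set G)) ↔ (x : G) * d * (x : G)⁻¹ = d := by
    intro x
    rw [mem_subgroupOf, cent_pair_iff, mul_inv_eq_iff_eq_mul]
    refine ⟨fun h => h.1, fun h => ⟨h, ?_⟩⟩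
    rcases conj_mem_pair M hd he x.2 with ⟨-, h2⟩ | ⟨h1, -⟩
    · exact mul_inv_eq_iff_eq_mul.1 h2
    · exact absurd (h1.symm.trans (mul_inv_eq_iff_eq_mul.2 h)) he.2.1
  refine index_eq_two_iff.2 ⟨⟨g, hg⟩, fun b => ?_⟩
  rw [hmem, hmem, Subgroup.coe_mul]
  show Xor ((b : G) * g * d * ((b : G) * g)⁻¹ = d) _
  rw [show (b : G) * g * d * ((b : G) * g)⁻¹ = (b : G) * (g * d * g⁻¹) * (b : G)⁻¹ by group, hg1]
  rcases conj_mem_pair M hd he b.2 with ⟨h1, h2⟩ | ⟨h1, h2⟩
  · rw [h1, h2]; exact Or.inr ⟨rfl, he.2.1⟩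
  · rw [h1, h2]; exact Or.inl ⟨rfl, he.2.1⟩

theorem card_centralizer_pair {d e : G} (hd : d ∈ D) (he : e ∈ Nb D d) :
    Nat.card ↥(centralizer ({d, e} : Set G)) = 26542080 := by
  obtain ⟨hle, h2⟩ := pair_le_single M hd he
  have h := ((centralizer ({d, e} : Set G)).subgroupOf (centralizer ({d * e} : Set G))).card_mul_index
  rw [h2, Nat.card_congr (subgroupOfEquivOfLe hle).toEquiv, card_centralizer_two M hd he] at h
  omega

theorem exists_pairMap {d e : G} (hd : d ∈ D) (he : e ∈ Nb D d) :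
    ∃ (F : Type) (_ : Field F) (_ : Fintype F), Nonempty (PairMap D d e F) := by
  classical
  set L := M.lk hd
  have hF4 := L.card_F
  have hF := card2 hF4
  haveI := charTwo hF4
  obtain ⟨π, hπ, hker, hsurj⟩ := exists_linkHom M hd
  set Pv := L.pt e
  obtain ⟨fv, HP⟩ := exists_pair_at hF4 (L.valid e he)
  obtain ⟨w, H⟩ := exists_frame4 hF4 HP
  set K := centralizer ({d, e} : Set G)
  have hKd : K ≤ centralizer ({d} : Set G) := centralizer_le (by simp)
  have hed : e ∈ centralizer ({d} : Set G) := mem_centralizer_singleton_iff.2 he.2.2.symm.eq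
  set π' : K →* P 6 L.F 2 := π.comp (Subgroup.inclusion hKd)
  have hπ' : ∀ x : K, π' x ∈ centralizer ({τ hF4 Pv} : Set (P 6 L.F 2)) := by
    intro x
    rw [mem_centralizer_singleton_iff, ← hπ e hed he]
    show π _ * π _ = π _ * π _
    rw [← map_mul, ← map_mul]
    exact congrArg π (Subtype.ext (cent_pair_iff.1 x.2).2)
  have hlift : ∀ z ∈ centralizer ({τ hF4 Pv} : Set (P 6 L.F 2)), ∃ x : K, π' x = z := by
    intro z hz
    obtain ⟨x, rfl⟩ := hsurj z
    have hxd : Commute (x : G) d := mem_centralizer_singleton_iff.1 x.2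
    have hyN : (x : G) * e * (x : G)⁻¹ ∈ Nb D d := by
      have := nb_conj M.cl (x : G) he
      rwa [hxd.eq, mul_inv_cancel_right] at this
    have hy : (x : G) * e * (x : G)⁻¹ ∈ centralizer ({d} : Set G) := mul_mem (mul_mem x.2 hed) (inv_mem x.2)
    have e1 : π ⟨_, hy⟩ = π x * π ⟨e, hed⟩ * (π x)⁻¹ := by
      rw [← map_inv, ← map_mul, ← map_mul]; rfl
    rw [hπ _ hy hyN, hπ e hed he, mem_centralizer_singleton_iff.1 hz, mul_inv_cancel_right] at e1
    obtain ⟨s, hs, e2⟩ := UnitaryTransp.par_of_eq hF4 (show 1 ≤ 6 by norm_num) (L.valid _ hyN) (L.valid e he) e1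
    have e3 := L.eq_of_prop hyN he hs e2
    exact ⟨⟨(x : G), cent_pair_iff.2 ⟨hxd.eq, mul_inv_eq_iff_eq_mul.1 e3⟩⟩, rfl⟩
  set q := quotHom hF4 H
  set ψ : K →* P 4 L.F 2 := q.comp (π'.codRestrict _ hπ')
  have hψs : Function.Surjective ψ := by
    intro y
    obtain ⟨⟨z, hz⟩, rfl⟩ := quotHom_surjective hF4 H y
    obtain ⟨x, hx⟩ := hlift z hz
    exact ⟨x, congrArg q (Subtype.ext hx)⟩
  haveI : Finite (P 4 L.F 2) := inferInstance
  have hk1024 : Nat.card ψ.ker = 1024 := by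
    have h := ψ.ker.card_mul_index
    rw [Subgroup.index_ker, MonoidHom.range_eq_top.2 hψs, Subgroup.card_top, card_centralizer_pair M hd he] at h
    change _ * Nat.card (Cfsg.PSU 4 L.F 2) = _ at h
    rw [card_psu_four hF4] at h
    omega
  have hπone : ∀ x : K, π' x = 1 ↔ (x : G) = 1 ∨ (x : G) = d := fun x => hker _
  have hdK : d ∈ K := cent_pair_iff.2 ⟨rfl, he.2.2.eq⟩
  have heK : e ∈ K := cent_pair_iff.2 ⟨he.2.2.symm.eq, rfl⟩
  have hcent : ∀ x : K, π' x = 1 ∨ π' x = τ hF4 Pv → (x : G) ∈ closure ({d, e} : Set G) := by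
    intro x h
    rcases h with h | h
    · rcases (hπone x).1 h with h | h
      exacts [closure_pair_mem M (Or.inl h), closure_pair_mem M (Or.inr (Or.inl h))]
    · have he' : π' ⟨e, heK⟩ = τ hF4 Pv := hπ e _ he
      have : π' ((⟨e, heK⟩ : K)⁻¹ * x) = 1 := by rw [map_mul, map_inv, he', h, inv_mul_cancel]
      rcases (hπone _).1 this with h' | h' <;>
        rw [Subgroup.coe_mul, Subgroup.coe_inv, inv_mul_eq_iff_eq_mul] at h' <;> rw [h']
      · exact closure_pair_mem M (Or.inr (Or.inr (Or.inl (mul_one e))))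
      · exact closure_pair_mem M (Or.inr (Or.inr (Or.inr he.2.2.symm.eq)))
  have hψe : ψ ⟨e, heK⟩ = 1 := by
    have hz : τ hF4 Pv ∈ centralizer ({τ hF4 Pv} : Set (P 6 L.F 2)) := mem_centralizer_singleton_iff.2 rfl
    have e0 : π'.codRestrict _ hπ' ⟨e, heK⟩ = ⟨τ hF4 Pv, hz⟩ := Subtype.ext (hπ e _ he)
    show q _ = 1
    rw [e0]
    rcases quotHom_tau hF4 H (L.valid e he) (L.valid e he).2 hz with ⟨-, h⟩ | ⟨h, -⟩
    · exact h
    · exact absurd (co_e hF4 H) h.1
  have hsubQ : ∀ z ∈ QG hF H.pair, ∃ x : K, π' x = z ∧ ψ x = 1 := by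
    intro z hz
    obtain ⟨hzc, hq⟩ := QG_le_ker hF4 H hz
    obtain ⟨x, hx⟩ := hlift z hzc
    exact ⟨x, hx, (congrArg q (Subtype.ext hx)).trans hq⟩
  have hkerQ : ∀ x : K, ψ x = 1 → π' x ∈ QG hF H.pair := by
    set R : Subgroup (P 6 L.F 2) := ψ.ker.map π'
    have hle : QG hF H.pair ≤ R := fun z hz => by
      obtain ⟨x, hx, hx'⟩ := hsubQ z hz
      exact ⟨x, hx', hx⟩
    have hR : Nat.card R ≤ 512 := by
      set π₀ : ψ.ker →* P 6 L.F 2 := π'.comp ψ.ker.subtype
      have e : R = π₀.range := by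
        ext z; constructor
        · rintro ⟨x, hx, rfl⟩; exact ⟨⟨x, hx⟩, rfl⟩
        · rintro ⟨⟨x, hx⟩, rfl⟩; exact ⟨x, hx, rfl⟩
      have hk : 2 ≤ Nat.card π₀.ker := by
        have h1 : ψ ⟨d, hdK⟩ = 1 := by
          show q _ = 1
          rw [show π'.codRestrict _ hπ' ⟨d, hdK⟩ = 1 from Subtype.ext ((hπone _).2 (Or.inr rfl)), map_one]
        haveI : Nontrivial π₀.ker := ⟨⟨⟨⟨⟨d, hdK⟩, h1⟩, (hπone _).2 (Or.inr rfl)⟩, 1, fun h => by
          have := congrArg (fun z : π₀.ker => (((z : ψ.ker) : K) : G)) h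
          exact (fun h1 : d = 1 => by have := M.tr.1 d hd; rw [h1, orderOf_one] at this; omega) this⟩⟩
        exact Finite.one_lt_card
      have h := π₀.ker.card_mul_index
      rw [Subgroup.index_ker, ← e, hk1024] at h
      nlinarith
    have hRQ : R = QG hF H.pair := (eq_of_le_of_card_ge hle (hR.trans (card_QG hF4 H))).symm
    exact fun x hx => hRQ ▸ ⟨x, hx, rfl⟩
  have hcore : ∀ x : K, ψ x = 1 → (∀ y : K, ψ y = 1 → Commute x y) → (x : G) ∈ closure ({d, e} : Set G) := by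
    intro x hone hx
    obtain ⟨v, k, hv, hk, hxe⟩ := hkerQ x hone
    refine hcent x ?_
    have hv0 : v = 0 := by
      have key : ∀ (y : Fin 6 → L.F) (k' : L.F), InW 2 Pv fv y → Cond 2 y k' → hm 2 y v = hm 2 v y := by
        intro y k' hy hk'
        obtain ⟨z, hz', hz1⟩ := hsubQ _ (U_mem_QG hF H.pair hy hk')
        have hc : Commute (π' x) (π' z) := (hx z hz1).map π'
        rw [hxe, hz'] at hc
        have he1 : (pr (U hF Pv (v + y) (k + k' - hm 2 y v)) : P 6 L.F 2) =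
            pr (U hF Pv (y + v) (k' + k - hm 2 v y)) := by
          rw [← U_mul hF H.pair hv hy hk hk', ← U_mul hF H.pair hy hv hk' hk, map_mul, map_mul]; exact hc.eq
        have hc2 : Cond 2 (y + v) (k' + k - hm 2 v y) := hk'.mul hF hk
        have h' := eq_of_pr_eq hF (by norm_num) (U_nilpotent hF H.pair (hv.add hy) (hk.mul hF hk'))
          (U_nilpotent hF H.pair (hy.add hv) hc2) he1
        have h3 := (U_inj hF H.pair (hv.add hy) (hy.add hv) (hk.mul hF hk') hc2 h').2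
        linear_combination -h3
      obtain ⟨ω, hω0, hω1, hω, -⟩ := exists_other hF4
      have hall : ∀ y, InW 2 Pv fv y → hm 2 y v = 0 := by
        intro y hy
        have hex : ∀ y : Fin 6 → L.F, ∃ k', Cond 2 y k' := fun y => by
          rcases fixed_cases hF4 (hm_swap hF y y).symm with h | h
          · exact ⟨0, by rw [Cond, h]; simp⟩
          · exact ⟨ω, by rw [Cond, h, hω, CharTwo.neg_eq, ← add_assoc, CharTwo.add_self_eq_zero, zero_add]⟩
        obtain ⟨k1, hk1⟩ := hex y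
        obtain ⟨k2, hk2⟩ := hex (ω • y)
        have h1 := key y k1 hy hk1
        have h2 := key (ω • y) k2 (hy.smul ω) hk2
        rw [hm_smul_left', hm_smul_right, hω, ← h1] at h2
        linear_combination -h2
      have := io_co hF4 H hv
      rw [← this, show co w v = 0 from funext fun i => hm_comm_zero hF (hall (w i) (H.inW i))]
      simp [io]
    rw [hv0] at hxe hk
    have hk' : Skew 2 k := by rw [Cond, hm_zero_left, neg_zero] at hk; exact hk
    rw [U_zero_eq_T hF H.pair hk'] at hxe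
    rcases fixed_cases hF4 (CharTwo.add_eq_zero.1 hk').symm with rfl | rfl
    · rw [T_zero hF H.pair.ee, map_one] at hxe; exact Or.inl hxe
    · exact Or.inr hxe
  have hsame : ∀ (c r : G) (hc : c ∈ K) (hr : r ∈ K), c ∈ Nb D d ∩ Nb D e → r ∈ Nb D d ∩ Nb D e →
      r ∈ Bl D d e c → ψ ⟨r, hr⟩ = ψ ⟨c, hc⟩ := by
    intro c r hc hr hcN hrN hrB
    have hco : ∀ (c : G) (hc : c ∈ K), c ∈ Nb D d ∩ Nb D e →
        Valid 2 (co w (L.pt c)) ∧ ψ ⟨c, hc⟩ = τ hF4 (co w (L.pt c)) := by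
      intro c hc hcN
      have hce : hm 2 (L.pt c) Pv = 0 := (L.orth hcN.1 he).2 hcN.2.2.2.symm
      have hz : τ hF4 (L.pt c) ∈ centralizer ({τ hF4 Pv} : Set (P 6 L.F 2)) := mem_centralizer_singleton_iff.2
        ((UnitaryTransp.commute_iff hF4 (show 1 ≤ 6 by norm_num) (L.valid c hcN.1) (L.valid e he)).2
          (hm_comm_zero hF hce)).eq
      have e0 : π'.codRestrict _ hπ' ⟨c, hc⟩ = ⟨_, hz⟩ := Subtype.ext (hπ c _ hcN.1)
      rcases quotHom_tau hF4 H (L.valid c hcN.1) hce hz with ⟨h, -⟩ | ⟨h, h'⟩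
      · exfalso
        have h2 := co_eq_io hF4 H hce
        rw [h] at h2
        simp [io] at h2
        refine hcN.2.2.1 (L.eq_of_prop hcN.1 he (fun h0 => (L.valid c hcN.1).1 ?_) h2)
        rw [h2, h0, zero_smul]
      · exact ⟨h, by show q _ = _; rw [e0]; exact h'⟩
    obtain ⟨v1, p1⟩ := hco c hc hcN
    obtain ⟨v2, p2⟩ := hco r hr hrN
    obtain ⟨Fr, Kf, hdF, heF, hcF⟩ := exists_frame_three' M hd he hcN
    obtain ⟨-, -, hsp⟩ := ((mem_bl_iff M Kf hdF heF hcF he.2.1 hcN.1.2.1 L).1 hrB).resolve_left hrN.1.2.1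
    obtain ⟨s₁, s₂, hsum⟩ := Submodule.mem_span_pair.1 hsp
    have e2 : co w (L.pt r) = s₂ • co w (L.pt c) := by
      rw [← hsum, co_add, co_smul, co_smul, co_e hF4 H, smul_zero, zero_add]
    rw [p1, p2, e2, τ_smul hF4 v1.2]
    rintro rfl
    rw [zero_smul] at e2
    exact v2.1 e2
  refine ⟨L.F, inferInstance, inferInstance, ⟨⟨hF4, ψ, hψs, hk1024, fun h => ?_, fun h => hψe, ?_, ?_, ?_, ?_, ?_, ?_, ?_⟩⟩⟩
  · show q _ = 1
    rw [show π'.codRestrict _ hπ' ⟨d, h⟩ = 1 from Subtype.ext ((hπone _).2 (Or.inr rfl)), map_one]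
  · intro x y hx hy
    obtain ⟨h1, h2⟩ := QG_sq_comm hF4 H (hkerQ x hx) (hkerQ y hy)
    refine ⟨hcent (x * y * x⁻¹ * y⁻¹) ?_, hcent (x ^ 2) ?_⟩
    · simpa only [map_mul, map_inv] using h1
    · simpa only [map_pow] using h2
  · intro x hx
    haveI := Classical.UnitarySimple.isSimpleGroup_PSU hF (n := 4) (by norm_num) (by norm_num)
    have hone : ψ x = 1 := by
      have hmem : ψ x ∈ Subgroup.center (P 4 L.F 2) := mem_center_iff.2 fun g => by
        obtain ⟨y, rfl⟩ := hψs g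
        rw [← map_mul, ← map_mul, (hx y).eq]
      rcases (inferInstance : (Subgroup.center (P 4 L.F 2)).Normal).eq_bot_or_eq_top with hb | hb
      · rw [hb] at hmem; exact mem_bot.1 hmem
      · exfalso
        obtain ⟨e₀, f₀, HP₀⟩ := exists_pair hF (n := 4) (by norm_num)
        have hc : Commute (tr hF e₀ (1 : L.F)) (tr hF f₀ 1) :=
          (mem_center_iff.1 (hb ▸ mem_top (tr hF e₀ (1 : L.F))) (tr hF f₀ 1)).symm
        have := (UnitaryTransp.commute_iff hF4 (show 1 ≤ 4 by norm_num) HP₀.valid_e HP₀.valid_f).1 hc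
        rw [HP₀.fe] at this
        exact one_ne_zero this
    exact hcore x hone fun y _ => hx y
  · exact hcore
  · exact hsame
  · intro c hc hcN
    have hce : hm 2 (L.pt c) Pv = 0 := (L.orth hcN.1 he).2 hcN.2.2.2.symm
    have hz : τ hF4 (L.pt c) ∈ centralizer ({τ hF4 Pv} : Set (P 6 L.F 2)) := mem_centralizer_singleton_iff.2
      ((UnitaryTransp.commute_iff hF4 (show 1 ≤ 6 by norm_num) (L.valid c hcN.1) (L.valid e he)).2
        (hm_comm_zero hF hce)).eq
    have e0 : π'.codRestrict _ hπ' ⟨c, hc⟩ = ⟨_, hz⟩ := Subtype.ext (hπ c _ hcN.1)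
    rcases quotHom_tau hF4 H (L.valid c hcN.1) hce hz with ⟨h, -⟩ | ⟨h, h'⟩
    · exfalso
      have h2 := co_eq_io hF4 H hce
      rw [h] at h2
      simp [io] at h2
      refine hcN.2.2.1 (L.eq_of_prop hcN.1 he (fun h0 => (L.valid c hcN.1).1 ?_) h2)
      rw [h2, h0, zero_smul]
    · refine ⟨_, h, ?_⟩
      show q _ = _
      rw [e0]; exact h'
  · intro c c' hc hc' hcN hcN' heq
    have hco : ∀ (c : G) (hc : c ∈ K), c ∈ Nb D d ∩ Nb D e →
        hm 2 (L.pt c) Pv = 0 ∧ Valid 2 (co w (L.pt c)) ∧ ψ ⟨c, hc⟩ = τ hF4 (co w (L.pt c)) := by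
      intro c hc hcN
      have hce : hm 2 (L.pt c) Pv = 0 := (L.orth hcN.1 he).2 hcN.2.2.2.symm
      have hz : τ hF4 (L.pt c) ∈ centralizer ({τ hF4 Pv} : Set (P 6 L.F 2)) := mem_centralizer_singleton_iff.2
        ((UnitaryTransp.commute_iff hF4 (show 1 ≤ 6 by norm_num) (L.valid c hcN.1) (L.valid e he)).2
          (hm_comm_zero hF hce)).eq
      have e0 : π'.codRestrict _ hπ' ⟨c, hc⟩ = ⟨_, hz⟩ := Subtype.ext (hπ c _ hcN.1)
      rcases quotHom_tau hF4 H (L.valid c hcN.1) hce hz with ⟨h, -⟩ | ⟨h, h'⟩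
      · exfalso
        have h2 := co_eq_io hF4 H hce
        rw [h] at h2
        simp [io] at h2
        refine hcN.2.2.1 (L.eq_of_prop hcN.1 he (fun h0 => (L.valid c hcN.1).1 ?_) h2)
        rw [h2, h0, zero_smul]
      · exact ⟨hce, h, by show q _ = _; rw [e0]; exact h'⟩
    obtain ⟨o1, v1, p1⟩ := hco c hc hcN
    obtain ⟨o2, v2, p2⟩ := hco c' hc' hcN'
    rw [p1, p2] at heq
    obtain ⟨s, hs, e2⟩ := UnitaryTransp.par_of_eq hF4 (show 1 ≤ 4 by norm_num) v1 v2 heq
    obtain ⟨Fr, Kf, hdF, heF, hcF⟩ := exists_frame_three' M hd he hcN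
    set W := Submodule.span L.F {Pv, L.pt c}
    have hio : io w (s • co w (L.pt c')) = s • io w (co w (L.pt c')) := by
      simp [io, smul_add, smul_smul]
    have hmem : L.pt c' ∈ W := by
      refine (Submodule.smul_mem_iff _ hs).1 ?_
      conv in L.pt c' => rw [co_eq_io hF4 H o2]
      rw [smul_add, smul_smul, ← hio, ← e2]
      have h := co_eq_io hF4 H o1
      rw [show io w (co w (L.pt c)) = L.pt c - hm 2 (L.pt c) fv • Pv from eq_sub_of_add_eq' h.symm]
      have hP : Pv ∈ W := Submodule.subset_span (Or.inl rfl)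
      have hC : L.pt c ∈ W := Submodule.subset_span (Or.inr rfl)
      exact Submodule.add_mem _ (Submodule.smul_mem _ _ hP)
        (Submodule.sub_mem _ hC (Submodule.smul_mem _ _ hP))
    refine (mem_bl_iff M Kf hdF heF hcF he.2.1 hcN.1.2.1 L).2 (Or.inr ⟨?_, hcN'.1.2.1, hmem⟩)
    refine mem_of_pt_mem M Kf hdF L hcN'.1 (Submodule.span_le.2 ?_ hmem)
    rintro v (rfl | rfl)
    exacts [pt_mem_frameSpan M Kf L heF he.2.1, pt_mem_frameSpan M Kf L hcF hcN.1.2.1]
  · intro v hv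
    have hv6 : Valid 2 (io w v) := ⟨fun e0 => hv.1 (by
      rw [← co_io hF4 H v, e0]; funext i; exact hm_zero_left _), by rw [hm_io hF4 H]; exact hv.2⟩
    obtain ⟨qq, hqq, s, hs, hv6e⟩ := L.surj _ hv6
    have hqe : Commute qq e := (L.orth hqq he).1 (by
      have h : hm 2 (io w v) Pv = 0 := (io_InW hF4 H v).1
      rw [hv6e, hm_smul_left'] at h
      exact (mul_eq_zero.1 h).resolve_left hs)
    have hqne : qq ≠ e := by
      rintro rfl
      refine hv.1 ?_
      rw [← co_io hF4 H v, hv6e, co_smul, co_e hF4 H, smul_zero]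
    refine ⟨qq, ⟨hqq, hqq.1, hqne, hqe.symm⟩, fun c hc hcN hcomm => ?_⟩
    have hce : hm 2 (L.pt c) Pv = 0 := (L.orth hcN.1 he).2 hcN.2.2.2.symm
    have hz : τ hF4 (L.pt c) ∈ centralizer ({τ hF4 Pv} : Set (P 6 L.F 2)) := mem_centralizer_singleton_iff.2
      ((UnitaryTransp.commute_iff hF4 (show 1 ≤ 6 by norm_num) (L.valid c hcN.1) (L.valid e he)).2
        (hm_comm_zero hF hce)).eq
    have e0 : ψ ⟨c, hc⟩ = q ⟨_, hz⟩ := congrArg q (Subtype.ext (hπ c _ hcN.1))
    refine (L.orth hcN.1 hqq).1 ?_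
    have goal0 : hm 2 (L.pt c) (io w v) = 0 := by
      have h2 := co_eq_io hF4 H hce
      rw [h2, hm_add_left, hm_smul_left', ((io_InW hF4 H v).swap hF).1, mul_zero, zero_add, hm_io hF4 H]
      rcases quotHom_tau hF4 H (L.valid c hcN.1) hce hz with ⟨h, -⟩ | ⟨h, h'⟩
      · rw [h]; exact hm_zero_left _
      · rw [e0, h'] at hcomm
        exact (UnitaryTransp.commute_iff hF4 (show 1 ≤ 4 by norm_num) hv h).1 hcomm
    rw [hv6e, hm_smul_right] at goal0
    exact (mul_eq_zero.1 goal0).resolve_left (pow_ne_zero _ hs)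

end Cfsg.Agent.Lib.Involution.FischerTwentyTwo
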