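import Cfsg.Agent.Lib.Involution.FischerThompson
import Cfsg.Agent.Lib.Involution.FischerPairCentralizer
import Cfsg.Agent.Lib.Involution.FischerBlocks
import Cfsg.Agent.S5453

/-! Double covers of groups of type M(22): lifted classes of members. -/

set_option autoImplicit false

namespace Cfsg.Agent.Lib.Involution.FischerCover

open Cfsg Cfsg.Agent.Lib.ThreeTransp Cfsg.Agent.Lib.Involution.FischerTwentyTwo Cfsg.Agent.Lib.Involution.FischerRel
open Subgroup

universe u

variable {C : Type u} [Group C] {Q : Type u} [Group Q] [Finite Q]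

/-- A double cover of a group of type M(22). -/
structure Cov (π : C →* Q) (z : C) (E : Set Q) : Prop where
  surj : Function.Surjective π
  hz : ∀ x, Commute z x
  z2 : z * z = 1
  z1 : z ≠ 1
  piz : π z = 1
  ker : ∀ x, π x = 1 → x = 1 ∨ x = z
  hyp : Hyp E

/-- A class of lifts of the members. -/
structure Cls (π : C →* Q) (z : C) (E : Set Q) (L : Set C) : Prop extends Cov π z E where
  conj : ∀ g, ∀ y ∈ L, g * y * g⁻¹ ∈ L
  mem : ∀ y ∈ L, π y ∈ E
  ex : ∀ e ∈ E, ∃ y ∈ L, π y = e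
  uniq : ∀ y ∈ L, ∀ y' ∈ L, π y = π y' → y = y'
  sq : ∀ y ∈ L, y * y = 1
  comm : ∀ y ∈ L, ∀ y' ∈ L, Commute (π y) (π y') → Commute y y'

variable {π : C →* Q} {z : C} {E : Set Q}

theorem Cov.lift_cases (c : Cov π z E) {x y : C} (h : π x = π y) : y = x ∨ y = x * z := by
  rcases c.ker (x⁻¹ * y) (by rw [map_mul, map_inv, h, inv_mul_cancel]) with e | e
  · exact Or.inl (by rw [← mul_inv_cancel_left x y, e, mul_one])
  · exact Or.inr (by rw [← e, mul_inv_cancel_left])

theorem Cov.comm_lifts (c : Cov π z E) {y y' : C} (hy : π y ∈ E) (h : Commute (π y) (π y')) : Commute y y' := by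
  have M := c.hyp
  set e := π y with he
  have hK := centralizer_eq_link M hy
  obtain ⟨-, hqs, -⟩ := (simple_and_quasisimple M.grp M.prim M.type).2 e hy
  haveI := hqs.1
  set K := LinkGroup E e
  have hperf : ⁅K, K⁆ = K := Subgroup.commutator_eq_self
  have hcl : ∀ {a b w : C}, π a = π b → Commute a w → Commute b w := fun {a b w} e' h' => by
    rcases c.lift_cases e' with rfl | rfl
    · exact h'
    · exact h'.mul_left (c.hz w)
  choose f hf using c.surj
  set N := (centralizer ({y} : Set C)).map π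
  have hKN : K ≤ N := by
    conv_lhs => rw [← hperf]
    rw [Subgroup.commutator_le]
    intro b hb k hk
    refine ⟨f b * f k * (f b)⁻¹ * (f k)⁻¹, mem_centralizer_singleton_iff.2 ?_, by
      simp [hf, commutatorElement_def]⟩
    have hcj : ∀ u ∈ K, MulAut.conj y (f u) = f u ∨ MulAut.conj y (f u) = f u * z := fun u hu => by
      refine c.lift_cases ?_
      rw [hK] at hu
      rw [MulAut.conj_apply, map_mul, map_mul, map_inv, hf, ← he, ← mem_centralizer_singleton_iff.1 hu,
        mul_inv_cancel_right]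
    have key : MulAut.conj y (f b * f k * (f b)⁻¹ * (f k)⁻¹) = f b * f k * (f b)⁻¹ * (f k)⁻¹ := by
      rw [map_mul, map_mul, map_mul, map_inv, map_inv]
      rcases hcj b hb with h | h <;> rcases hcj k hk with h' | h' <;> rw [h, h'] <;>
        simp only [S5453.commutator_central_left c.hz, S5453.commutator_central_right c.hz]
    rw [MulAut.conj_apply, mul_inv_eq_iff_eq_mul] at key
    exact key.symm
  obtain ⟨w, hw, hwa⟩ := hKN (show π y' ∈ K by rw [hK]; exact mem_centralizer_singleton_iff.2 h.eq.symm)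
  exact (hcl hwa (mem_centralizer_singleton_iff.1 hw)).symm

/-- Some class of lifts exists. -/
theorem Cov.exists_cls (c : Cov π z E) : ∃ L, Cls π z E L := by
  classical
  have M := c.hyp
  obtain ⟨-, ⟨e₀, he₀, -⟩, -⟩ := M.prim
  obtain ⟨y₀, hy₀, hπ⟩ := S5453.main π c.surj z c.hz c.z2 c.ker c.piz M e₀ (M.tr.1 e₀ he₀)
  refine ⟨{y | ∃ g, g * y₀ * g⁻¹ = y}, { c with conj := ?_, mem := ?_, ex := ?_, uniq := ?_, sq := ?_, comm := ?_ }⟩
  · rintro g _ ⟨k, rfl⟩
    exact ⟨g * k, by group⟩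
  · rintro _ ⟨g, rfl⟩
    rw [map_mul, map_mul, map_inv, hπ]
    exact M.cl _ _ he₀
  · intro e he
    obtain ⟨q, hq⟩ := M.conj e₀ he₀ e he
    obtain ⟨g, rfl⟩ := c.surj q
    exact ⟨_, ⟨g, rfl⟩, by rw [map_mul, map_mul, map_inv, hπ, hq]⟩
  · rintro _ ⟨g, rfl⟩ _ ⟨k, rfl⟩ e
    have h1 : Commute y₀ (g⁻¹ * k) := c.comm_lifts (hπ ▸ he₀) (by
      rw [map_mul, map_inv, hπ]
      have e' : π g * e₀ * (π g)⁻¹ = π k * e₀ * (π k)⁻¹ := by simpa [hπ] using e
      calc e₀ * ((π g)⁻¹ * π k) = (π g)⁻¹ * (π g * e₀ * (π g)⁻¹) * π k := by group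
        _ = (π g)⁻¹ * π k * e₀ := by rw [e']; group)
    calc g * y₀ * g⁻¹ = g * ((g⁻¹ * k) * y₀ * (g⁻¹ * k)⁻¹) * g⁻¹ := by rw [← h1.eq, mul_inv_cancel_right]
      _ = k * y₀ * k⁻¹ := by group
  · rintro _ ⟨g, rfl⟩
    have : y₀ * y₀ = 1 := by rw [← pow_two, ← hy₀, pow_orderOf_eq_one]
    rw [show g * y₀ * g⁻¹ * (g * y₀ * g⁻¹) = g * (y₀ * y₀) * g⁻¹ by group, this]; group
  · rintro _ ⟨g, rfl⟩ y' - h
    exact c.comm_lifts (by rw [map_mul, map_mul, map_inv, hπ]; exact M.cl _ _ he₀) h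

/-- The other lifts again form a class. -/
theorem Cls.flip {L : Set C} (c : Cls π z E L) : Cls π z E {y | z * y ∈ L} := by
  have hp : ∀ y, π (z * y) = π y := fun y => by rw [map_mul, c.piz, one_mul]
  refine { c.toCov with conj := ?_, mem := ?_, ex := ?_, uniq := ?_, sq := ?_, comm := ?_ }
  · intro g y hy
    show z * (g * y * g⁻¹) ∈ L
    rw [show z * (g * y * g⁻¹) = g * (z * y) * g⁻¹ by rw [← mul_assoc g z y, ← (c.hz g).eq]; group]
    exact c.conj g _ hy
  · exact fun y hy => hp y ▸ c.mem _ hy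
  · intro e he
    obtain ⟨y, hy, rfl⟩ := c.ex e he
    exact ⟨z * y, show z * (z * y) ∈ L by rwa [← mul_assoc, c.z2, one_mul], hp y⟩
  · exact fun y hy y' hy' e => mul_left_cancel (c.uniq _ hy _ hy' (by rw [hp, hp, e]))
  · intro y hy
    have := c.sq _ hy
    rwa [(c.hz y).symm.mul_mul_mul_comm, c.z2, one_mul] at this
  · exact fun y hy y' _ h => c.toCov.comm_lifts (hp y ▸ c.mem _ hy) h

/-- The lift in `L`. -/
noncomputable def lift (π : C →* Q) (L : Set C) (e : Q) : C :=
  letI := _root_.Classical.propDecidable (∃ y ∈ L, π y = e); if h : ∃ y ∈ L, π y = e then h.choose else 1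

variable {L : Set C} (c : Cls π z E L)
include c

theorem Cls.lift_mem {e : Q} (he : e ∈ E) : lift π L e ∈ L := by
  rw [lift, dif_pos (c.ex e he)]; exact (c.ex e he).choose_spec.1

theorem Cls.pi_lift {e : Q} (he : e ∈ E) : π (lift π L e) = e := by
  rw [lift, dif_pos (c.ex e he)]; exact (c.ex e he).choose_spec.2

theorem Cls.lift_eq {y : C} (hy : y ∈ L) : lift π L (π y) = y :=
  c.uniq _ (c.lift_mem (c.mem y hy)) _ hy (c.pi_lift (c.mem y hy))

theorem Cls.lift_conj (g : C) {e : Q} (he : e ∈ E) :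
    g * lift π L e * g⁻¹ = lift π L (π g * e * (π g)⁻¹) := by
  rw [← c.lift_eq (c.conj g _ (c.lift_mem he)), map_mul, map_mul, map_inv, c.pi_lift he]

theorem Cls.lift_sq {e : Q} (he : e ∈ E) : lift π L e * lift π L e = 1 := c.sq _ (c.lift_mem he)

theorem Cls.lift_comm {a b : Q} (ha : a ∈ E) (hb : b ∈ E) (h : Commute a b) : Commute (lift π L a) (lift π L b) :=
  c.comm _ (c.lift_mem ha) _ (c.lift_mem hb) (by rwa [c.pi_lift ha, c.pi_lift hb])

theorem Cls.pair_eq {p q r s : Q} (hp : p ∈ E) (hq : q ∈ Nb E p) (hr : r ∈ E) (hs : s ∈ Nb E r)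
    (e : p * q = r * s) : lift π L p * lift π L q = lift π L r * lift π L s := by
  rcases pair_unique c.hyp hp hq hr hs e with ⟨rfl, rfl⟩ | ⟨rfl, rfl⟩
  · rfl
  · exact (c.lift_comm hp hq.1 hq.2.2).eq

omit [Finite Q] c in
/-- Three distinct commuting members. -/
def Tri (E : Set Q) (a b d : Q) : Prop := a ∈ E ∧ b ∈ Nb E a ∧ d ∈ Nb E a ∩ Nb E b

omit [Finite Q] c in
/-- Triples with the same product have equal lifts. -/
def Flat (π : C →* Q) (E : Set Q) (L : Set C) : Prop :=
  ∀ a b d x y w : Q, Tri E a b d → Tri E x y w → a * b * d = x * y * w →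
    lift π L a * lift π L b * lift π L d = lift π L x * lift π L y * lift π L w

theorem Cls.pi_triple {a b d : Q} (h : Tri E a b d) :
    π (lift π L a * lift π L b * lift π L d) = a * b * d := by
  rw [map_mul, map_mul, c.pi_lift h.1, c.pi_lift h.2.1.1, c.pi_lift h.2.2.1.1]

theorem Cls.conj_triple_lift (g : C) {a b d : Q} (h : Tri E a b d) :
    g * (lift π L a * lift π L b * lift π L d) * g⁻¹ = lift π L (π g * a * (π g)⁻¹) *
      lift π L (π g * b * (π g)⁻¹) * lift π L (π g * d * (π g)⁻¹) := by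
  rw [← c.lift_conj g h.1, ← c.lift_conj g h.2.1.1, ← c.lift_conj g h.2.2.1.1]; group

end Cfsg.Agent.Lib.Involution.FischerCover
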