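import Cfsg.Agent.Lib.Involution.FischerCoverThompson
import Cfsg.Agent.Lib.Involution.FischerClassCounts

/-! Double covers of groups of type M(22): the fused elements of the Thompson subgroup. -/

set_option autoImplicit false

namespace Cfsg.Agent.Lib.Involution.FischerCover

open Cfsg Cfsg.Agent.Lib.ThreeTransp Cfsg.Agent.Lib.Involution.FischerTwentyTwo Cfsg.Agent.Lib.Involution.FischerRel
open Subgroup

universe u

variable {C : Type u} [Group C] {Q : Type u} [Group Q] {π : C →* Q} {z : C} {E : Set Q}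

/-- A fusion of the abelian group `A` moving `x` to the central involution. -/
structure Move (A : Subgroup C) (z : C) (P : C → Prop) (x : C) (θ τ : C → C) : Prop where
  val : θ x = z
  mem : ∀ a ∈ A, θ a ∈ A
  pres : ∀ a ∈ A, (P (θ a) ↔ P a)
  mul : ∀ a ∈ A, ∀ b ∈ A, θ (a * b) = θ a * θ b
  inj : ∀ a ∈ A, ∀ b ∈ A, θ a = θ b → a = b
  sur : ∀ b ∈ A, ∃ a ∈ A, θ a = b
  tinj : ∀ s t, Commute s x → Commute t x → τ s = τ t → s = t
  equiv : ∀ s, Commute s x → ∀ a ∈ A, ∀ b ∈ A, s * a * s⁻¹ = b → τ s * θ a * (τ s)⁻¹ = θ b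

variable [Finite C] [Finite Q] {L : Set C} {F : Set Q}

theorem Cls.card_comap_le (c : Cls π z E L) {x : C} (H : Subgroup Q)
    (h : centralizer ({π x} : Set Q) ≤ H) : Nat.card ↥(centralizer ({x} : Set C)) ≤ 2 * Nat.card H := by
  rw [← c.toCov.card_comap]
  refine Subgroup.card_le_of_le fun s hs => mem_comap.2 (h (mem_centralizer_singleton_iff.2 ?_))
  rw [← map_mul, ← map_mul, mem_centralizer_singleton_iff.1 hs]

theorem Cls.commute_lift_iff (c : Cls π z E L) {a : Q} (ha : a ∈ E) (x : C) :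
    Commute x (lift π L a) ↔ Commute (π x) a := by
  constructor
  · intro h
    have := h.map π
    rwa [c.pi_lift ha] at this
  · intro h
    refine mul_inv_eq_iff_eq_mul.1 ?_
    rw [c.lift_conj x ha, h.eq, mul_inv_cancel_right]

theorem Cls.card_cent_lift (c : Cls π z E L) {a : Q} (ha : a ∈ E) :
    Nat.card ↥(centralizer ({lift π L a} : Set C)) = 36787322880 := by
  rw [show centralizer ({lift π L a} : Set C) = (centralizer ({a} : Set Q)).comap π from Subgroup.ext fun x => by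
    rw [mem_comap, mem_centralizer_singleton_iff, mem_centralizer_singleton_iff]
    exact c.commute_lift_iff ha x, c.toCov.card_comap, card_centralizer c.hyp ha]

theorem Cls.card_cent_triple (c : Cls π z E L) {x : C} (h : IsProd E 3 (π x)) :
    Nat.card ↥(centralizer ({x} : Set C)) ≤ 3538944 := by
  have M := c.hyp
  obtain ⟨-, ⟨d₀, hd₀, -⟩, -⟩ := M.prim
  refine (c.card_comap_le (centralizer ({π x} : Set Q)) le_rfl).trans ?_
  have h1 := ncard_conjugates_mul (π x)
  have h2 := class_three M h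
  rw [card_group M hd₀, show (conjugatesOf (π x)).ncard = 36486450 by omega] at h1
  omega

theorem Cls.card_cent_pair (c : Cls π z E L) {x : C} {a b : Q} (ha : a ∈ E) (hb : b ∈ Nb E a) (h : π x = a * b) :
    Nat.card ↥(centralizer ({x} : Set C)) ≤ 106168320 := by
  refine (c.card_comap_le (centralizer ({π x} : Set Q)) le_rfl).trans ?_
  rw [h, card_centralizer_two c.hyp ha hb]

set_option maxHeartbeats 1000000 in
/-- There are 23 fused elements. -/
theorem Cls.count (c₀ : Cls π z E L) (hperf : commutator C = ⊤) (K : MaxComm E F) (P : C → Prop)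
    (hP : ∀ g a, P a → P (g * a * g⁻¹)) (hPz : P z) (hP1 : ¬ P 1)
    (h2 : ∃ a ∈ (closure F).comap π, P a ∧ a ≠ z)
    (mv : ∀ x ∈ (closure F).comap π, P x → ∃ θ τ, Move ((closure F).comap π) z P x θ τ)
    (hdiv : ∀ p : ℕ, p ∈ [13, 29, 67, 227, 317, 443, 463, 521, 2003] →
      ¬ p ∣ {a | a ∈ (closure F).comap π ∧ P a}.ncard) :
    {a | a ∈ (closure F).comap π ∧ P a}.ncard = 23 := by
  classical
  have M := c₀.hyp
  set A := (closure F).comap π with hA
  set O := {a | a ∈ A ∧ P a} with hO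
  have hPc : ∀ (g a : C), P (g * a * g⁻¹) ↔ P a := fun g a => ⟨fun h => by
    have := hP g⁻¹ _ h
    rwa [show g⁻¹ * (g * a * g⁻¹) * g⁻¹⁻¹ = a by group] at this, hP g a⟩
  have hzc : ∀ g a : C, z * (g * a * g⁻¹) = g * (z * a) * g⁻¹ := fun g a => by
    rw [← mul_assoc g z a, ← (c₀.hz g).eq]; group
  have hFE : ∀ {a}, a ∈ F → a ∈ E := fun h => K.sub h
  have hmemA : ∀ {a}, a ∈ A ↔ π a ∈ closure F := mem_comap
  obtain ⟨e, he⟩ : F.Nonempty := Set.nonempty_of_ncard_ne_zero (by rw [ncard_frame M K]; norm_num)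
  -- choose the class
  obtain ⟨L', c, hgood⟩ : ∃ L', Cls π z E L' ∧
      ((∃ a ∈ F, P (lift π L a) ∨ P (z * lift π L a)) → P (lift π L' e)) := by
    by_cases h : P (lift π L e)
    · exact ⟨L, c₀, fun _ => h⟩
    refine ⟨_, c₀.flip, fun ⟨a, ha, h'⟩ => ?_⟩
    rw [c₀.lift_flip (hFE he)]
    obtain ⟨q, hq⟩ := M.conj a (hFE ha) e (hFE he)
    obtain ⟨g, rfl⟩ := c₀.surj q
    rcases h' with h' | h'
    · exact absurd (hq ▸ c₀.lift_conj g (hFE ha) ▸ hP g _ h') h
    · have := hP g _ h'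
      rwa [← hzc, c₀.lift_conj g (hFE ha), hq] at this
  set l := lift π L' with hl
  have hpl : ∀ {a}, a ∈ F → π (l a) = a := fun h => c.pi_lift (hFE h)
  have hlA : ∀ {a}, a ∈ F → l a ∈ A := fun h => hmemA.2 (by rw [hpl h]; exact subset_closure h)
  have hzA : z ∈ A := hmemA.2 (c.piz ▸ one_mem _)
  have hAc := c.span_comm K
  have hAs := c.span_sq K
  -- invariance
  have s1 : ∀ {a}, a ∈ F → (P (l a) ↔ P (l e)) ∧ (P (z * l a) ↔ P (z * l e)) := by
    intro a ha
    obtain ⟨q, hq⟩ := M.conj e (hFE he) a (hFE ha)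
    obtain ⟨g, rfl⟩ := c.surj q
    have h : l a = g * l e * g⁻¹ := by rw [hl, c.lift_conj g (hFE he), hq]
    exact ⟨by rw [h, hPc], by rw [h, hzc, hPc]⟩
  have s2 : ∀ {a b a' b'}, a ∈ F → b ∈ F → b ≠ a → a' ∈ F → b' ∈ F → b' ≠ a' →
      (P (l a * l b) → P (l a' * l b')) ∧ (P (z * (l a * l b)) → P (z * (l a' * l b'))) := by
    intro a b a' b' ha hb hne ha' hb' hne'
    obtain ⟨q, q1, q2⟩ := conj_pair M (hFE ha) (hFE ha') (K.nb ha hb hne) (K.nb ha' hb' hne')
    obtain ⟨g, rfl⟩ := c.surj q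
    have h : l a' * l b' = g * (l a * l b) * g⁻¹ := by
      rw [show g * (l a * l b) * g⁻¹ = g * l a * g⁻¹ * (g * l b * g⁻¹) by group, hl, c.lift_conj g (hFE ha),
        c.lift_conj g (hFE hb), q1, q2]
    exact ⟨fun hh => by rwa [h, hPc], fun hh => by rwa [h, hzc, hPc]⟩
  have s3 : ∀ {p q r p' q' r'}, Tri E p q r → Tri E p' q' r' →
      (P (z * (l p * l q * l r)) ↔ P (l p * l q * l r)) ∧ (P (l p * l q * l r) → P (l p' * l q' * l r')) := by
    intro p q r p' q' r' h h'
    obtain ⟨t, ht⟩ := isConj_iff.1 (c.triple_conj hperf h)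
    refine ⟨by rw [hl, ← ht, hPc], fun hh => ?_⟩
    obtain ⟨u, u1, u2, u3⟩ := conj_triple M h.1 h'.1 h.2.1 h'.2.1 h.2.2 h'.2.2
    obtain ⟨g, rfl⟩ := c.surj u
    rwa [hl, ← u1, ← u2, ← u3, ← c.conj_triple_lift g h, hPc]
  have hlifts : ∀ y a : C, π a = π y → a = y ∨ a = z * y := fun y a h => by
    rcases c.toCov.lift_cases h.symm with h | h
    exacts [Or.inl h, Or.inr (by rw [h, (c.hz y).eq])]
  -- fibres
  have fib : ∀ T : Set Q, T ⊆ (closure F : Set Q) → ∀ k : ℕ,
      (∀ q ∈ T, ∃ y : C, π y = q ∧ (if P y then 1 else 0) + (if P (z * y) then 1 else 0) = k) →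
      {a | a ∈ O ∧ π a ∈ T}.ncard = T.ncard * k := by
    intro T hT k h
    have := double_count {a | a ∈ O ∧ π a ∈ T} T (fun a q => π a = q) (p := 1) (q := k) (fun a ha => by
      rw [show {q | q ∈ T ∧ π a = q} = {π a} from Set.ext fun q =>
        ⟨fun h => h.2.symm, fun h => by rw [h]; exact ⟨ha.2, rfl⟩⟩, Set.ncard_singleton]) ?_
    · rwa [mul_one] at this
    intro q hq
    obtain ⟨y, hy, hk⟩ := h q hq
    have hne : y ≠ z * y := fun e => c.z1 (mul_right_cancel (e.symm.trans (one_mul y).symm))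
    have hzy : π (z * y) = q := by rw [map_mul, c.piz, one_mul, hy]
    have hset : {a | a ∈ {a | a ∈ O ∧ π a ∈ T} ∧ π a = q} = {a ∈ ({y, z * y} : Set C) | P a} := by
      ext a
      constructor
      · rintro ⟨⟨⟨-, hPa⟩, -⟩, hq'⟩
        exact ⟨hlifts y a (hq'.trans hy.symm), hPa⟩
      · rintro ⟨ha, hPa⟩
        have hπ : π a = q := by rcases ha with rfl | rfl; exacts [hy, hzy]
        exact ⟨⟨⟨hmemA.2 (hπ ▸ hT hq), hPa⟩, hπ ▸ hq⟩, hπ⟩
    rw [hset, ← hk]
    by_cases p1 : P y <;> by_cases p2 : P (z * y)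
    · rw [if_pos p1, if_pos p2, show {a ∈ ({y, z * y} : Set C) | P a} = {y, z * y} from Set.ext fun a =>
        ⟨fun h => h.1, fun h => ⟨h, by rcases h with rfl | rfl <;> assumption⟩⟩, Set.ncard_pair hne]
    · rw [if_pos p1, if_neg p2, show {a ∈ ({y, z * y} : Set C) | P a} = {y} from Set.ext fun a =>
        ⟨fun h => h.1.resolve_right fun e => p2 (e ▸ h.2), fun h => ⟨Or.inl h, h ▸ p1⟩⟩, Set.ncard_singleton]
    · rw [if_neg p1, if_pos p2, show {a ∈ ({y, z * y} : Set C) | P a} = {z * y} from Set.ext fun a =>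
        ⟨fun h => h.1.resolve_left fun e => p1 (e ▸ h.2), fun h => ⟨Or.inr h, h ▸ p2⟩⟩, Set.ncard_singleton]
    · rw [if_neg p1, if_neg p2, show {a ∈ ({y, z * y} : Set C) | P a} = ∅ from Set.ext fun a =>
        ⟨fun h => (by rcases h.1 with rfl | rfl; exacts [p1 h.2, p2 h.2] : False).elim, fun h => h.elim⟩,
        Set.ncard_empty]
  -- base points
  obtain ⟨e', he', hne⟩ : ∃ e' ∈ F, e' ≠ e :=
    Set.exists_ne_of_one_lt_ncard (by rw [ncard_frame M K]; norm_num) e
  obtain ⟨r₀, hr₀⟩ : (triplesIn F).Nonempty := by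
    by_contra h
    have := ncard_tripleProds M K
    rw [tripleProds, Set.not_nonempty_iff_eq_empty.1 h, Set.image_empty, Set.ncard_empty] at this
    norm_num at this
  set lam₀ := l r₀.1.1 * l r₀.1.2 * l r₀.2 with hlam₀
  have hT₀ := tri_of_mem K hr₀
  -- the count
  set i₁ := (if P (l e) then 1 else 0) + (if P (z * l e) then 1 else 0) with hi₁
  set i₂ := (if P (l e * l e') then 1 else 0) + (if P (z * (l e * l e')) then 1 else 0) with hi₂
  set i₃ := (if P lam₀ then 1 else 0) + (if P (z * lam₀) then 1 else 0) with hi₃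
  have n0 : {a | a ∈ O ∧ π a ∈ ({1} : Set Q)}.ncard = 1 := by
    rw [fib {1} (fun q hq => (show q = 1 from hq) ▸ one_mem _) 1 fun q hq => ⟨1, by rw [map_one]; exact hq.symm, by
      simp [hP1, hPz]⟩, Set.ncard_singleton]
  have n1 := fib F subset_closure i₁ fun q hq => ⟨l q, hpl hq, by rw [if_congr (s1 hq).1 rfl rfl,
    if_congr (s1 hq).2 rfl rfl]⟩
  have n2 := fib (pairProds F) (fun q hq => by rw [span_eq M K]; exact Or.inl (Or.inr hq)) i₂ fun q hq => by
    obtain ⟨⟨a, b⟩, ⟨ha, hb, hab⟩, rfl⟩ := hq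
    refine ⟨l a * l b, by rw [map_mul, hpl ha, hpl hb], ?_⟩
    rw [if_congr ⟨(s2 ha hb hab he he' hne).1, (s2 he he' hne ha hb hab).1⟩ rfl rfl,
      if_congr ⟨(s2 ha hb hab he he' hne).2, (s2 he he' hne ha hb hab).2⟩ rfl rfl]
  have n3 := fib (tripleProds F) (fun q hq => by rw [span_eq M K]; exact Or.inr hq) i₃ fun q hq => by
    obtain ⟨r, hr, rfl⟩ := hq
    have hT := tri_of_mem K hr
    refine ⟨_, c.pi_triple hT, ?_⟩
    have h1 : P (l r.1.1 * l r.1.2 * l r.2) ↔ P lam₀ := ⟨(s3 hT hT₀).2, (s3 hT₀ hT).2⟩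
    rw [if_congr h1 rfl rfl, if_congr ((s3 hT hT₀).1.trans (h1.trans (s3 hT₀ hT).1.symm)) rfl rfl]
  rw [ncard_frame M K] at n1
  rw [ncard_pairProds M K] at n2
  rw [ncard_tripleProds M K] at n3
  -- the kinds of image
  have k12 : ∀ {a}, a ∈ F → a ∉ pairProds F := fun ha h => by
    have := isProd_unique M le_rfl (by norm_num) (by norm_num) (by norm_num) (isProd_one (hFE ha)) (isProd_pairs M K h)
    omega
  have k13 : ∀ {a}, a ∈ F → a ∉ tripleProds F := fun ha h => by
    have := isProd_unique M le_rfl (by norm_num) (by norm_num) le_rfl (isProd_one (hFE ha)) (isProd_triples M K h)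
    omega
  have k23 : ∀ {a}, a ∈ pairProds F → a ∉ tripleProds F := fun ha h => by
    have := isProd_unique M (by norm_num) (by norm_num) (by norm_num) le_rfl (isProd_pairs M K ha)
      (isProd_triples M K h)
    omega
  have k01 : (1 : Q) ∉ F ∧ (1 : Q) ∉ pairProds F ∧ (1 : Q) ∉ tripleProds F :=
    ⟨fun h => ne_one_of_isProd M K le_rfl (by norm_num) (isProd_one (hFE h)) rfl,
      fun h => ne_one_of_isProd M K (by norm_num) (by norm_num) (isProd_pairs M K h) rfl,
      fun h => ne_one_of_isProd M K (by norm_num) le_rfl (isProd_triples M K h) rfl⟩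
  have htot : O.ncard = 1 + 22 * i₁ + 231 * i₂ + 770 * i₃ := by
    have hsplit : O = {a | a ∈ O ∧ π a ∈ ({1} : Set Q)} ∪ {a | a ∈ O ∧ π a ∈ F} ∪
        {a | a ∈ O ∧ π a ∈ pairProds F} ∪ {a | a ∈ O ∧ π a ∈ tripleProds F} := by
      ext a
      refine ⟨fun h => ?_, by rintro (((h | h) | h) | h) <;> exact h.1⟩
      rcases span_cases M K (hmemA.1 h.1) with k | k | k | k
      exacts [Or.inl (Or.inl (Or.inl ⟨h, k⟩)), Or.inl (Or.inl (Or.inr ⟨h, k⟩)), Or.inl (Or.inr ⟨h, k⟩),
        Or.inr ⟨h, k⟩]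
    rw [hsplit, Set.ncard_union_eq, Set.ncard_union_eq, Set.ncard_union_eq, n0, n1, n2, n3]
    · exact Set.disjoint_left.2 fun a h h' => k01.1 ((show π a = 1 from h.2) ▸ h'.2)
    · rw [Set.disjoint_left]
      rintro a (h | h) h'
      · exact k01.2.1 ((show π a = 1 from h.2) ▸ h'.2)
      · exact k12 h.2 h'.2
    · rw [Set.disjoint_left]
      rintro a ((h | h) | h) h'
      · exact k01.2.2 ((show π a = 1 from h.2) ▸ h'.2)
      · exact k13 h.2 h'.2
      · exact k23 h.2 h'.2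
  have hi3 : i₃ = if P lam₀ then 2 else 0 := by
    rw [hi₃, if_congr (s3 hT₀ hT₀).1 rfl rfl]
    split_ifs <;> rfl
  have kill : ∀ n : ℕ, O.ncard = n → ∀ p ∈ [13, 29, 67, 227, 317, 443, 463, 521, 2003], ¬ p ∣ n :=
    fun n hn p hp => hn ▸ hdiv p hp
  obtain ⟨a₀, ha₀, hPa₀, ha₀z⟩ := h2
  have hO2 : 2 ≤ O.ncard := by
    calc 2 = ({a₀, z} : Set C).ncard := (Set.ncard_pair ha₀z).symm
      _ ≤ _ := Set.ncard_le_ncard (by rintro a (rfl | rfl); exacts [⟨ha₀, hPa₀⟩, ⟨hzA, hPz⟩])
  by_cases hle : P (l e)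
  swap
  · -- no member is fused
    have hno : ¬ P (z * l e) := by
      intro h
      refine hle (hgood ⟨e, he, ?_⟩)
      rcases c₀.toCov.lift_cases (x := lift π L e) (y := l e) (by rw [c₀.pi_lift (hFE he), hpl he]) with k | k
      · exact Or.inr (k ▸ h)
      · rw [k, ← (c.hz (lift π L e)).eq, ← mul_assoc, c.z2, one_mul] at h
        exact Or.inl h
    have e1 : i₁ = 0 := by rw [hi₁, if_neg hle, if_neg hno]
    exfalso
    rw [e1] at htot
    have e2 : i₂ ≤ 2 := by rw [hi₂]; split_ifs <;> norm_num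
    have k := kill _ htot
    rw [htot] at hO2
    rcases (by rw [hi3]; split_ifs <;> simp : i₃ = 0 ∨ i₃ = 2) with e3 | e3 <;> rw [e3] at k hO2 <;>
      interval_cases i₂
    · omega
    · exact k 29 (by simp) (by norm_num)
    · exact k 463 (by simp) (by norm_num)
    · exact k 67 (by simp) (by norm_num)
    · exact k 443 (by simp) (by norm_num)
    · exact k 2003 (by simp) (by norm_num)
  -- the members of the class are fused
  have hsl : ∀ {a}, a ∈ F → P (l a) := fun ha => (s1 ha).1.2 hle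
  have hlne : ∀ {a}, a ∈ F → l a ≠ z := fun ha e => k01.1 (by rwa [← c.piz, ← e, hpl ha])
  have hzz : ∀ a : C, z * (z * a) = a := fun a => by rw [← mul_assoc, c.z2, one_mul]
  have hfix1 : ∀ {a}, a ∈ F → ∀ x : C, (x = l a ∨ x = z * l a) → ∀ s, Commute (π s) a → Commute s x := by
    intro a ha x hx s hs
    have h := (c.commute_lift_iff (hFE ha) s).2 hs
    rcases hx with rfl | rfl
    exacts [h, (c.hz s).symm.mul_right h]
  have hswap : ∀ {a b}, a ∈ F → b ∈ F → b ≠ a → ¬ P (l a * l b) := by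
    intro a b ha hb hab hw
    have hwA : l a * l b ∈ A := mul_mem (hlA ha) (hlA hb)
    obtain ⟨θ, τ, mm⟩ := mv _ hwA hw
    have hx'A := mm.mem _ (hlA ha)
    have hlab : θ (l b) = θ (l a) * z := by
      rw [← mm.val, ← mm.mul _ (hlA ha) _ hwA, ← mul_assoc, hAs _ (hlA ha), one_mul]
    obtain ⟨q, q1, q2⟩ := conj_pair M (hFE ha) (hFE hb) (K.nb ha hb hab) (K.nb hb ha (Ne.symm hab))
    obtain ⟨s, rfl⟩ := c.surj q
    have e1 : s * l a * s⁻¹ = l b := by rw [hl, c.lift_conj s (hFE ha), q1]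
    have e2 : s * l b * s⁻¹ = l a := by rw [hl, c.lift_conj s (hFE hb), q2]
    have hsw : Commute s (l a * l b) := mul_inv_eq_iff_eq_mul.1 (by
      rw [show s * (l a * l b) * s⁻¹ = s * l a * s⁻¹ * (s * l b * s⁻¹) by group, e1, e2,
        hAc _ (hlA hb) _ (hlA ha)])
    have hmove : τ s * θ (l a) * (τ s)⁻¹ = θ (l a) * z :=
      (mm.equiv s hsw _ (hlA ha) _ (hlA hb) e1).trans hlab
    have hπfix : Commute (π (τ s)) (π (θ (l a))) := mul_inv_eq_iff_eq_mul.1 (by
      rw [← map_inv, ← map_mul, ← map_mul, hmove, map_mul, c.piz, mul_one])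
    have hnc : ¬ Commute (τ s) (θ (l a)) := fun h => by
      rw [h.eq, mul_inv_cancel_right] at hmove
      exact c.z1 (mul_eq_left.1 hmove.symm)
    rcases span_cases M K (hmemA.1 hx'A) with h | h | h | h
    · rcases c.ker _ h with h | h
      · exact hP1 (h ▸ (mm.pres _ (hlA ha)).2 (hsl ha))
      · have := mm.inj _ (hlA ha) _ hwA (h.trans mm.val.symm)
        exact k01.1 (by rw [← map_one π, mul_eq_left.1 this.symm |>.symm, hpl hb]; exact hb)
    · exact hnc (hfix1 h _ (hlifts (l (π (θ (l a)))) _ (hpl h).symm) _ hπfix)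
    · obtain ⟨⟨g, k⟩, ⟨hg, hk, hgk⟩, e⟩ := h
      simp only at hg hk hgk e
      have hh : Commute (τ s) (l g * l k) := mul_inv_eq_iff_eq_mul.1 (by
        rw [show τ s * (l g * l k) * (τ s)⁻¹ = τ s * l g * (τ s)⁻¹ * (τ s * l k * (τ s)⁻¹) by group, hl,
          c.lift_conj _ (hFE hg), c.lift_conj _ (hFE hk)]
        refine c.pair_eq (M.cl _ _ (hFE hg)) (nb_conj M.cl _ (K.nb hg hk hgk)) (hFE hg) (K.nb hg hk hgk) ?_
        rw [show π (τ s) * g * (π (τ s))⁻¹ * (π (τ s) * k * (π (τ s))⁻¹) = π (τ s) * (g * k) * (π (τ s))⁻¹ by group,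
          e, hπfix.eq, mul_inv_cancel_right])
      rcases hlifts (l g * l k) (θ (l a)) (by rw [← e, map_mul, hpl hg, hpl hk]) with h | h
      exacts [hnc (h ▸ hh), hnc (h ▸ (c.hz _).symm.mul_right hh)]
    · have h3 := c.card_cent_triple (isProd_triples M K h)
      have hmem : ∀ t, t ∈ (centralizer ({a, b} : Set Q)).comap π → Commute t (l a) ∧ Commute t (l b) := by
        intro t ht
        rw [mem_comap, cent_pair_iff] at ht
        exact ⟨(c.commute_lift_iff (hFE ha) t).2 ht.1, (c.commute_lift_iff (hFE hb) t).2 ht.2⟩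
      have hw' : ∀ t, t ∈ (centralizer ({a, b} : Set Q)).comap π → Commute t (l a * l b) := fun t ht =>
        (hmem t ht).1.mul_right (hmem t ht).2
      have hle' := Nat.card_le_card_of_injective
        (fun t : ↥((centralizer ({a, b} : Set Q)).comap π) => (⟨τ t, mem_centralizer_singleton_iff.2
          (mul_inv_eq_iff_eq_mul.1 (mm.equiv t (hw' t t.2) _ (hlA ha) _ (hlA ha)
            (by rw [(hmem t t.2).1.eq, mul_inv_cancel_right])))⟩ : ↥(centralizer ({θ (l a)} : Set C))))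
        (fun t t' e => Subtype.ext (mm.tinj _ _ (hw' t t.2) (hw' t' t'.2) (congrArg Subtype.val e)))
      rw [c.toCov.card_comap, card_centralizer_pair M (hFE ha) (K.nb ha hb hab)] at hle'
      omega
  have e2 : i₂ = if P (z * (l e * l e')) then 1 else 0 := by rw [hi₂, if_neg (hswap he he' hne), zero_add]
  have e1 : i₁ = 1 + if P (z * l e) then 1 else 0 := by rw [hi₁, if_pos hle]
  have hn3 : ¬ P lam₀ := by
    intro h
    rw [hi3, if_pos h, e1, e2] at htot
    have k := kill _ htot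
    revert k
    split_ifs <;> intro k
    · exact k 227 (by simp) (by norm_num)
    · exact k 317 (by simp) (by norm_num)
    · exact k 13 (by simp) (by norm_num)
    · exact k 521 (by simp) (by norm_num)
  rw [hi3, if_neg hn3, e1, e2] at htot
  have notri : ∀ a, P a → π a ∉ tripleProds F := by
    intro a hPa h
    obtain ⟨r, hr, e⟩ := h
    have hT := tri_of_mem K hr
    have h1 : P (l r.1.1 * l r.1.2 * l r.2) := by
      rcases hlifts (l r.1.1 * l r.1.2 * l r.2) a (e.symm.trans (c.pi_triple hT).symm) with h | h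
      exacts [h ▸ hPa, (s3 hT hT).1.1 (h ▸ hPa)]
    exact hn3 ((s3 hT hT₀).2 h1)
  obtain ⟨θ, τ, mm⟩ := mv _ (hlA he) hle
  have hqA := mm.mem z hzA
  have hPq : P (θ z) := (mm.pres z hzA).2 hPz
  have hqz : θ z ≠ z := fun h => hlne he (mm.inj _ (hlA he) _ hzA (mm.val.trans h.symm))
  have hqF : π (θ z) ∈ F := by
    rcases span_cases M K (hmemA.1 hqA) with h | h | h | h
    · rcases c.ker _ h with h | h
      exacts [absurd (h ▸ hPq) hP1, absurd h hqz]
    · exact h
    · exfalso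
      obtain ⟨⟨g, k⟩, ⟨hg, hk, hgk⟩, eg⟩ := h
      simp only at hg hk hgk eg
      have h3 := c.card_cent_pair (hFE hg) (K.nb hg hk hgk) eg.symm
      have h4 := Nat.card_le_card_of_injective
        (fun t : ↥(centralizer ({l e} : Set C)) => (⟨τ t, mem_centralizer_singleton_iff.2
          (mul_inv_eq_iff_eq_mul.1 (mm.equiv t (mem_centralizer_singleton_iff.1 t.2) _ hzA _ hzA
            (by rw [← (c.hz (t : C)).eq, mul_inv_cancel_right])))⟩ : ↥(centralizer ({θ z} : Set C))))
        (fun t t' e => Subtype.ext (mm.tinj _ _ (mem_centralizer_singleton_iff.1 t.2)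
          (mem_centralizer_singleton_iff.1 t'.2) (congrArg Subtype.val e)))
      rw [hl, c.card_cent_lift (hFE he)] at h4
      omega
    · exact absurd h (notri _ hPq)
  have pair_mem : ∀ {g k}, g ∈ F → k ∈ F → k ≠ g → g * k ∈ pairProds F := fun hg hk h => ⟨(_, _), ⟨hg, hk, h⟩, rfl⟩
  have hj : ¬ P (z * (l e * l e')) := by
    intro hj
    have hpairs : ∀ {a b}, a ∈ F → b ∈ F → b ≠ a → P (z * (l a * l b)) := fun ha hb h => (s2 he he' hne ha hb h).2 hj
    obtain ⟨σ, hσ, hσz, hσP⟩ : ∃ σ : C, σ * σ = 1 ∧ Commute σ z ∧ θ z = σ * l (π (θ z)) ∧ σ ∈ A ∧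
        ∀ b ∈ F, P (σ * l b) := by
      rcases hlifts (l (π (θ z))) (θ z) (hpl hqF).symm with h | h
      · exact ⟨1, one_mul 1, Commute.one_left z, by rwa [one_mul], one_mem _, fun b hb => by
          rw [one_mul]; exact hsl hb⟩
      · exact ⟨z, c.z2, Commute.refl z, h, hzA, fun b hb => (s1 hb).2.2 ((s1 hqF).2.1 (h ▸ hPq))⟩
    obtain ⟨hq, hσA, hσU⟩ := hσP
    set U := (fun b => σ * l b) '' F with hU
    set U' := {a | a ∈ A ∧ θ a ∈ U} with hU'
    have hzU' : z ∈ U' := ⟨hzA, _, hqF, hq.symm⟩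
    have hU22 : U'.ncard = 22 := by
      have himg : θ '' U' = U := by
        refine Set.Subset.antisymm (Set.image_subset_iff.2 fun a ha => ha.2) ?_
        rintro _ ⟨b, hb, rfl⟩
        obtain ⟨a, ha, ea⟩ := mm.sur _ (mul_mem hσA (hlA hb))
        exact ⟨a, ⟨ha, ea ▸ ⟨b, hb, rfl⟩⟩, ea⟩
      rw [← Set.ncard_image_of_injOn (f := θ) (fun a ha b hb => mm.inj a ha.1 b hb.1), himg, hU,
        Set.ncard_image_of_injOn, ncard_frame M K]
      intro a ha b hb h
      rw [← hpl ha, ← hpl hb, mul_left_cancel (h : σ * l a = σ * l b)]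
    have hpair : ∀ u ∈ U', ∀ v ∈ U', u ≠ v → P (u * v * l e) := by
      intro u hu v hv huv
      obtain ⟨hu, b, hb, eb⟩ := hu
      obtain ⟨hv, b', hb', eb'⟩ := hv
      have hbb : b' ≠ b := fun h => huv (mm.inj u hu v hv (by rw [← eb, ← eb', h]))
      rw [← mm.pres _ (mul_mem (mul_mem hu hv) (hlA he)), mm.mul _ (mul_mem hu hv) _ (hlA he),
        mm.mul _ hu _ hv, mm.val, ← eb, ← eb']
      show P (σ * l b * (σ * l b') * z)
      rw [show σ * l b * (σ * l b') = l b * l b' by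
        rw [← mul_assoc (σ * l b), mul_assoc σ (l b), hAc _ (hlA hb) _ hσA, ← mul_assoc σ σ, hσ, one_mul],
        ← (c.hz (l b * l b')).eq]
      exact hpairs hb hb' hbb
    have htriple : ∀ a f g, f ∈ F → g ∈ F → g ≠ f → f ≠ e → g ≠ e → π a = f * g * e → ¬ P a :=
      fun a f g hf hg h1 h2 h3 h hPa => notri a hPa (h ▸ ⟨((f, g), e),
        ⟨⟨hf, hg, h1⟩, he, by simp [Ne.symm h2, Ne.symm h3]⟩, rfl⟩)
    set S1 := {u | u ∈ U' ∧ ∃ f ∈ F, f ≠ e ∧ u = l f} with hS1
    set S2 := {u | u ∈ U' ∧ ∃ f ∈ F, f ≠ e ∧ u = z * (l e * l f)} with hS2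
    have c1 : S1.ncard ≤ 1 := (Set.ncard_le_one (Set.toFinite _)).2 fun u hu v hv => by
      by_contra huv
      obtain ⟨hu, f, hf, hfe, rfl⟩ := hu
      obtain ⟨hv, g, hg, hge, rfl⟩ := hv
      exact htriple _ f g hf hg (fun h => huv (h ▸ rfl)) hfe hge
        (by rw [map_mul, map_mul, hpl hf, hpl hg, hpl he]) (hpair _ hu _ hv huv)
    have c2 : S2.ncard ≤ 1 := (Set.ncard_le_one (Set.toFinite _)).2 fun u hu v hv => by
      by_contra huv
      obtain ⟨hu, f, hf, hfe, rfl⟩ := hu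
      obtain ⟨hv, g, hg, hge, rfl⟩ := hv
      refine htriple _ f g hf hg (fun h => huv (h ▸ rfl)) hfe hge ?_ (hpair _ hu _ hv huv)
      simp only [map_mul, c.piz, one_mul, hpl hf, hpl hg, hpl he]
      rw [(K.comm e he f hf).eq, show f * e * (e * g) = f * (e * e) * g by group, M.sq (hFE he), mul_one]
    have hsub : U' ⊆ {z} ∪ S1 ∪ S2 := by
      intro u hu
      by_cases huz : u = z
      · exact Or.inl (Or.inl huz)
      have hPu : P u := by
        obtain ⟨hu1, b, hb, eb⟩ := hu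
        exact (mm.pres u hu1).1 (eb ▸ hσU b hb)
      have h3 := hpair u hu z hzU' huz
      rcases span_cases M K (hmemA.1 hu.1) with h | h | h | h
      · rcases c.ker _ h with h | h
        exacts [absurd (h ▸ hPu) hP1, absurd h huz]
      · obtain ⟨f, hf, ef⟩ : ∃ f ∈ F, π u = f := ⟨_, h, rfl⟩
        have hfe : f ≠ e ∨ u ≠ l f := by
          by_cases h : f = e
          · refine Or.inr fun hh => ?_
            subst h
            obtain ⟨-, b, hb, eb⟩ := hu
            rw [hh, mm.val] at eb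
            have := congrArg π eb
            have hπσ : π σ = 1 := by
              have := congrArg π hq
              rw [map_mul, hpl hqF] at this
              exact right_eq_mul.1 this
            rw [map_mul, hπσ, one_mul, hpl hb, c.piz] at this
            exact k01.1 (this ▸ hb)
          · exact Or.inl h
        rcases hlifts (l f) u (ef.trans (hpl hf).symm) with h | h
        · exact Or.inl (Or.inr ⟨hu, f, hf, hfe.resolve_right (fun k => k h), h⟩)
        · exfalso
          rw [h, show z * l f * z = l f * (z * z) by rw [(c.hz (l f)).eq, mul_assoc], c.z2, mul_one] at h3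
          rcases eq_or_ne f e with rfl | hfe
          · exact hP1 (hAs _ (hlA he) ▸ h3)
          · exact hswap hf he hfe.symm h3
      · obtain ⟨⟨g, k⟩, ⟨hg, hk, hgk⟩, eg⟩ := h
        simp only at hg hk hgk eg
        rcases hlifts (l g * l k) u (by rw [← eg, map_mul, hpl hg, hpl hk]) with h | h
        · exact absurd (h ▸ hPu) (hswap hg hk hgk)
        rcases eq_or_ne g e with rfl | hge
        · exact Or.inr ⟨hu, k, hk, hgk, h⟩
        rcases eq_or_ne k e with rfl | hke
        · exact Or.inr ⟨hu, g, hg, hge, by rw [h, hAc _ (hlA hg) _ (hlA he)]⟩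
        exfalso
        exact htriple _ g k hg hk hgk hge hke (by rw [map_mul, map_mul, c.piz, mul_one, ← eg, hpl he]) h3
      · exact absurd h (notri _ hPu)
    have := (Set.ncard_le_ncard hsub).trans ((Set.ncard_union_le _ _).trans (Nat.add_le_add_right (Set.ncard_union_le _ _) _))
    rw [Set.ncard_singleton, hU22] at this
    omega
  rw [if_neg hj] at htot
  by_cases hz1 : P (z * l e)
  swap
  · rw [if_neg hz1] at htot; omega
  -- both lifts of the members
  exfalso
  have honly : ∀ a ∈ A, P a → a ≠ z → π a ∈ F := by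
    intro a ha hPa hne'
    rcases span_cases M K (hmemA.1 ha) with h | h | h | h
    · rcases c.ker _ h with h | h
      exacts [absurd (h ▸ hPa) hP1, absurd h hne']
    · exact h
    · exfalso
      obtain ⟨⟨g, k⟩, ⟨hg, hk, hgk⟩, eg⟩ := h
      simp only at hg hk hgk eg
      rcases hlifts (l g * l k) a (by rw [← eg, map_mul, hpl hg, hpl hk]) with h | h
      exacts [hswap hg hk hgk (h ▸ hPa), hj ((s2 hg hk hgk he he' hne).2 (h ▸ hPa))]
    · exact absurd h (notri _ hPa)
  have hyA := hlA he'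
  have hrA := mm.mem _ hyA
  have hye : l e' ≠ l e := fun h => hne (by rw [← hpl he', h, hpl he])
  have hrz : θ (l e') ≠ z := fun h => hye (mm.inj _ hyA _ (hlA he) (h.trans mm.val.symm))
  have hrF := honly _ hrA ((mm.pres _ hyA).2 (hsl he')) hrz
  have hzyA : z * l e' ∈ A := mul_mem hzA hyA
  have hzyz : θ (z * l e') ≠ z := fun h => hne (by
    have := congrArg π (mm.inj _ hzyA _ (hlA he) (h.trans mm.val.symm))
    rwa [map_mul, c.piz, one_mul, hpl he', hpl he] at this)
  have hsF := honly _ (mm.mem _ hzyA) ((mm.pres _ hzyA).2 ((s1 he').2.2 hz1)) hzyz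
  rw [mm.mul _ hzA _ hyA, map_mul] at hsF
  rcases eq_or_ne (π (θ (l e'))) (π (θ z)) with h | h
  · rcases hlifts (θ z) (θ (l e')) h with h | h
    · exact hlne he' (mm.inj _ hyA _ hzA h)
    · rw [show z * θ z = θ (l e * z) by rw [mm.mul _ (hlA he) _ hzA, mm.val]] at h
      have := congrArg π (mm.inj _ hyA _ (mul_mem (hlA he) hzA) h)
      rw [map_mul, c.piz, mul_one, hpl he', hpl he] at this
      exact hne this
  · exact k12 hsF (pair_mem hqF hrF h)

end Cfsg.Agent.Lib.Involution.FischerCover
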