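import Cfsg.Agent.Lib.Involution.FischerCoverCls

/-! Double covers of groups of type M(22): if triples have unique lifts, a frame lifts to an elementary complement. -/

set_option autoImplicit false

namespace Cfsg.Agent.Lib.Involution.FischerCover

open Cfsg Cfsg.Agent.Lib.ThreeTransp Cfsg.Agent.Lib.Involution.FischerTwentyTwo Cfsg.Agent.Lib.Involution.FischerRel
open Cfsg.Agent.Lib.AutPSU
open Subgroup

universe u

variable {C : Type u} [Group C] {Q : Type u} [Group Q] [Finite Q] {π : C →* Q} {z : C} {E : Set Q} {L : Set C}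

/-- Four commuting members not in a block. -/
def Quad (E : Set Q) (a b d e : Q) : Prop :=
  Tri E a b d ∧ e ∈ (Nb E a ∩ Nb E b ∩ Nb E d) \ Bl E a b d

theorem Tri.frame (M : Hyp E) {a b d : Q} (h : Tri E a b d) :
    ∃ F, MaxComm E F ∧ a ∈ F ∧ b ∈ F ∧ d ∈ F := exists_frame_three M h.1 h.2.1 h.2.2

theorem tri_of_frame {F : Set Q} (K : MaxComm E F) {a b d : Q} (ha : a ∈ F) (hb : b ∈ F) (hd : d ∈ F)
    (hba : b ≠ a) (hda : d ≠ a) (hdb : d ≠ b) : Tri E a b d :=
  ⟨K.sub ha, K.nb ha hb hba, K.nb ha hd hda, K.nb hb hd hdb⟩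

theorem quad_trans (M : Hyp E) {a b d e e' : Q} (h : Quad E a b d e) (h' : Quad E a b d e') :
    ∃ g, g * a * g⁻¹ = a ∧ g * b * g⁻¹ = b ∧ g * d * g⁻¹ = d ∧ g * e * g⁻¹ = e' := by
  classical
  set S := (Nb E a ∩ Nb E b ∩ Nb E d) \ Bl E a b d with hS
  have step : ∀ q ∈ S, ∀ r ∈ S, ¬ Commute q r →
      ∃ g, g * a * g⁻¹ = a ∧ g * b * g⁻¹ = b ∧ g * d * g⁻¹ = d ∧ g * q * g⁻¹ = r := by
    rintro q ⟨⟨⟨q1, q2⟩, q3⟩, -⟩ r ⟨⟨⟨r1, r2⟩, r3⟩, -⟩ hn
    exact ⟨q * r, mul_inv_eq_iff_eq_mul.2 (q1.2.2.mul_right r1.2.2).symm.eq,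
      mul_inv_eq_iff_eq_mul.2 (q2.2.2.mul_right r2.2.2).symm.eq,
      mul_inv_eq_iff_eq_mul.2 (q3.2.2.mul_right r3.2.2).symm.eq,
      conj_mem_of_braid (braid_of_not_commute M.tr q1.1 r1.1 hn) (M.sq q1.1)⟩
  by_cases hc : Commute e e'
  swap
  · exact step e h.2 e' h'.2 hc
  obtain ⟨hT, heS⟩ := h
  have heS' := h'.2
  obtain ⟨F, K, hsub⟩ := exists_maxComm (D := E) (E := {a, b, d, e, e'})
    (by rintro w (rfl | rfl | rfl | rfl | rfl)
        exacts [hT.1, hT.2.1.1, hT.2.2.1.1, heS.1.1.1.1, heS'.1.1.1.1])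
    (by
      have h1 := hT.2.1.2.2; have h2 := hT.2.2.1.2.2; have h3 := hT.2.2.2.2.2
      have h4 := heS.1.1.1.2.2; have h5 := heS.1.1.2.2.2; have h6 := heS.1.2.2.2
      have h7 := heS'.1.1.1.2.2; have h8 := heS'.1.1.2.2.2; have h9 := heS'.1.2.2.2
      rintro w (rfl | rfl | rfl | rfl | rfl) v (rfl | rfl | rfl | rfl | rfl)
      all_goals first | exact Commute.refl _ | assumption | exact Commute.symm ‹_›)
  have ha : a ∈ F := hsub (by simp)
  have hb : b ∈ F := hsub (by simp)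
  have hd : d ∈ F := hsub (by simp)
  have he : e ∈ F := hsub (by simp)
  have he' : e' ∈ F := hsub (by simp)
  obtain ⟨x, hxS, hxF⟩ : ∃ x ∈ S, x ∉ F := by
    by_contra hno
    push Not at hno
    have h48 : S.ncard = 48 := by
      obtain ⟨m1, m2, m3⟩ := bl_mem M K ha hb hd
      have hab : b ≠ d := hT.2.2.2.2.1.symm
      have hsub' : Bl E a b d \ {a, b, d} ⊆ Nb E a ∩ Nb E b ∩ Nb E d := by
        rintro w ⟨hw, hn⟩
        simp only [Set.mem_insert_iff, Set.mem_singleton_iff, not_or] at hn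
        have hwF := bl_subset M K ha hb hd hT.2.1.2.1 hT.2.2.1.2.1 hw
        exact ⟨⟨K.nb ha hwF hn.1, K.nb hb hwF hn.2.1⟩, K.nb hd hwF hn.2.2⟩
      rw [hS, show (Nb E a ∩ Nb E b ∩ Nb E d) \ Bl E a b d =
          (Nb E a ∩ Nb E b ∩ Nb E d) \ (Bl E a b d \ {a, b, d}) from
        Set.ext fun w => ⟨fun h => ⟨h.1, fun h' => h.2 h'.1⟩, fun h => ⟨h.1, fun h' => h.2 ⟨h', by
          rintro (e | e | e)
          exacts [h.1.1.1.2.1 e, h.1.1.2.2.1 e, h.1.2.2.1 e]⟩⟩⟩,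
        Set.ncard_sdiff hsub', card_nb_comm M hT.1 hT.2.1 hT.2.2.1 hab hT.2.2.2.2.2,
        Set.ncard_sdiff (Set.insert_subset m1 (Set.insert_subset m2 (Set.singleton_subset_iff.2 m3))),
        card_bl M K ha hb hd hT.2.1.2.1 hT.2.2.1.2.1 hab,
        Set.ncard_eq_three.2 ⟨a, b, d, hT.2.1.2.1.symm, hT.2.2.1.2.1.symm, hab, rfl⟩]
    have := Set.ncard_le_ncard hno (Set.toFinite _)
    rw [h48, card_maxComm M K ha] at this
    omega
  have hnot : ∀ q ∈ S, q ∈ F → ¬ Commute q x := by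
    intro q hq hqF hqx
    obtain ⟨F', K', hsub'⟩ := exists_maxComm (D := E) (E := {a, b, d, q, x})
      (by rintro w (rfl | rfl | rfl | rfl | rfl)
          exacts [hT.1, hT.2.1.1, hT.2.2.1.1, hq.1.1.1.1, hxS.1.1.1.1])
      (by
        have h1 := hT.2.1.2.2; have h2 := hT.2.2.1.2.2; have h3 := hT.2.2.2.2.2
        have h4 := hq.1.1.1.2.2; have h5 := hq.1.1.2.2.2; have h6 := hq.1.2.2.2
        have h7 := hxS.1.1.1.2.2; have h8 := hxS.1.1.2.2.2; have h9 := hxS.1.2.2.2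
        rintro w (rfl | rfl | rfl | rfl | rfl) v (rfl | rfl | rfl | rfl | rfl)
        all_goals first | exact Commute.refl _ | assumption | exact Commute.symm ‹_›)
    exact hxF (frame_eq M K K' ha hb hd hqF (hsub' (by simp)) (hsub' (by simp)) (hsub' (by simp))
      (hsub' (by simp)) hT.2.1.2.1 hT.2.2.1.2.1 hT.2.2.2.2.1.symm hq.2 (hsub' (by simp)))
  obtain ⟨g, g1, g2, g3, g4⟩ := step e heS x hxS (hnot e heS he)
  obtain ⟨k, k1, k2, k3, k4⟩ := step x hxS e' heS' fun h => hnot e' heS' he' h.symm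
  refine ⟨k * g, ?_, ?_, ?_, ?_⟩
  · conv_rhs => rw [← k1, ← g1]
    group
  · conv_rhs => rw [← k2, ← g2]
    group
  · conv_rhs => rw [← k3, ← g3]
    group
  · rw [← k4, ← g4]; group

/-- Triples have unique lifts and a quad lifts to a triple. -/
structure Good (π : C →* Q) (z : C) (E : Set Q) (L : Set C) : Prop extends Cls π z E L where
  flat : Flat π E L
  quad : ∀ a b d e, Quad E a b d e → ∃ x y w, Tri E x y w ∧ a * b * d * e = x * y * w ∧
    lift π L a * lift π L b * lift π L d * lift π L e = lift π L x * lift π L y * lift π L w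

/-- A quad has the product of a triple. -/
theorem quad_prod (M : Hyp E) {a b d e : Q} (hQ : Quad E a b d e) :
    ∃ x y w, Tri E x y w ∧ a * b * d * e = x * y * w := by
  obtain ⟨⟨ha, hb, hd⟩, ⟨⟨he1, he2⟩, he3⟩, heB⟩ := id hQ
  set Lk := M.lk ha
  obtain ⟨F, K, haF, hbF, hdF⟩ := exists_frame_three M ha hb hd
  have hbd : b ≠ d := hd.2.2.1.symm
  have horth : ∀ u ∈ [Lk.pt b, Lk.pt d, Lk.pt e], ∀ v ∈ [Lk.pt b, Lk.pt d, Lk.pt e], hm 2 u v = 0 := by
    simp only [List.mem_cons, List.not_mem_nil, or_false, forall_eq_or_imp, forall_eq]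
    exact ⟨⟨(Lk.valid b hb).2, (Lk.orth hb hd.1).2 hd.2.2.2, (Lk.orth hb he1).2 he2.2.2⟩,
      ⟨(Lk.orth hd.1 hb).2 hd.2.2.2.symm, (Lk.valid d hd.1).2, (Lk.orth hd.1 he1).2 he3.2.2⟩,
      (Lk.orth he1 hb).2 he2.2.2.symm, (Lk.orth he1 hd.1).2 he3.2.2.symm, (Lk.valid e he1).2⟩
  have hcoef : ∀ p q r : Lk.F, cb (Lk.pt b) (Lk.pt d) (Lk.pt e) p q r = 0 → p = 0 ∧ q = 0 ∧ r = 0 := by
    intro p q r h0
    rw [cb] at h0
    have hr : r = 0 := by
      by_contra hr
      have hmem : Lk.pt e ∈ Submodule.span Lk.F {Lk.pt b, Lk.pt d} := by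
        refine (Submodule.smul_mem_iff _ hr).1 ?_
        rw [eq_neg_of_add_eq_zero_right h0]
        exact Submodule.neg_mem _ (Submodule.mem_span_pair.2 ⟨p, q, rfl⟩)
      have heF : e ∈ F := mem_of_pt_mem M K haF Lk he1 (Submodule.span_le.2 (by
        rintro v (rfl | rfl)
        exacts [pt_mem_frameSpan M K Lk hbF hb.2.1, pt_mem_frameSpan M K Lk hdF hd.1.2.1]) hmem)
      exact heB ((mem_bl_iff M K haF hbF hdF hb.2.1 hd.1.2.1 Lk).2 (Or.inr ⟨heF, he1.2.1, hmem⟩))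
    rw [hr, zero_smul, add_zero] at h0
    have hq0 : q = 0 := by
      by_contra hq0
      rcases eq_or_ne p 0 with rfl | hp0
      · rw [zero_smul, zero_add, smul_eq_zero] at h0
        exact h0.elim hq0 (Lk.valid d hd.1).1
      · refine hbd (Lk.eq_of_prop hb hd.1 (mul_ne_zero (inv_ne_zero hp0) (neg_ne_zero.2 hq0)) ?_)
        rw [← smul_smul, neg_smul, ← eq_neg_of_add_eq_zero_left h0, smul_smul, inv_mul_cancel₀ hp0, one_smul]
    rw [hq0, zero_smul, add_zero, smul_eq_zero] at h0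
    exact ⟨h0.resolve_right (Lk.valid b hb).1, hq0, hr⟩
  obtain ⟨l, hl, hlen, hlE, hlc, hlp⟩ := four_to_three M ha Lk horth hcoef hb hd.1 he1
    ⟨1, one_ne_zero, (one_smul _ _).symm⟩ ⟨1, one_ne_zero, (one_smul _ _).symm⟩ ⟨1, one_ne_zero, (one_smul _ _).symm⟩
  obtain ⟨x, y, w, hx, hy, hw, h⟩ := (show IsProd E 3 l.prod from ⟨l, hl, hlen, hlE, hlc, rfl⟩).three_elim
  refine ⟨x, y, w, ⟨hx, hy, hw⟩, ?_⟩
  rw [h, hlp, ← (((hb.2.2.mul_right hd.1.2.2).mul_right he1.2.2)).eq]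
  simp only [mul_assoc]

theorem Cls.lift_flip (c : Cls π z E L) {e : Q} (he : e ∈ E) :
    lift π {y | z * y ∈ L} e = z * lift π L e := by
  have h : z * lift π L e ∈ {y : C | z * y ∈ L} := by
    show z * (z * lift π L e) ∈ L
    rw [← mul_assoc, c.z2, one_mul]; exact c.lift_mem he
  have := c.flip.lift_eq h
  rwa [map_mul, c.piz, one_mul, c.pi_lift he] at this

theorem Cls.exists_good (c : Cls π z E L) (hflat : Flat π E L) : ∃ L', Good π z E L' := by
  classical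
  have M := c.hyp
  obtain ⟨-, ⟨d₀, hd₀, -⟩, -⟩ := M.prim
  obtain ⟨⟨⟨⟨a, b⟩, d⟩, e⟩, hq⟩ : (quads E).Nonempty :=
    Set.nonempty_of_ncard_ne_zero (by rw [card_quads M]; norm_num)
  have hQ : Quad E a b d e := ⟨⟨hq.1.1.1, hq.1.1.2, hq.1.2⟩, hq.2⟩
  obtain ⟨⟨ha, hb, hd⟩, ⟨⟨he1, he2⟩, he3⟩, heB⟩ := id hQ
  -- a triple with the product of the quad
  obtain ⟨x, y, w, hT, hp⟩ : ∃ x y w, Tri E x y w ∧ a * b * d * e = x * y * w := by
    exact quad_prod M hQ
  -- normalise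
  obtain ⟨L', c', hf', h0⟩ : ∃ L', Cls π z E L' ∧ Flat π E L' ∧
      lift π L' a * lift π L' b * lift π L' d * lift π L' e = lift π L' x * lift π L' y * lift π L' w := by
    have hπ : π (lift π L x * lift π L y * lift π L w) =
        π (lift π L a * lift π L b * lift π L d * lift π L e) := by
      rw [c.pi_triple hT, map_mul, c.pi_triple ⟨ha, hb, hd⟩, c.pi_lift he1.1, hp]
    rcases c.toCov.lift_cases hπ with h | h
    · exact ⟨L, c, hflat, h⟩
    have hz3 : ∀ p q r : C, z * p * (z * q) * (z * r) = p * q * r * z := fun p q r => by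
      rw [(c.hz p).symm.mul_mul_mul_comm, c.z2, one_mul, ← mul_assoc, ← (c.hz (p * q)).eq, mul_assoc z,
        (c.hz (p * q * r)).eq]
    refine ⟨_, c.flip, fun a₁ b₁ d₁ x₁ y₁ w₁ h1 h2 h12 => ?_, ?_⟩
    · rw [c.lift_flip h1.1, c.lift_flip h1.2.1.1, c.lift_flip h1.2.2.1.1, c.lift_flip h2.1, c.lift_flip h2.2.1.1,
        c.lift_flip h2.2.2.1.1, hz3, hz3, hflat _ _ _ _ _ _ h1 h2 h12]
    · rw [c.lift_flip ha, c.lift_flip hb.1, c.lift_flip hd.1.1, c.lift_flip he1.1, c.lift_flip hT.1,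
        c.lift_flip hT.2.1.1, c.lift_flip hT.2.2.1.1, hz3, hz3, mul_assoc _ z (z * _), ← mul_assoc z z, c.z2,
        one_mul, h]
  refine ⟨L', { c' with flat := hf', quad := ?_ }⟩
  intro a₁ b₁ d₁ e₁ hq₁
  obtain ⟨⟨ha', hb', hd'⟩, he'⟩ := id hq₁
  obtain ⟨g, g1, g2, g3⟩ := conj_triple M ha ha' hb hb' hd hd'
  have hQg : Quad E a₁ b₁ d₁ (g * e * g⁻¹) := by
    refine ⟨⟨ha', hb', hd'⟩, ⟨⟨g1 ▸ nb_conj M.cl g he1, g2 ▸ nb_conj M.cl g he2⟩, g3 ▸ nb_conj M.cl g he3⟩,
      fun hB => heB ?_⟩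
    have := bl_conj M g⁻¹ hB
    rw [← g1, ← g2, ← g3] at this
    simpa [mul_assoc] using this
  obtain ⟨k, k1, k2, k3, k4⟩ := quad_trans M hQg hq₁
  obtain ⟨t, ht⟩ := c.surj (k * g)
  have hk1 : π t * a * (π t)⁻¹ = a₁ := by rw [ht]; conv_rhs => rw [← k1, ← g1]
                                          group
  have hk2 : π t * b * (π t)⁻¹ = b₁ := by rw [ht]; conv_rhs => rw [← k2, ← g2]
                                          group
  have hk3 : π t * d * (π t)⁻¹ = d₁ := by rw [ht]; conv_rhs => rw [← k3, ← g3]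
                                          group
  have hk4 : π t * e * (π t)⁻¹ = e₁ := by rw [ht, ← k4]; group
  refine ⟨π t * x * (π t)⁻¹, π t * y * (π t)⁻¹, π t * w * (π t)⁻¹, ?_, ?_, ?_⟩
  · exact ⟨M.cl _ _ hT.1, nb_conj M.cl _ hT.2.1, nb_conj M.cl _ hT.2.2.1, nb_conj M.cl _ hT.2.2.2⟩
  · rw [← hk1, ← hk2, ← hk3, ← hk4,
      show π t * x * (π t)⁻¹ * (π t * y * (π t)⁻¹) * (π t * w * (π t)⁻¹) = π t * (x * y * w) * (π t)⁻¹ by group, ← hp]
    group
  · rw [← hk1, ← hk2, ← hk3, ← hk4, ← c'.lift_conj t ha, ← c'.lift_conj t hb.1, ← c'.lift_conj t hd.1.1,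
      ← c'.lift_conj t he1.1, ← c'.lift_conj t hT.1, ← c'.lift_conj t hT.2.1.1, ← c'.lift_conj t hT.2.2.1.1]
    calc _ = t * (lift π L' a * lift π L' b * lift π L' d * lift π L' e) * t⁻¹ := by group
      _ = t * (lift π L' x * lift π L' y * lift π L' w) * t⁻¹ := by rw [h0]
      _ = _ := by group

/-- Triples whose product centralizes a frame lie in it. -/
theorem triple_mem (M : Hyp E) {F : Set Q} (K : MaxComm E F) {x y w : Q} (h : Tri E x y w)
    (hc : ∀ f ∈ F, Commute (x * y * w) f) : x ∈ F ∧ y ∈ F ∧ w ∈ F := by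
  obtain ⟨F', K', hx', hy', hw'⟩ := h.frame M
  obtain ⟨hx, hy, hw⟩ := id h
  have key : ∀ v ∈ ({x, y, w} : Set Q), v ∈ F' → ∀ f ∈ F, Commute v f := by
    intro v hv hvF f hf
    refine commute_of_conj_commute M (K'.sub hvF) (K.sub hf) ?_
    have hl : [f * x * f⁻¹, f * y * f⁻¹, f * w * f⁻¹].Nodup ∧ [f * x * f⁻¹, f * y * f⁻¹, f * w * f⁻¹].length = 3 ∧
        (∀ v ∈ [f * x * f⁻¹, f * y * f⁻¹, f * w * f⁻¹], v ∈ E) ∧
        (∀ v ∈ [f * x * f⁻¹, f * y * f⁻¹, f * w * f⁻¹], ∀ u ∈ [f * x * f⁻¹, f * y * f⁻¹, f * w * f⁻¹],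
          Commute v u) ∧ [f * x * f⁻¹, f * y * f⁻¹, f * w * f⁻¹].prod = x * y * w := by
      refine ⟨by simp [hy.2.1.symm, hw.1.2.1.symm, hw.2.2.1.symm], rfl, ?_, ?_, ?_⟩
      · simp only [List.mem_cons, List.not_mem_nil, or_false, forall_eq_or_imp, forall_eq]
        exact ⟨M.cl f x hx, M.cl f y hy.1, M.cl f w hw.1.1⟩
      · simp only [List.mem_cons, List.not_mem_nil, or_false, forall_eq_or_imp, forall_eq, commute_conj_iff]
        exact ⟨⟨Commute.refl _, hy.2.2, hw.1.2.2⟩, ⟨hy.2.2.symm, Commute.refl _, hw.2.2.2⟩, hw.1.2.2.symm,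
          hw.2.2.2.symm, Commute.refl _⟩
      · have e : f * (x * y * w) * f⁻¹ = x * y * w := by rw [(hc f hf).symm.eq, mul_inv_cancel_right]
        rw [← e]; simp [mul_assoc]
    have hin := triple_block M K' hx' hy' hw' hy.2.1 hw.1.2.1 hw.2.2.1.symm hl (f * v * f⁻¹)
      (by rcases hv with rfl | rfl | rfl <;> simp)
    exact K'.comm _ (bl_subset M K' hx' hy' hw' hy.2.1 hw.1.2.1 hin) v hvF
  exact ⟨K.max x hx (key x (by simp) hx'), K.max y hy.1 (key y (by simp) hy'),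
    K.max w hw.1.1 (key w (by simp) hw')⟩

/-- The canonical lifts over a set of members. -/
inductive Can (π : C →* Q) (E : Set Q) (L : Set C) (F : Set Q) : C → Prop
  | one : Can π E L F 1
  | single {a : Q} (ha : a ∈ F) : Can π E L F (lift π L a)
  | pair {a b : Q} (ha : a ∈ F) (hb : b ∈ F) (hne : b ≠ a) : Can π E L F (lift π L a * lift π L b)
  | triple {a b d : Q} (ha : a ∈ F) (hb : b ∈ F) (hd : d ∈ F) (h : Tri E a b d) :
      Can π E L F (lift π L a * lift π L b * lift π L d)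

variable {F : Set Q}

theorem Good.can_mul (g : Good π z E L) (K : MaxComm E F) {y : C} (hy : Can π E L F y) {e : Q} (he : e ∈ F) :
    Can π E L F (y * lift π L e) := by
  have M := g.hyp
  have sq := g.lift_sq (K.sub he)
  have hc : ∀ {p q : Q}, p ∈ F → q ∈ F → Commute (lift π L p) (lift π L q) := fun hp hq =>
    g.lift_comm (K.sub hp) (K.sub hq) (K.comm _ hp _ hq)
  -- removing a member of a triple
  have drop : ∀ {p q r : Q}, p ∈ F → q ∈ F → r ∈ F → Tri E p q r → e ∈ ({p, q, r} : Set Q) →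
      Can π E L F (lift π L p * lift π L q * lift π L r * lift π L e) := by
    intro p q r hp hq hr h hm
    rcases hm with rfl | rfl | rfl
    · rw [show lift π L e * lift π L q * lift π L r * lift π L e =
          lift π L e * (lift π L q * lift π L r * lift π L e) by group,
        ((hc hq he).mul_left (hc hr he)).eq, ← mul_assoc, sq, one_mul]
      exact .pair hq hr h.2.2.2.2.1
    · rw [mul_assoc _ (lift π L r), (hc hr he).eq, ← mul_assoc, mul_assoc (lift π L p), sq, mul_one]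
      exact .pair hp hr h.2.2.1.2.1
    · rw [mul_assoc, sq, mul_one]
      exact .pair hp hq h.2.1.2.1
  cases hy with
  | one => rw [one_mul]; exact .single he
  | @single a ha =>
    rcases eq_or_ne e a with rfl | hne
    · rw [sq]; exact .one
    · exact .pair ha he hne
  | @pair a b ha hb hne =>
    rcases eq_or_ne e b with rfl | heb
    · rw [mul_assoc, sq, mul_one]; exact .single ha
    rcases eq_or_ne e a with rfl | hea
    · rw [(hc ha hb).eq, mul_assoc, sq, mul_one]; exact .single hb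
    exact .triple ha hb he (tri_of_frame K ha hb he hne hea heb)
  | @triple a b d ha hb hd h =>
    by_cases hm : e ∈ ({a, b, d} : Set Q)
    · exact drop ha hb hd h hm
    simp only [Set.mem_insert_iff, Set.mem_singleton_iff, not_or] at hm
    by_cases hB : e ∈ Bl E a b d
    · obtain ⟨x, y, w, hx, hy, hw, hxN, hyN, hwN, -, -, ⟨hxy, hxw, hyw⟩, hp, hBl⟩ :=
        block_split M K ha hb hd h.2.1.2.1 h.2.2.1.2.1 h.2.2.2.2.1.symm
      have hF : ∀ v, v ∈ Bl E a b d → v ∈ F := fun v hv =>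
        bl_subset M K ha hb hd h.2.1.2.1 h.2.2.1.2.1 hv
      have hT := tri_of_frame K (hF x hx) (hF y hy) (hF w hw) hxy.symm hxw.symm hyw.symm
      rw [g.flat a b d x y w h hT hp]
      refine drop (hF x hx) (hF y hy) (hF w hw) hT ?_
      rw [hBl] at hB
      rcases hB with e1 | e1 | e1 | e1
      exacts [absurd e1 hm.1, absurd e1 hm.2.1, absurd e1 hm.2.2, e1]
    · obtain ⟨x, y, w, hT, hp, hl⟩ := g.quad a b d e
        ⟨h, ⟨⟨K.nb ha he hm.1, K.nb hb he hm.2.1⟩, K.nb hd he hm.2.2⟩, hB⟩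
      obtain ⟨hx, hy, hw⟩ := triple_mem M K hT fun f hf => hp ▸
        (((K.comm a ha f hf).mul_left (K.comm b hb f hf)).mul_left (K.comm d hd f hf)).mul_left (K.comm e he f hf)
      rw [hl]
      exact .triple hx hy hw hT

/-- The lift of a frame. -/
def frameLift (π : C →* Q) (L : Set C) (F : Set Q) : Subgroup C := closure (lift π L '' F)

theorem Good.can_of_mem (g : Good π z E L) (K : MaxComm E F) {y : C} (hy : y ∈ frameLift π L F) :
    Can π E L F y := by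
  induction hy using Subgroup.closure_induction_right with
  | one => exact .one
  | mul_right x _ w hw ih =>
    obtain ⟨e, he, rfl⟩ := hw
    exact g.can_mul K ih he
  | mul_inv_cancel x _ w hw ih =>
    obtain ⟨e, he, rfl⟩ := hw
    rw [inv_eq_of_mul_eq_one_right (g.lift_sq (K.sub he))]
    exact g.can_mul K ih he

/-- Canonical lifts over frames are determined by their images. -/
theorem Good.eq_of_pi (g : Good π z E L) {F' : Set Q} (K : MaxComm E F) (K' : MaxComm E F') {y y' : C}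
    (hy : y ∈ frameLift π L F) (hy' : y' ∈ frameLift π L F') (e : π y = π y') : y = y' := by
  have M := g.hyp
  have key : ∀ {H : Set Q}, MaxComm E H → ∀ {v : C}, Can π E L H v →
      v = 1 ∧ π v = 1 ∨ (∃ a ∈ E, v = lift π L a ∧ π v = a) ∨
      (∃ a b, a ∈ E ∧ b ∈ Nb E a ∧ v = lift π L a * lift π L b ∧ π v = a * b) ∨
      ∃ a b d, Tri E a b d ∧ v = lift π L a * lift π L b * lift π L d ∧ π v = a * b * d := by
    intro H KH v hv
    cases hv with
    | one => exact Or.inl ⟨rfl, map_one π⟩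
    | @single a ha => exact Or.inr (Or.inl ⟨a, KH.sub ha, rfl, g.pi_lift (KH.sub ha)⟩)
    | @pair a b ha hb hne => exact Or.inr (Or.inr (Or.inl ⟨a, b, KH.sub ha, KH.nb ha hb hne, rfl, by
        rw [map_mul, g.pi_lift (KH.sub ha), g.pi_lift (KH.sub hb)]⟩))
    | @triple a b d ha hb hd h => exact Or.inr (Or.inr (Or.inr ⟨a, b, d, h, rfl, g.pi_triple h⟩))
  have p1 : ∀ {a : Q}, a ∈ E → IsProd E 1 a := fun ha => isProd_one ha
  have ne1 : ∀ {x : Q} {m : ℕ}, 1 ≤ m → m ≤ 3 → IsProd E m x → x ≠ 1 := by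
    intro x m h1 h3 hx e0
    subst e0
    have hc : conjugatesOf (1 : Q) = {1} := Set.ext fun w => by
      simp [conjugatesOf, isConj_one_left, eq_comm]
    obtain ⟨-, ⟨d₀, hd₀, d₁, hd₁, hne⟩, -⟩ := M.prim
    rw [conjugates_eq M h1 h3 hx] at hc
    interval_cases m
    · have := hc.subset (show d₀ ∈ {y | IsProd E 1 y} from p1 hd₀)
      have := hc.subset (show d₁ ∈ {y | IsProd E 1 y} from p1 hd₁)
      simp_all
    · obtain ⟨a, b, ha, hb, he⟩ := hx.two_elim
      exact hb.2.1 (by rw [eq_inv_of_mul_eq_one_right he, inv_eq_of_mul_eq_one_right (M.sq ha)])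
    · obtain ⟨a, b, d, ha, hb, hd, he⟩ := hx.three_elim
      have h2 : d = a * b := by
        rw [eq_inv_of_mul_eq_one_right he, mul_inv_rev, inv_eq_of_mul_eq_one_right (M.sq ha),
          inv_eq_of_mul_eq_one_right (M.sq hb.1), hb.2.2.eq]
      have := isProd_unique M le_rfl (by norm_num) (by norm_num) (by norm_num) (p1 hd.1.1)
        (h2 ▸ isProd_two ha hb)
      omega
  have uq : ∀ {x : Q} {m m' : ℕ}, 1 ≤ m → m ≤ 3 → 1 ≤ m' → m' ≤ 3 → IsProd E m x → IsProd E m' x → m = m' :=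
    fun h1 h2 h3 h4 => isProd_unique M h1 h2 h3 h4
  rcases key K (g.can_of_mem K hy) with ⟨r, p⟩ | ⟨a, ha, r, p⟩ | ⟨a, b, ha, hb, r, p⟩ | ⟨a, b, d, h, r, p⟩ <;>
    rcases key K' (g.can_of_mem K' hy') with
      ⟨r', p'⟩ | ⟨a', ha', r', p'⟩ | ⟨a', b', ha', hb', r', p'⟩ | ⟨a', b', d', h', r', p'⟩ <;>
    rw [p, p'] at e
  · rw [r, r']
  · exact absurd e.symm (ne1 le_rfl (by norm_num) (p1 ha'))
  · exact absurd e.symm (ne1 (by norm_num) (by norm_num) (isProd_two ha' hb'))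
  · exact absurd e.symm (ne1 (by norm_num) le_rfl (isProd_three h'.1 h'.2.1 h'.2.2))
  · exact absurd e (ne1 le_rfl (by norm_num) (p1 ha))
  · rw [r, r', e]
  · have := uq le_rfl (by norm_num) (by norm_num) (by norm_num) (e ▸ p1 ha) (isProd_two ha' hb'); omega
  · have := uq le_rfl (by norm_num) (by norm_num) le_rfl (e ▸ p1 ha) (isProd_three h'.1 h'.2.1 h'.2.2); omega
  · exact absurd e (ne1 (by norm_num) (by norm_num) (isProd_two ha hb))
  · have := uq (by norm_num) (by norm_num) le_rfl (by norm_num) (e ▸ isProd_two ha hb) (p1 ha'); omega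
  · rw [r, r', g.pair_eq ha hb ha' hb' e]
  · have := uq (by norm_num) (by norm_num) (by norm_num) le_rfl (e ▸ isProd_two ha hb)
      (isProd_three h'.1 h'.2.1 h'.2.2); omega
  · exact absurd e (ne1 (by norm_num) le_rfl (isProd_three h.1 h.2.1 h.2.2))
  · have := uq (by norm_num) le_rfl le_rfl (by norm_num) (e ▸ isProd_three h.1 h.2.1 h.2.2) (p1 ha'); omega
  · have := uq (by norm_num) le_rfl (by norm_num) (by norm_num) (e ▸ isProd_three h.1 h.2.1 h.2.2)
      (isProd_two ha' hb'); omega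
  · rw [r, r', g.flat _ _ _ _ _ _ h h' e]

theorem Good.eq_one (g : Good π z E L) (K : MaxComm E F) {y : C} (hy : y ∈ frameLift π L F) (e : π y = 1) :
    y = 1 := g.eq_of_pi K K hy (one_mem _) (e.trans (map_one π).symm)

end Cfsg.Agent.Lib.Involution.FischerCover
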