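import Cfsg.Agent.Lib.Involution.FischerCoverSpan

/-! Type M(22): frames through a member as planes, and the action of their elements. -/

set_option autoImplicit false

namespace Cfsg.Agent.Lib.Involution.FischerCover

open Matrix
open Cfsg Cfsg.Agent.Lib.ThreeTransp Cfsg.Agent.Lib.Involution.FischerTwentyTwo Cfsg.Agent.Lib.Involution.FischerRel
open Cfsg.Agent.Lib.AutPSU Cfsg.Agent.Lib.Involution.UnitaryTransp

universe u

variable {Q : Type u} [Group Q] [Finite Q] {E : Set Q} {d : Q}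

/-- `x` fixes `d` and acts on the points of `d` as `v ↦ v + R v`. -/
def Act (L : Link E d) (x : Q) (R : (Fin 6 → L.F) →ₗ[L.F] (Fin 6 → L.F)) : Prop :=
  Commute x d ∧ ∀ y ∈ Nb E d, ∀ v : Fin 6 → L.F, (∃ s : L.F, s ≠ 0 ∧ v = s • L.pt y) →
    ∃ s : L.F, s ≠ 0 ∧ v + R v = s • L.pt (x * y * x⁻¹)

/-- The transvection part. -/
def tvec {F : Type} [Field F] [Fintype F] (u : Fin 6 → F) : (Fin 6 → F) →ₗ[F] (Fin 6 → F) where
  toFun v := hm 2 v u • u
  map_add' v w := by rw [hm_add_left, add_smul]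
  map_smul' s v := by simp [hm_smul_left', smul_smul]

theorem act_one (L : Link E d) : Act L 1 0 :=
  ⟨Commute.one_left d, fun y _ v h => by simpa using h⟩

theorem Act.mul {L : Link E d} (M : Hyp E) {x x' : Q} {R R' : (Fin 6 → L.F) →ₗ[L.F] (Fin 6 → L.F)}
    (h : Act L x R) (h' : Act L x' R') : Act L (x * x') (R + R' + R.comp R') := by
  refine ⟨h.1.mul_left h'.1, fun y hy v hv => ?_⟩
  have hz : x' * y * x'⁻¹ ∈ Nb E d := by
    have := nb_conj M.cl x' hy
    rwa [show x' * d * x'⁻¹ = d by rw [h'.1.eq, mul_inv_cancel_right]] at this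
  obtain ⟨s, hs, e⟩ := h.2 _ hz _ (h'.2 y hy v hv)
  refine ⟨s, hs, ?_⟩
  rw [show x * x' * y * (x * x')⁻¹ = x * (x' * y * x'⁻¹) * x⁻¹ by group, ← e]
  simp only [LinearMap.add_apply, LinearMap.comp_apply, map_add]
  abel

theorem act_self (M : Hyp E) (hd : d ∈ E) : Act (M.lk hd) d 0 := by
  refine ⟨Commute.refl d, fun y hy v h => ?_⟩
  rw [show d * y * d⁻¹ = y by rw [hy.2.2.eq, mul_inv_cancel_right]]
  simpa using h

theorem act_member (M : Hyp E) (L : Link E d) {a : Q} (ha : a ∈ Nb E d) : Act L a (tvec (L.pt a)) := by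
  haveI := charTwo L.card_F
  have hF := card2 L.card_F
  refine ⟨ha.2.2.symm, fun y hy v ⟨s, hs, hv⟩ => ?_⟩
  set P := L.pt a
  have hz : a * y * a⁻¹ ∈ Nb E d := by
    have := nb_conj M.cl a hy
    rwa [show a * d * a⁻¹ = d by rw [← ha.2.2.eq, mul_inv_cancel_right]] at this
  have haa := M.sq ha.1
  have hai : a⁻¹ = a := inv_eq_of_mul_eq_one_right haa
  have h1 := (L.prod [a, y, a, a * y * a⁻¹]
    (List.forall_mem_cons.2 ⟨ha, List.forall_mem_cons.2 ⟨hy, List.forall_mem_cons.2 ⟨ha,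
      List.forall_mem_singleton.2 hz⟩⟩⟩)).2 fun e _ => by
    rw [show [a, y, a, a * y * a⁻¹].prod = (a * y * a⁻¹) * (a * y * a⁻¹) by
      simp only [List.prod_cons, List.prod_nil, mul_one, hai, mul_assoc],
      show a * y * a⁻¹ * (a * y * a⁻¹) = a * (y * y) * a⁻¹ by group, M.sq hy.1, mul_one, mul_inv_cancel]
    exact Commute.one_left e
  simp only [List.map_cons, List.map_nil, List.prod_cons, List.prod_nil, mul_one] at h1
  have hPP : hm 2 P P = 0 := (L.valid a ha).2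
  have hQQ : hm 2 (L.pt y) (L.pt y) = 0 := (L.valid y hy).2
  have hR : hm 2 (L.pt (a * y * a⁻¹)) (L.pt (a * y * a⁻¹)) = 0 := (L.valid _ hz).2
  have e1 : τ L.card_F (L.pt (a * y * a⁻¹)) = τ L.card_F (L.pt y + hm 2 (L.pt y) P • P) := by
    have hinv : ∀ {w : Fin 6 → L.F}, hm 2 w w = 0 → (τ L.card_F w)⁻¹ = τ L.card_F w := fun {w} hw => by
      refine inv_eq_of_mul_eq_one_right ?_
      rw [τ, tr, ← map_mul, T_sq L.card_F hw, map_one]
    have e2 : τ L.card_F P * τ L.card_F (L.pt y) * (τ L.card_F P)⁻¹ = τ L.card_F (L.pt y + hm 2 (L.pt y) P • P) := by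
      show pr (T hF P 1) * tr hF (L.pt y) 1 * (pr (T hF P 1))⁻¹ = _
      rw [tr_conj hF hQQ (skew_one L.card_F), T_apply L.card_F hPP]
      rfl
    rw [← mul_assoc, ← mul_assoc] at h1
    rw [← e2, hinv hPP, eq_inv_of_mul_eq_one_right h1]
    simp only [_root_.mul_inv_rev, hinv hPP, hinv hQQ, mul_assoc, P]
  have hval : Valid 2 (L.pt y + hm 2 (L.pt y) P • P) := by
    set c := hm 2 (L.pt y) P with hc
    refine ⟨fun h0 => ?_, ?_⟩
    · have h2 := congrArg (fun w => hm 2 w P) h0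
      simp only [hm_add_left, hm_smul_left', hPP, mul_zero, add_zero, hm_zero_left, ← hc] at h2
      rw [h2, zero_smul, add_zero] at h0
      exact (L.valid y hy).1 h0
    · rw [hm_add_left, hm_add_right hF, hm_add_right hF, hm_smul_left', hm_smul_left', hm_smul_right, hm_smul_right,
        hQQ, hPP, hm_swap hF (L.pt y) P, ← hc]
      linear_combination (c * c ^ 2) * (CharTwo.two_eq_zero (R := L.F))
  obtain ⟨t, ht, et⟩ := par_of_eq L.card_F (by norm_num) hval (L.valid _ hz) e1.symm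
  refine ⟨s * t, mul_ne_zero hs ht, ?_⟩
  show v + hm 2 v P • P = _
  rw [hv, hm_smul_left', mul_smul, mul_smul, ← smul_add, et]

/-- The members of a plane through `d`. -/
theorem exists_frame_plane (M : Hyp E) (hd : d ∈ E) (u : Fin 3 → Fin 6 → (M.lk hd).F)
    (ho : ∀ i j, hm 2 (u i) (u j) = 0) (hli : LinearIndependent (M.lk hd).F u) :
    ∃ F, MaxComm E F ∧ d ∈ F ∧ frameSpan (M.lk hd) F = Submodule.span (M.lk hd).F (Set.range u) := by
  classical
  choose q hq s hs hqs using fun i => (M.lk hd).surj (u i) ⟨hli.ne_zero i, ho i i⟩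
  have hc : ∀ i j, Commute (q i) (q j) := fun i j => ((M.lk hd).orth (hq i) (hq j)).1 (by
    have h := ho i j
    rw [hqs i, hqs j, hm_smul_left', hm_smul_right, mul_eq_zero, mul_eq_zero] at h
    exact (h.resolve_left (hs i)).resolve_left (pow_ne_zero _ (hs j)))
  obtain ⟨F, K, hsub⟩ := exists_maxComm (D := E) (E := insert d (Set.range q))
    (by rintro w (rfl | ⟨i, rfl⟩); exacts [hd, (hq i).1])
    (by
      rintro w (rfl | ⟨i, rfl⟩) v (rfl | ⟨j, rfl⟩)
      exacts [Commute.refl _, (hq j).2.2, (hq i).2.2.symm, hc i j])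
  have hdF : d ∈ F := hsub (Or.inl rfl)
  refine ⟨F, K, hdF, (Submodule.eq_of_le_of_finrank_eq (Submodule.span_le.2 ?_) ?_).symm⟩
  · rintro _ ⟨i, rfl⟩
    rw [hqs i]
    exact Submodule.smul_mem _ _ (pt_mem_frameSpan M K (M.lk hd) (hsub (Or.inr ⟨i, rfl⟩)) (hq i).2.1)
  · rw [finrank_span_eq_card hli, finrank_frameSpan M K hdF (M.lk hd), Fintype.card_fin]

variable (M : Hyp E) {F : Set Q} (K : MaxComm E F) (hd : d ∈ E) (hdF : d ∈ F)
include K hdF

theorem act_closure {x : Q} (hx : x ∈ Subgroup.closure F) :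
    ∃ R, Act (M.lk hd) x R ∧ (∀ v, R v ∈ frameSpan (M.lk hd) F) ∧ ∀ v ∈ frameSpan (M.lk hd) F, R v = 0 := by
  induction hx using Subgroup.closure_induction_right with
  | one => exact ⟨0, act_one _, fun v => by simp, fun v _ => by simp⟩
  | mul_right y _ w hw ih =>
    obtain ⟨R, hR, h1, h2⟩ := ih
    rcases eq_or_ne w d with rfl | hne
    · refine ⟨R + 0 + R.comp 0, hR.mul M (act_self M hd), fun v => by simpa using h1 v, fun v hv => ?_⟩
      simpa using h2 v hv
    · have hN := K.nb hdF hw hne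
      have hP := pt_mem_frameSpan M K (M.lk hd) hw hne
      have h3 : ∀ v, tvec ((M.lk hd).pt w) v ∈ frameSpan (M.lk hd) F := fun v => Submodule.smul_mem _ _ hP
      refine ⟨_, hR.mul M (act_member M _ hN), fun v => ?_, fun v hv => ?_⟩
      · exact Submodule.add_mem _ (Submodule.add_mem _ (h1 v) (h3 v)) (h1 _)
      · have : tvec ((M.lk hd).pt w) v = 0 := by
          show hm 2 v ((M.lk hd).pt w) • (M.lk hd).pt w = 0
          rw [frameSpan_orth M K hdF _ v hv _ hP, zero_smul]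
        simp [h2 v hv, this]
  | mul_inv_cancel y _ w hw ih =>
    rw [inv_eq_of_mul_eq_one_right (M.sq (K.sub hw))]
    obtain ⟨R, hR, h1, h2⟩ := ih
    rcases eq_or_ne w d with rfl | hne
    · refine ⟨R + 0 + R.comp 0, hR.mul M (act_self M hd), fun v => by simpa using h1 v, fun v hv => ?_⟩
      simpa using h2 v hv
    · have hN := K.nb hdF hw hne
      have hP := pt_mem_frameSpan M K (M.lk hd) hw hne
      have h3 : ∀ v, tvec ((M.lk hd).pt w) v ∈ frameSpan (M.lk hd) F := fun v => Submodule.smul_mem _ _ hP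
      refine ⟨_, hR.mul M (act_member M _ hN), fun v => ?_, fun v hv => ?_⟩
      · exact Submodule.add_mem _ (Submodule.add_mem _ (h1 v) (h3 v)) (h1 _)
      · have : tvec ((M.lk hd).pt w) v = 0 := by
          show hm 2 v ((M.lk hd).pt w) • (M.lk hd).pt w = 0
          rw [frameSpan_orth M K hdF _ v hv _ hP, zero_smul]
        simp [h2 v hv, this]

/-- An element stabilizes a plane iff it stabilizes its frame. -/
theorem act_maps_iff {x : Q} {R : (Fin 6 → (M.lk hd).F) →ₗ[(M.lk hd).F] (Fin 6 → (M.lk hd).F)}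
    (hR : Act (M.lk hd) x R) :
    (∀ f ∈ F, x * f * x⁻¹ ∈ F) ↔ ∀ v ∈ frameSpan (M.lk hd) F, R v ∈ frameSpan (M.lk hd) F := by
  set L := M.lk hd
  have hxd : x * d * x⁻¹ = d := by rw [hR.1.eq, mul_inv_cancel_right]
  constructor
  · intro h v hv
    rcases eq_or_ne v 0 with rfl | h0
    · simp
    obtain ⟨y, hy, hyd, s, hs, rfl⟩ := exists_member M K hdF L hv h0
    obtain ⟨t, -, e⟩ := hR.2 y (K.nb hdF hy hyd) _ ⟨s, hs, rfl⟩
    have h1 : t • L.pt (x * y * x⁻¹) ∈ frameSpan L F := Submodule.smul_mem _ _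
      (pt_mem_frameSpan M K L (h y hy) fun e' => hyd ((mul_left_cancel (mul_right_cancel (e'.trans hxd.symm)))))
    rw [← e] at h1
    exact (Submodule.add_mem_iff_right _ hv).1 h1
  · intro h f hf
    rcases eq_or_ne f d with rfl | hne
    · rwa [hxd]
    have hN := K.nb hdF hf hne
    have hz : x * f * x⁻¹ ∈ Nb E d := hxd ▸ nb_conj M.cl x hN
    obtain ⟨t, ht, e⟩ := hR.2 f hN _ ⟨1, one_ne_zero, (one_smul _ _).symm⟩
    refine mem_of_pt_mem M K hdF L hz ((Submodule.smul_mem_iff _ ht).1 ?_)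
    have hP := pt_mem_frameSpan M K L hf hne
    exact e ▸ Submodule.add_mem _ hP (h _ hP)

/-- An element acting trivially on a plane centralizes the frame. -/
theorem act_fixes {x : Q} {R : (Fin 6 → (M.lk hd).F) →ₗ[(M.lk hd).F] (Fin 6 → (M.lk hd).F)}
    (hR : Act (M.lk hd) x R) (h0 : ∀ v ∈ frameSpan (M.lk hd) F, R v = 0) : ∀ f ∈ F, Commute x f := by
  intro f hf
  rcases eq_or_ne f d with rfl | hne
  · exact hR.1
  have hN := K.nb hdF hf hne
  obtain ⟨t, ht, e⟩ := hR.2 f hN _ ⟨1, one_ne_zero, (one_smul _ _).symm⟩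
  rw [h0 _ (pt_mem_frameSpan M K _ hf hne), add_zero] at e
  refine mul_inv_eq_iff_eq_mul.1 ((M.lk hd).eq_of_prop ?_ hN (inv_ne_zero ht) ?_)
  · have := nb_conj M.cl x hN
    rwa [show x * d * x⁻¹ = d by rw [hR.1.eq, mul_inv_cancel_right]] at this
  · rw [e, smul_smul, inv_mul_cancel₀ ht, one_smul]

/-- The same point has the same image. -/
theorem act_unique {x : Q} {R R' : (Fin 6 → (M.lk hd).F) →ₗ[(M.lk hd).F] (Fin 6 → (M.lk hd).F)}
    (hR : Act (M.lk hd) x R) (hR' : Act (M.lk hd) x R') {v : Fin 6 → (M.lk hd).F}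
    (hv : v ∈ frameSpan (M.lk hd) F) : ∃ t : (M.lk hd).F, v + R v = t • (v + R' v) := by
  rcases eq_or_ne v 0 with rfl | h0
  · exact ⟨0, by simp⟩
  obtain ⟨y, hy, hyd, s, hs, rfl⟩ := exists_member M K hdF (M.lk hd) hv h0
  obtain ⟨t, -, e⟩ := hR.2 y (K.nb hdF hy hyd) _ ⟨s, hs, rfl⟩
  obtain ⟨t', ht', e'⟩ := hR'.2 y (K.nb hdF hy hyd) _ ⟨s, hs, rfl⟩
  exact ⟨t * t'⁻¹, by rw [e, e', smul_smul, inv_mul_cancel_right₀ ht']⟩

end Cfsg.Agent.Lib.Involution.FischerCover
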