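import Cfsg.Agent.Lib.Involution.FischerCoverSylow

/-! Double covers of groups of type M(22): in a perfect cover both lifts of a product of three members are conjugate. -/

set_option autoImplicit false

namespace Cfsg.Agent.Lib.Involution.FischerCover

open Cfsg Cfsg.Agent.Lib.ThreeTransp Cfsg.Agent.Lib.Involution.FischerTwentyTwo Cfsg.Agent.Lib.Involution.FischerRel

universe u

section general

variable {C : Type u} [Group C]

/-- A subgroup with an involution normalizing it. -/
def adjoin (P : Subgroup C) (s : C) (hs : s * s = 1) (hn : ∀ x ∈ P, s * x * s ∈ P) : Subgroup C where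
  carrier := {w | w ∈ P ∨ w * s ∈ P}
  one_mem' := Or.inl P.one_mem
  mul_mem' := fun {a b} ha hb => by
    rcases ha with ha | ha <;> rcases hb with hb | hb
    · exact Or.inl (P.mul_mem ha hb)
    · exact Or.inr (by rw [mul_assoc]; exact P.mul_mem ha hb)
    · refine Or.inr ?_
      have := P.mul_mem ha (hn b hb)
      rwa [show a * s * (s * b * s) = a * (s * s) * (b * s) by simp only [mul_assoc], hs, mul_one,
        ← mul_assoc] at this
    · refine Or.inl ?_
      have := P.mul_mem ha (hn _ hb)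
      rwa [show a * s * (s * (b * s) * s) = a * (s * s) * b * (s * s) by simp only [mul_assoc], hs, mul_one,
        mul_one] at this
  inv_mem' := fun {a} ha => by
    have hsi : s⁻¹ = s := inv_eq_of_mul_eq_one_right hs
    rcases ha with ha | ha
    · exact Or.inl (P.inv_mem ha)
    · refine Or.inr ?_
      have := hn _ (P.inv_mem ha)
      rwa [mul_inv_rev, hsi, show s * (s * a⁻¹) * s = (s * s) * a⁻¹ * s by simp only [mul_assoc], hs,
        one_mul] at this

variable {P : Subgroup C} {s : C} {hs : s * s = 1} {hn : ∀ x ∈ P, s * x * s ∈ P}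

theorem card_adjoin [Finite C] (hsP : s ∉ P) : Nat.card (adjoin P s hs hn) = 2 * Nat.card P := by
  classical
  let f : ↥P × Bool → ↥(adjoin P s hs hn) := fun p =>
    ⟨if p.2 then (p.1 : C) * s else p.1, by
      split
      · exact Or.inr (by rw [mul_assoc, hs, mul_one]; exact p.1.2)
      · exact Or.inl p.1.2⟩
  have hf : Function.Bijective f := by
    refine ⟨?_, ?_⟩
    · rintro ⟨x, i⟩ ⟨y, j⟩ e
      have e' : (if i then (x : C) * s else x) = if j then (y : C) * s else y := congrArg Subtype.val e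
      cases i <;> cases j <;> simp at e'
      · rw [e']
      · exact absurd (by rw [e', inv_mul_cancel_left] : (y : C)⁻¹ * x = s)
          fun h => hsP (h ▸ P.mul_mem (P.inv_mem y.2) x.2)
      · exact absurd (by rw [← e', inv_mul_cancel_left] : (x : C)⁻¹ * y = s)
          fun h => hsP (h ▸ P.mul_mem (P.inv_mem x.2) y.2)
      · rw [e']
    · rintro ⟨w, hw | hw⟩
      · exact ⟨(⟨w, hw⟩, false), Subtype.ext rfl⟩
      · exact ⟨(⟨_, hw⟩, true), Subtype.ext (by show w * s * s = w; rw [mul_assoc, hs, mul_one])⟩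
  rw [← Nat.card_congr (Equiv.ofBijective f hf), Nat.card_prod, Nat.card_eq_fintype_card (α := Bool),
    Fintype.card_bool, mul_comm]

theorem exists_adjoin_hom (hsP : s ∉ P) (χ : ↥P →* ℤˣ) (hinv : ∀ x : ↥P, χ ⟨s * x * s, hn _ x.2⟩ = χ x) (σ : ℤˣ) :
    ∃ ψ : ↥(adjoin P s hs hn) →* ℤˣ, (∀ (w : ↥(adjoin P s hs hn)) (h : (w : C) ∈ P), ψ w = χ ⟨w, h⟩) ∧
      ∀ w : ↥(adjoin P s hs hn), (w : C) = s → ψ w = σ := by
  classical
  set f : C → ℤˣ := fun w => if h : w ∈ P then χ ⟨w, h⟩ else if h' : w * s ∈ P then χ ⟨w * s, h'⟩ * σ else 1 with hf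
  have f1 : ∀ w (h : w ∈ P), f w = χ ⟨w, h⟩ := fun w h => by simp [hf, h]
  have f2 : ∀ w (h : w * s ∈ P), f w = χ ⟨w * s, h⟩ * σ := fun w h => by
    have : w ∉ P := fun h' => hsP (by simpa using P.mul_mem (P.inv_mem h') h)
    simp [hf, this, h]
  refine ⟨MonoidHom.mk' (fun w => f w) fun a b => ?_, fun w h => f1 _ h, fun w h => ?_⟩
  swap
  · show f w = σ
    rw [h, f2 s (hs ▸ P.one_mem)]
    simp only [hs]
    rw [show (⟨1, hs ▸ P.one_mem⟩ : ↥P) = 1 from rfl, map_one, one_mul]
  show f ((a : C) * b) = f a * f b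
  have hσ := Int.units_mul_self σ
  rcases a.2 with ha | ha <;> rcases b.2 with hb | hb
  · rw [f1 _ ha, f1 _ hb, f1 _ (P.mul_mem ha hb), ← map_mul]; rfl
  · rw [f1 _ ha, f2 _ hb, f2 _ (by rw [mul_assoc]; exact P.mul_mem ha hb), ← mul_assoc (χ _), ← map_mul]
    congr 2
    exact Subtype.ext (by simp [mul_assoc])
  · have e : (a : C) * b * s = a * s * (s * b * s) := by
      rw [show (a : C) * s * (s * b * s) = a * (s * s) * (b * s) by simp only [mul_assoc], hs, mul_one, mul_assoc]
    have h' : (a : C) * b * s ∈ P := e ▸ P.mul_mem ha (hn _ hb)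
    rw [f2 _ ha, f1 _ hb, f2 _ h', mul_right_comm, ← hinv ⟨b, hb⟩, ← map_mul]
    congr 2
    exact Subtype.ext e
  · have e : (a : C) * b = a * s * (s * (b * s) * s) := by
      rw [show (a : C) * s * (s * (b * s) * s) = a * (s * s) * b * (s * s) by simp only [mul_assoc], hs, mul_one,
        mul_one]
    have h' : (a : C) * b ∈ P := e ▸ P.mul_mem ha (hn _ hb)
    rw [f2 _ ha, f2 _ hb, f1 _ h', mul_mul_mul_comm, hσ, mul_one, ← hinv ⟨_, hb⟩, ← map_mul]
    congr 1
    exact Subtype.ext e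

/-- A central involution detected on a subgroup of odd index is detected on the group. -/
theorem transfer_sign [Finite C] (H : Subgroup C) (φ : ↥H →* ℤˣ) {z : C} (hz : ∀ x, Commute z x) (hz2 : z * z = 1)
    (hzH : z ∈ H) (hφ : φ ⟨z, hzH⟩ = -1) (hodd : Odd H.index) : ∃ χ : C →* ℤˣ, χ z = -1 := by
  refine ⟨φ.transfer, ?_⟩
  rw [MonoidHom.transfer_eq_pow φ z fun k g _ => by
    rw [mul_assoc, ((hz g).pow_left k).eq, inv_mul_cancel_left]]
  obtain ⟨j, hj⟩ := hodd
  rw [← hφ]
  congr 1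
  exact Subtype.ext (by show z ^ H.index = z; rw [hj, pow_succ, pow_mul, pow_two, hz2, one_pow, one_mul])

end general

variable {C : Type u} [Group C] [Finite C] {Q : Type u} [Group Q] [Finite Q] {π : C →* Q} {z : C} {E : Set Q}
  {L : Set C}

theorem Cov.card_comap (c : Cov π z E) (H : Subgroup Q) : Nat.card ↥(H.comap π) = 2 * Nat.card H := by
  have hC : Nat.card C = 2 * Nat.card Q := by
    rw [← π.ker.card_mul_index, Subgroup.index_ker, MonoidHom.range_eq_top.2 c.surj, Subgroup.card_top]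
    congr 1
    rw [← SetLike.coe_sort_coe, Nat.card_coe_set_eq, show (π.ker : Set C) = {1, z} from Set.ext fun x =>
      ⟨fun h => c.ker x h, by rintro (rfl | rfl); exacts [map_one π, c.piz]⟩, Set.ncard_pair c.z1.symm]
  have h1 := (H.comap π).card_mul_index
  rw [H.index_comap_of_surjective c.surj, hC, ← H.card_mul_index, ← mul_assoc] at h1
  exact mul_right_cancel₀ H.index_ne_zero_of_finite h1

theorem Good.false_of_perfect (g : Good π z E L) (hperf : commutator C = ⊤) : False := by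
  classical
  have M := g.hyp
  obtain ⟨-, ⟨d, hd, -⟩, -⟩ := M.prim
  obtain ⟨e, he, X, hzX, hXc, hXle⟩ := g.exists_complement hd
  have hde := he.2.2
  -- the centralizers
  have hcl : ∀ {y : Q} (hy : y ∈ E) (x : C), Commute x (lift π L y) ↔ Commute (π x) y := fun {y} hy x => by
    constructor
    · intro h
      have := h.map π
      rwa [g.pi_lift hy] at this
    · intro h
      refine mul_inv_eq_iff_eq_mul.1 ?_
      rw [g.lift_conj x hy, h.eq, mul_inv_cancel_right]
  set K := (Subgroup.centralizer ({d} : Set Q)).comap π with hKdef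
  have hmemK : ∀ x, x ∈ K ↔ Commute (π x) d := fun x => by
    rw [hKdef, Subgroup.mem_comap, Subgroup.mem_centralizer_singleton_iff]; rfl
  set P := (Subgroup.centralizer ({d, e} : Set Q)).comap π with hPdef
  have hmemP : ∀ x, x ∈ P ↔ Commute (π x) d ∧ Commute (π x) e := fun x => by
    rw [hPdef, Subgroup.mem_comap, cent_pair_iff]; rfl
  have hPK : P ≤ K := fun x hx => (hmemK x).2 ((hmemP x).1 hx).1
  have hPc : Nat.card P = 2 * 26542080 := by
    show Nat.card ↥((Subgroup.centralizer ({d, e} : Set Q)).comap π) = _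
    rw [g.toCov.card_comap, card_centralizer_pair M hd he]
  have hzP : z ∈ P := (hmemP z).2 ⟨g.piz ▸ Commute.one_left d, g.piz ▸ Commute.one_left e⟩
  have hXP : X ≤ P := hXle.trans ((Subgroup.closure_le _).2 (by
    rintro _ ⟨y, ⟨hy, h1, h2⟩, rfl⟩
    exact (hmemP _).2 (by rw [g.pi_lift hy]; exact ⟨h1, h2⟩)))
  -- the sign on `K`
  have hzn : ∀ x ∈ X, z * x * z ∈ X := fun x hx => by rwa [(g.hz x).eq, mul_assoc, g.z2, mul_one]
  set X2 := adjoin X z g.z2 hzn
  obtain ⟨φ, hφX, hφz⟩ := exists_adjoin_hom (hs := g.z2) (hn := hzn) hzX 1 (fun x => rfl) (-1)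
  have hX2P : X2 ≤ P := by
    rintro w (hw | hw)
    · exact hXP hw
    · have := mul_mem (hXP hw) hzP
      rwa [mul_assoc, g.z2, mul_one] at this
  have hcX2 : Nat.card X2 = 2 ^ 17 := by rw [card_adjoin hzX, hXc]; norm_num
  have hidxK : Odd (X2.subgroupOf K).index := by
    have h := (X2.subgroupOf K).card_mul_index
    rw [Nat.card_congr (Subgroup.subgroupOfEquivOfLe (hX2P.trans hPK)).toEquiv, hcX2, hKdef, g.toCov.card_comap,
      card_centralizer M hd] at h
    norm_num at h
    rw [← hKdef] at h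
    rw [Nat.odd_iff]
    omega
  have hzK : z ∈ K := hPK hzP
  obtain ⟨χ, hχ⟩ := transfer_sign (C := ↥K) (X2.subgroupOf K)
    (φ.comp (Subgroup.subgroupOfEquivOfLe (hX2P.trans hPK)).toMonoidHom) (z := ⟨z, hzK⟩)
    (fun x => Subtype.ext (g.hz x.1).eq) (Subtype.ext g.z2) (show z ∈ X2 from Or.inr (g.z2 ▸ X.one_mem))
    (hφz _ rfl) hidxK
  -- constant on the lifts
  have hmemY : ∀ {y : Q}, y ∈ E → Commute y d → lift π L y ∈ K := fun hy h => (hmemK _).2 (by rwa [g.pi_lift hy])
  set c := χ ⟨lift π L e, hmemY he.1 hde.symm⟩ with hc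
  have hnb : ∀ {y : Q} (hy : y ∈ Nb E d), χ ⟨lift π L y, hmemY hy.1 hy.2.2.symm⟩ = c := by
    intro y hy
    obtain ⟨t, htd, hty⟩ := FischerBlocks.nb_trans (⟨M.grp, M.type⟩ : FischerBlocks.Pre E) hd he hy
    obtain ⟨t', rfl⟩ := g.surj t
    have e1 : (⟨lift π L y, hmemY hy.1 hy.2.2.symm⟩ : ↥K) =
        ⟨t', (hmemK _).2 htd⟩ * ⟨lift π L e, hmemY he.1 hde.symm⟩ * ⟨t', (hmemK _).2 htd⟩⁻¹ :=
      Subtype.ext (by
        show lift π L y = t' * lift π L e * t'⁻¹
        rw [g.lift_conj t' he.1, hty])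
    rw [e1, map_mul, map_mul, map_inv, mul_right_comm, mul_inv_cancel, one_mul, ← hc]
  have hall : ∀ {y : Q} (hy : y ∈ E) (h : Commute y d), χ ⟨lift π L y, hmemY hy h⟩ = c := by
    intro y hy h
    rcases eq_or_ne y d with rfl | hne
    swap
    · exact hnb ⟨hy, hne, h.symm⟩
    obtain ⟨b, hb⟩ : (Nb E y ∩ Nb E e).Nonempty :=
      Set.nonempty_of_ncard_ne_zero (by rw [card_nb_two M hy he]; norm_num)
    obtain ⟨F, KF, hdF, heF, hbF⟩ := exists_frame_three M hy he hb
    obtain ⟨x, u, w, hx, hu, hw, hxN, huN, hwN, -, -, ⟨hxu, hxw, huw⟩, hp, -⟩ :=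
      block_split M KF hdF heF hbF he.2.1 hb.1.2.1 hb.2.2.1.symm
    have hf := g.flat y e b x u w ⟨hy, he, hb⟩
      ⟨hxN.1, ⟨huN.1, hxu.symm, KF.comm x (bl_subset M KF hdF heF hbF he.2.1 hb.1.2.1 hx) u
          (bl_subset M KF hdF heF hbF he.2.1 hb.1.2.1 hu)⟩,
        ⟨⟨hwN.1, hxw.symm, KF.comm x (bl_subset M KF hdF heF hbF he.2.1 hb.1.2.1 hx) w
          (bl_subset M KF hdF heF hbF he.2.1 hb.1.2.1 hw)⟩, hwN.1, huw.symm,
          KF.comm u (bl_subset M KF hdF heF hbF he.2.1 hb.1.2.1 hu) w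
          (bl_subset M KF hdF heF hbF he.2.1 hb.1.2.1 hw)⟩⟩ hp
    have hK : (⟨lift π L y, hmemY hy h⟩ : ↥K) * ⟨lift π L e, hmemY he.1 hde.symm⟩ *
        ⟨lift π L b, hmemY hb.1.1 hb.1.2.2.symm⟩ = ⟨lift π L x, hmemY hxN.1 hxN.2.2.symm⟩ *
        ⟨lift π L u, hmemY huN.1 huN.2.2.symm⟩ * ⟨lift π L w, hmemY hwN.1 hwN.2.2.symm⟩ := Subtype.ext hf
    have hK' := congrArg χ hK
    rw [map_mul, map_mul, map_mul, map_mul, hnb he, hnb hb.1, hnb hxN, hnb huN, hnb hwN] at hK'
    exact mul_right_cancel (mul_right_cancel hK')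
  -- the swap
  obtain ⟨a, ha, had, -, hae⟩ := exists_far_two M hd hd he.1
  have b1 : d * a * d = a * d * a := braid_of_not_commute M.tr hd ha had
  have b2 : e * a * e = a * e * a := braid_of_not_commute M.tr he.1 ha hae
  have hv : e * (d * a * d) * e ∈ E := by
    have h1 : d * a * d ∈ E := FischerLocal.conj2_mem M.tr M.cl hd ha
    exact FischerLocal.conj2_mem M.tr M.cl he.1 h1
  have hav := FischerLocal.ends_commute hde b1 b2
  have dd := M.sq hd
  have ee := M.sq he.1
  have aa := M.sq ha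
  have hede : e * d * e = d := by rw [hde.symm.eq, mul_assoc, ee, mul_one]
  have hded : d * e * d = e := by rw [hde.eq, mul_assoc, dd, mul_one]
  set w₀ := e * (d * a * d) * e with hw₀
  have hwd : a * (w₀ * d * w₀) * a = e := by
    have h1 : w₀ * d * w₀ = e * a * e := by
      calc w₀ * d * w₀ = e * d * a * d * (e * d * e) * d * a * d * e := by simp only [hw₀, mul_assoc]
        _ = e * d * (a * (d * d) * d * a) * d * e := by rw [hede]; simp only [mul_assoc]
        _ = e * d * (d * a * d) * d * e := by rw [dd, mul_one, b1]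
        _ = e * (d * d) * a * (d * d) * e := by simp only [mul_assoc]
        _ = _ := by rw [dd, mul_one, mul_one]
    rw [h1, b2, show a * (a * e * a) * a = (a * a) * e * (a * a) by simp only [mul_assoc], aa, one_mul, mul_one]
  have hwe : a * (w₀ * e * w₀) * a = d := by
    have h1 : w₀ * e * w₀ = d * a * d := by
      calc w₀ * e * w₀ = e * d * a * d * (e * e) * e * d * a * d * e := by simp only [hw₀, mul_assoc]
        _ = e * d * a * (d * e * d) * a * d * e := by rw [ee, mul_one]; simp only [mul_assoc]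
        _ = e * d * (e * a * e) * d * e := by rw [hded, b2]; simp only [mul_assoc]
        _ = (e * d * e) * a * (e * d * e) := by simp only [mul_assoc]
        _ = _ := by rw [hede]
    rw [h1, b1, show a * (a * d * a) * a = (a * a) * d * (a * a) by simp only [mul_assoc], aa, one_mul, mul_one]
  set q := a * w₀ with hq
  have hq2 : q * q = 1 := by
    rw [hq, hav.symm.mul_mul_mul_comm, aa, M.sq hv, one_mul]
  have hqi : q⁻¹ = q := inv_eq_of_mul_eq_one_right hq2
  have hqc : ∀ u, q * u * q⁻¹ = a * (w₀ * u * w₀) * a := fun u => by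
    conv_lhs => rw [hqi, hq]; arg 2; rw [hav.eq]
    simp only [mul_assoc]
  have hqd : q * d * q⁻¹ = e := (hqc d).trans hwd
  have hqe : q * e * q⁻¹ = d := (hqc e).trans hwe
  have hq1 : q ≠ 1 := fun h => he.2.1 (by rw [← hqd, h, inv_one, one_mul, mul_one])
  obtain ⟨s, hs, hπs⟩ := S5453.main π g.surj z g.hz g.z2 g.ker g.piz M q (orderOf_eq_prime (by rw [pow_two, hq2]) hq1)
  have hs2 : s * s = 1 := by rw [← pow_two, ← hs, pow_orderOf_eq_one]
  have hπc : ∀ x, π (s * x * s) = q * π x * q⁻¹ := fun x => by rw [map_mul, map_mul, hπs, hqi]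
  have hsP : s ∉ P := fun h => he.2.1 (by
    have := ((hmemP s).1 h).1
    rw [hπs] at this
    rw [← hqd, this.eq, mul_inv_cancel_right])
  have hn : ∀ x ∈ P, s * x * s ∈ P := fun x hx => by
    obtain ⟨h1, h2⟩ := (hmemP x).1 hx
    refine (hmemP _).2 ⟨?_, ?_⟩
    · rw [hπc, ← hqe]; exact (commute_conj_iff q _ _).2 h2
    · rw [hπc, ← hqd]; exact (commute_conj_iff q _ _).2 h1
  let χP : ↥P →* ℤˣ := χ.comp (Subgroup.inclusion hPK)
  let σ : ↥P →* ↥P := MonoidHom.mk' (fun x => ⟨s * x * s, hn _ x.2⟩) fun x y => Subtype.ext (by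
    show s * ((x : C) * y) * s = s * x * s * (s * y * s)
    rw [show s * (x : C) * s * (s * y * s) = s * x * (s * s) * (y * s) by simp only [mul_assoc], hs2, mul_one]
    simp only [mul_assoc])
  set δ := χP * χP.comp σ with hδ
  have hW : ∀ w (hw : w ∈ P), χP ⟨w, hw⟩ * χP ⟨s * w * s, hn w hw⟩ = 1 → w ∈ δ.ker.map P.subtype :=
    fun w hw h => ⟨⟨w, hw⟩, MonoidHom.mem_ker.2 h, rfl⟩
  have hzW : z ∈ δ.ker.map P.subtype := hW z hzP (by
    have : (⟨s * z * s, hn z hzP⟩ : ↥P) = ⟨z, hzP⟩ := Subtype.ext (by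
      show s * z * s = z
      rw [← (g.hz s).eq, mul_assoc, hs2, mul_one])
    rw [this, Int.units_mul_self])
  have hXW : X ≤ δ.ker.map P.subtype := hXle.trans ((Subgroup.closure_le _).2 (by
    rintro _ ⟨y, ⟨hy, h1, h2⟩, rfl⟩
    have hyP : lift π L y ∈ P := (hmemP _).2 (by rw [g.pi_lift hy]; exact ⟨h1, h2⟩)
    refine hW _ hyP ?_
    have h1' : Commute (q * y * q⁻¹) d := by rw [← hqe]; exact (commute_conj_iff q _ _).2 h2
    have e1 : χP ⟨s * lift π L y * s, hn _ hyP⟩ = c := by
      rw [← hall (M.cl q y hy) h1']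
      refine congrArg χ (Subtype.ext ?_)
      show s * lift π L y * s = lift π L (q * y * q⁻¹)
      have := g.lift_conj s hy
      rwa [inv_eq_of_mul_eq_one_right hs2, hπs] at this
    rw [e1, show χP ⟨lift π L y, hyP⟩ = c from hall hy h1, Int.units_mul_self]))
  have hX2W : X2 ≤ δ.ker.map P.subtype := by
    rintro w (hw | hw)
    · exact hXW hw
    · have := mul_mem (hXW hw) hzW
      rwa [mul_assoc, g.z2, mul_one] at this
  have hker : δ.ker = ⊤ := by
    refine Subgroup.index_eq_one.1 ?_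
    have h1 := δ.ker.card_mul_index
    have h2 := Subgroup.card_dvd_of_le hX2W
    rw [hcX2, Subgroup.card_subtype] at h2
    rw [hPc] at h1
    have h3 : δ.ker.index ∣ 2 := by
      rw [Subgroup.index_ker, show (2 : ℕ) = Nat.card ℤˣ by rw [Nat.card_eq_fintype_card]; rfl]
      exact δ.range.card_subgroup_dvd_card
    obtain ⟨k, hk⟩ := h2
    rcases (Nat.dvd_prime Nat.prime_two).1 h3 with h | h
    · exact h
    · rw [hk, h] at h1; omega
  have hinv : ∀ x : ↥P, χP ⟨s * x * s, hn _ x.2⟩ = χP x := fun x => by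
    have h : δ x = 1 := MonoidHom.mem_ker.1 (hker ▸ Subgroup.mem_top x)
    calc χP ⟨s * x * s, hn _ x.2⟩ = χP x * χP x * χP ⟨s * x * s, hn _ x.2⟩ := by rw [Int.units_mul_self, one_mul]
      _ = χP x * δ x := by rw [mul_assoc]; rfl
      _ = χP x := by rw [h, mul_one]
  obtain ⟨ψ, hψP, -⟩ := exists_adjoin_hom (hs := hs2) (hn := hn) hsP χP hinv 1
  have hzA : z ∈ adjoin P s hs2 hn := Or.inl hzP
  have hodd : Odd (adjoin P s hs2 hn).index := by
    have h := (adjoin P s hs2 hn).card_mul_index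
    rw [card_adjoin hsP, hPc] at h
    have hC : Nat.card C = 2 * Nat.card Q := by
      have := g.toCov.card_comap (⊤ : Subgroup Q)
      rwa [Subgroup.comap_top, Subgroup.card_top, Subgroup.card_top] at this
    rw [hC, card_group M hd] at h
    norm_num at h
    rw [Nat.odd_iff]
    omega
  obtain ⟨χC, hχC⟩ := transfer_sign (adjoin P s hs2 hn) ψ g.hz g.z2 hzA ((hψP ⟨z, hzA⟩ hzP).trans hχ) hodd
  have : χC z = 1 := MonoidHom.mem_ker.1 (Abelianization.commutator_subset_ker χC (hperf ▸ Subgroup.mem_top z))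
  rw [hχC] at this
  exact absurd this (by decide)

/-- In a perfect cover the two lifts of a product of three commuting members are conjugate. -/
theorem Cls.triple_conj (c : Cls π z E L) (hperf : commutator C = ⊤) {p q r : Q} (h : Tri E p q r) :
    IsConj (lift π L p * lift π L q * lift π L r) (z * (lift π L p * lift π L q * lift π L r)) := by
  have M := c.hyp
  have hnf : ¬ Flat π E L := fun hf => (c.exists_good hf).choose_spec.false_of_perfect hperf
  obtain ⟨a, b, d, x, y, w, h1, h2, hp, hne⟩ : ∃ a b d x y w : Q, Tri E a b d ∧ Tri E x y w ∧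
      a * b * d = x * y * w ∧
        lift π L a * lift π L b * lift π L d ≠ lift π L x * lift π L y * lift π L w := by
    simpa only [Flat, not_forall, exists_prop] using hnf
  set lx := lift π L x * lift π L y * lift π L w with hlx
  have hzx : lift π L a * lift π L b * lift π L d = z * lx := by
    rcases c.toCov.lift_cases (x := lx) (y := lift π L a * lift π L b * lift π L d)
      (by rw [hlx, c.pi_triple h2, c.pi_triple h1, hp]) with e | e
    · exact absurd e hne
    · rw [e, (c.hz _).eq]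
  obtain ⟨u₀, u1, u2, u3⟩ := conj_triple M h2.1 h1.1 h2.2.1 h1.2.1 h2.2.2 h1.2.2
  obtain ⟨t₀, t1, t2, t3⟩ := conj_triple M h2.1 h.1 h2.2.1 h.2.1 h2.2.2 h.2.2
  obtain ⟨u, rfl⟩ := c.surj u₀
  obtain ⟨t, rfl⟩ := c.surj t₀
  have hu : u * lx * u⁻¹ = z * lx := by rw [← hzx, hlx, c.conj_triple_lift u h2, u1, u2, u3]
  have ht : t * lx * t⁻¹ = lift π L p * lift π L q * lift π L r := by
    rw [hlx, c.conj_triple_lift t h2, t1, t2, t3]
  refine isConj_iff.2 ⟨t * u * t⁻¹, ?_⟩
  rw [← ht, show t * u * t⁻¹ * (t * lx * t⁻¹) * (t * u * t⁻¹)⁻¹ = t * (u * lx * u⁻¹) * t⁻¹ by group, hu,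
    ← mul_assoc, ← (c.hz t).eq, mul_assoc z t lx, mul_assoc z]

end Cfsg.Agent.Lib.Involution.FischerCover
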