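import Cfsg.Agent.Lib.Involution.FischerCoverGood

/-! Type M(22): the elements of the subgroup generated by a frame. -/

set_option autoImplicit false

namespace Cfsg.Agent.Lib.Involution.FischerCover

open Cfsg Cfsg.Agent.Lib.ThreeTransp Cfsg.Agent.Lib.Involution.FischerTwentyTwo Cfsg.Agent.Lib.Involution.FischerRel
open Subgroup

universe u

variable {Q : Type u} [Group Q] [Finite Q] {E : Set Q}

/-- Ordered pairs in a set. -/
def pairsIn (F : Set Q) : Set (Q × Q) := {p | p.1 ∈ F ∧ p.2 ∈ F \ {p.1}}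

/-- Ordered triples in a set. -/
def triplesIn (F : Set Q) : Set ((Q × Q) × Q) := {r | r.1 ∈ pairsIn F ∧ r.2 ∈ F \ {r.1.1, r.1.2}}

/-- Products of two. -/
def pairProds (F : Set Q) : Set Q := (fun p : Q × Q => p.1 * p.2) '' pairsIn F

/-- Products of three. -/
def tripleProds (F : Set Q) : Set Q := (fun r : (Q × Q) × Q => r.1.1 * r.1.2 * r.2) '' triplesIn F

variable (M : Hyp E) {F : Set Q} (K : MaxComm E F)
include M K

theorem isProd_pairs {x : Q} (hx : x ∈ pairProds F) : IsProd E 2 x := by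
  obtain ⟨⟨a, b⟩, ⟨ha, hb, hne⟩, rfl⟩ := hx
  exact isProd_two (K.sub ha) (K.nb ha hb hne)

omit M in
theorem tri_of_mem {r : (Q × Q) × Q} (h : r ∈ triplesIn F) : Tri E r.1.1 r.1.2 r.2 := by
  obtain ⟨⟨ha, hb, hne⟩, hd, hn⟩ := h
  exact tri_of_frame K ha hb hd hne (fun e => hn (Or.inl e)) (fun e => hn (Or.inr e))

theorem isProd_triples {x : Q} (hx : x ∈ tripleProds F) : IsProd E 3 x := by
  obtain ⟨r, hr, rfl⟩ := hx
  obtain ⟨h1, h2, h3⟩ := tri_of_mem K hr
  exact isProd_three h1 h2 h3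

theorem span_cases {x : Q} (hx : x ∈ closure F) :
    x = 1 ∨ x ∈ F ∨ x ∈ pairProds F ∨ x ∈ tripleProds F := by
  have drop : ∀ {p q r e : Q}, p ∈ F → q ∈ F → r ∈ F → Tri E p q r → e ∈ F → e ∈ ({p, q, r} : Set Q) →
      p * q * r * e ∈ pairProds F := by
    intro p q r e hp hq hr h he hm
    have sq := M.sq (K.sub he)
    rcases hm with rfl | rfl | rfl
    · refine ⟨(q, r), ⟨hq, hr, h.2.2.2.2.1⟩, ?_⟩
      show q * r = e * q * r * e
      rw [show e * q * r * e = e * (q * r * e) by group, (((K.comm q hq e he)).mul_left (K.comm r hr e he)).eq,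
        ← mul_assoc, sq, one_mul]
    · refine ⟨(p, r), ⟨hp, hr, h.2.2.1.2.1⟩, ?_⟩
      show p * r = p * e * r * e
      rw [mul_assoc _ r, (K.comm r hr e he).eq, ← mul_assoc, mul_assoc p, sq, mul_one]
    · refine ⟨(p, q), ⟨hp, hq, h.2.1.2.1⟩, ?_⟩
      show p * q = p * q * e * e
      rw [mul_assoc, sq, mul_one]
  have step : ∀ y : Q, (y = 1 ∨ y ∈ F ∨ y ∈ pairProds F ∨ y ∈ tripleProds F) → ∀ e ∈ F,
      (y * e = 1 ∨ y * e ∈ F ∨ y * e ∈ pairProds F ∨ y * e ∈ tripleProds F) := by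
    intro y hy e he
    have sq := M.sq (K.sub he)
    rcases hy with rfl | ha | ⟨⟨a, b⟩, ⟨ha, hb, hne⟩, rfl⟩ | ⟨⟨⟨a, b⟩, d⟩, hr, rfl⟩
    · exact Or.inr (Or.inl (by rwa [one_mul]))
    · rcases eq_or_ne e y with rfl | hne
      · exact Or.inl sq
      · exact Or.inr (Or.inr (Or.inl ⟨(y, e), ⟨ha, he, hne⟩, rfl⟩))
    · simp only at ha hb hne ⊢
      rcases eq_or_ne e b with rfl | heb
      · exact Or.inr (Or.inl (by rwa [mul_assoc, sq, mul_one]))
      rcases eq_or_ne e a with rfl | hea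
      · exact Or.inr (Or.inl (by rwa [(K.comm e he b hb).eq, mul_assoc, sq, mul_one]))
      exact Or.inr (Or.inr (Or.inr ⟨((a, b), e), ⟨⟨ha, hb, hne⟩, he, by simp [hea, heb]⟩, rfl⟩))
    · have h := tri_of_mem K hr
      obtain ⟨⟨ha, hb, -⟩, hd, -⟩ := hr
      simp only at ha hb hd h ⊢
      by_cases hm : e ∈ ({a, b, d} : Set Q)
      · exact Or.inr (Or.inr (Or.inl (drop ha hb hd h he hm)))
      simp only [Set.mem_insert_iff, Set.mem_singleton_iff, not_or] at hm
      by_cases hB : e ∈ Bl E a b d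
      · obtain ⟨x, y, w, hx, hy, hw, -, -, -, -, -, ⟨hxy, hxw, hyw⟩, hp, hBl⟩ :=
          block_split M K ha hb hd h.2.1.2.1 h.2.2.1.2.1 h.2.2.2.2.1.symm
        have hF : ∀ v, v ∈ Bl E a b d → v ∈ F := fun v hv =>
          bl_subset M K ha hb hd h.2.1.2.1 h.2.2.1.2.1 hv
        rw [hp]
        refine Or.inr (Or.inr (Or.inl (drop (hF x hx) (hF y hy) (hF w hw)
          (tri_of_frame K (hF x hx) (hF y hy) (hF w hw) hxy.symm hxw.symm hyw.symm) he ?_)))
        rw [hBl] at hB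
        rcases hB with e1 | e1 | e1 | e1
        exacts [absurd e1 hm.1, absurd e1 hm.2.1, absurd e1 hm.2.2, e1]
      · obtain ⟨x, y, w, hT, hp⟩ := quad_prod M
          (show Quad E a b d e from ⟨h, ⟨⟨K.nb ha he hm.1, K.nb hb he hm.2.1⟩, K.nb hd he hm.2.2⟩, hB⟩)
        obtain ⟨hx, hy, hw⟩ := triple_mem M K hT fun f hf => hp ▸
          (((K.comm a ha f hf).mul_left (K.comm b hb f hf)).mul_left (K.comm d hd f hf)).mul_left (K.comm e he f hf)
        exact Or.inr (Or.inr (Or.inr ⟨((x, y), w), ⟨⟨hx, hy, hT.2.1.2.1⟩, hw,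
          by simp [hT.2.2.1.2.1, hT.2.2.2.2.1]⟩, hp.symm⟩))
  induction hx using Subgroup.closure_induction_right with
  | one => exact Or.inl rfl
  | mul_right y _ w hw ih => exact step y ih w hw
  | mul_inv_cancel y _ w hw ih =>
    rw [inv_eq_of_mul_eq_one_right (M.sq (K.sub hw))]
    exact step y ih w hw

theorem ncard_frame : F.ncard = 22 := by
  obtain ⟨-, ⟨x0, hx0, -⟩, -⟩ := M.prim
  obtain ⟨f, hf⟩ : F.Nonempty := by
    by_contra h
    rw [Set.not_nonempty_iff_eq_empty] at h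
    exact Set.eq_empty_iff_forall_notMem.1 h x0 (K.max x0 hx0 (by simp [h]))
  exact card_maxComm M K hf

theorem ncard_pairsIn : (pairsIn F).ncard = 22 * 21 := by
  rw [pairsIn, ncard_sigma_const F (fun p => F \ {p}) (k := 21) ?_, ncard_frame M K]
  intro p hp
  rw [Set.ncard_sdiff_singleton_of_mem hp, ncard_frame M K]

theorem ncard_pairProds : (pairProds F).ncard = 231 := by
  classical
  have h := double_count (pairsIn F) (pairProds F) (fun p x => p.1 * p.2 = x) (p := 1) (q := 2) (fun p hp => by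
    rw [show {x | x ∈ pairProds F ∧ p.1 * p.2 = x} = {p.1 * p.2} from Set.ext fun x =>
      ⟨fun h => h.2.symm, fun h => by rw [h]; exact ⟨⟨p, hp, rfl⟩, rfl⟩⟩, Set.ncard_singleton]) ?_
  · rw [ncard_pairsIn M K] at h
    omega
  rintro _ ⟨⟨a, b⟩, ⟨ha, hb, hne⟩, rfl⟩
  rw [show {p | p ∈ pairsIn F ∧ p.1 * p.2 = a * b} = {(a, b), (b, a)} from Set.ext fun p => ?_, Set.ncard_pair]
  · simpa using fun e => absurd e (Ne.symm hne)
  constructor
  · rintro ⟨⟨hp, hq, hn⟩, e⟩
    rcases pair_unique M (K.sub hp) (K.nb hp hq hn) (K.sub ha) (K.nb ha hb hne) e with ⟨h1, h2⟩ | ⟨h1, h2⟩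
    · exact Or.inl (Prod.ext h1 h2)
    · exact Or.inr (Prod.ext h1 h2)
  · rintro (rfl | rfl)
    · exact ⟨⟨ha, hb, hne⟩, rfl⟩
    · exact ⟨⟨hb, ha, Ne.symm hne⟩, (K.comm b hb a ha).eq⟩

theorem ncard_tripleProds : (tripleProds F).ncard = 770 := by
  classical
  have h := double_count (triplesIn F) (tripleProds F) (fun r x => r.1.1 * r.1.2 * r.2 = x) (p := 1) (q := 12)
    (fun r hr => by
      rw [show {x | x ∈ tripleProds F ∧ r.1.1 * r.1.2 * r.2 = x} = {r.1.1 * r.1.2 * r.2} from Set.ext fun x =>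
        ⟨fun h => h.2.symm, fun h => by rw [h]; exact ⟨⟨r, hr, rfl⟩, rfl⟩⟩, Set.ncard_singleton]) ?_
  · rw [triplesIn, ncard_sigma_const (pairsIn F) (fun p => F \ {p.1, p.2}) (k := 20) ?_, ncard_pairsIn M K] at h
    · omega
    rintro ⟨a, b⟩ ⟨ha, hb, hne⟩
    rw [Set.ncard_sdiff (Set.insert_subset ha (Set.singleton_subset_iff.2 hb)), ncard_frame M K,
      Set.ncard_pair (fun e => hne e.symm)]
  intro x hx
  have hcx : ∀ f ∈ F, Commute x f := by
    obtain ⟨r, ⟨⟨ha, hb, -⟩, hd, -⟩, rfl⟩ := hx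
    exact fun f hf => ((K.comm _ ha f hf).mul_left (K.comm _ hb f hf)).mul_left (K.comm _ hd f hf)
  rw [← fibre_three M (isProd_triples M K hx)]
  refine Set.ncard_congr (fun r _ => (r.1.1, r.1.2, r.2)) (fun r hr => ⟨tri_of_mem K hr.1, hr.2⟩)
    (fun r r' _ _ e => ?_) fun t ht => ?_
  · simp only [Prod.mk.injEq] at e
    exact Prod.ext (Prod.ext e.1 e.2.1) e.2.2
  · obtain ⟨hT, hp⟩ := ht
    obtain ⟨h1, h2, h3⟩ := triple_mem M K (show Tri E t.1 t.2.1 t.2.2 from hT) fun f hf => hp ▸ hcx f hf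
    exact ⟨((t.1, t.2.1), t.2.2), ⟨⟨⟨h1, h2, hT.2.1.2.1⟩, h3, by simp [hT.2.2.1.2.1, hT.2.2.2.2.1]⟩, hp⟩, rfl⟩

theorem ne_one_of_isProd {x : Q} {m : ℕ} (h1 : 1 ≤ m) (h3 : m ≤ 3) (hx : IsProd E m x) : x ≠ 1 := by
  intro e0
  subst e0
  interval_cases m
  · have := M.tr.1 _ hx.one_elim
    simp at this
  · obtain ⟨a, b, ha, hb, he⟩ := hx.two_elim
    exact hb.2.1 (by rw [eq_inv_of_mul_eq_one_right he, inv_eq_of_mul_eq_one_right (M.sq ha)])
  · obtain ⟨a, b, d, ha, hb, hd, he⟩ := hx.three_elim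
    have h2 : d = a * b := by
      rw [eq_inv_of_mul_eq_one_right he, mul_inv_rev, inv_eq_of_mul_eq_one_right (M.sq ha),
        inv_eq_of_mul_eq_one_right (M.sq hb.1), hb.2.2.eq]
    have := isProd_unique M le_rfl (by norm_num) (by norm_num) (by norm_num) (isProd_one hd.1.1)
      (h2 ▸ isProd_two ha hb)
    omega

theorem span_eq : (closure F : Set Q) = {1} ∪ F ∪ pairProds F ∪ tripleProds F := by
  ext x
  constructor
  · intro hx
    rcases span_cases M K hx with h | h | h | h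
    exacts [Or.inl (Or.inl (Or.inl h)), Or.inl (Or.inl (Or.inr h)), Or.inl (Or.inr h), Or.inr h]
  · rintro (((h | h) | ⟨p, hp, rfl⟩) | ⟨r, hr, rfl⟩)
    exacts [(show x = 1 from h) ▸ one_mem _, subset_closure h, mul_mem (subset_closure hp.1) (subset_closure hp.2.1),
      mul_mem (mul_mem (subset_closure hr.1.1) (subset_closure hr.1.2.1)) (subset_closure hr.2.1)]

theorem card_span : Nat.card ↥(closure F) = 1024 := by
  classical
  rw [← SetLike.coe_sort_coe, Nat.card_coe_set_eq, span_eq M K, Set.ncard_union_eq, Set.ncard_union_eq,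
    Set.ncard_union_eq, Set.ncard_singleton, ncard_frame M K, ncard_pairProds M K, ncard_tripleProds M K]
  · rw [Set.disjoint_singleton_left]
    exact fun h => ne_one_of_isProd M K le_rfl (by norm_num) (isProd_one (K.sub h)) rfl
  · rw [Set.disjoint_left]
    rintro x (h | h) h2
    · exact ne_one_of_isProd M K (by norm_num) (by norm_num) (isProd_pairs M K h2) h
    · have := isProd_unique M le_rfl (by norm_num) (by norm_num) (by norm_num) (isProd_one (K.sub h))
        (isProd_pairs M K h2)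
      omega
  · rw [Set.disjoint_left]
    rintro x ((h | h) | h) h2
    · exact ne_one_of_isProd M K (by norm_num) le_rfl (isProd_triples M K h2) h
    · have := isProd_unique M le_rfl (by norm_num) (by norm_num) le_rfl (isProd_one (K.sub h)) (isProd_triples M K h2)
      omega
    · have := isProd_unique M (by norm_num) (by norm_num) (by norm_num) le_rfl (isProd_pairs M K h)
        (isProd_triples M K h2)
      omega

end Cfsg.Agent.Lib.Involution.FischerCover
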