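import Cfsg.Agent.Lib.Involution.FischerCoverPlanes

/-! Double covers of groups of type M(22): if frames lift to complements, so does a Sylow 2-subgroup of a link. -/

set_option autoImplicit false

namespace Cfsg.Agent.Lib.Involution.FischerCover

open Matrix
open Cfsg Cfsg.Agent.Lib.ThreeTransp Cfsg.Agent.Lib.Involution.FischerTwentyTwo Cfsg.Agent.Lib.Involution.FischerRel
open Cfsg.Agent.Lib.AutPSU Cfsg.Agent.Lib.Involution.UnitaryTransp

universe u

variable {C : Type u} [Group C] {Q : Type u} [Group Q] [Finite Q] {π : C →* Q} {z : C} {E : Set Q} {L : Set C}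

theorem Good.pi_frameLift (g : Good π z E L) {F : Set Q} (K : MaxComm E F) :
    (frameLift π L F).map π = Subgroup.closure F := by
  rw [frameLift, MonoidHom.map_closure, Set.image_image]
  congr 1
  ext q
  constructor
  · rintro ⟨a, ha, rfl⟩; simp only [g.pi_lift (K.sub ha)]; exact ha
  · exact fun hq => ⟨q, hq, g.pi_lift (K.sub hq)⟩

theorem Good.exists_lift (g : Good π z E L) {F : Set Q} (K : MaxComm E F) {x : Q} (hx : x ∈ Subgroup.closure F) :
    ∃ y ∈ frameLift π L F, π y = x := by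
  rw [← g.pi_frameLift K] at hx; exact hx

theorem Good.mem_normalizer_iff [Finite C] (g : Good π z E L) {F : Set Q} (K : MaxComm E F) {x : C} :
    x ∈ Subgroup.normalizer (frameLift π L F : Set C) ↔ ∀ f ∈ F, π x * f * (π x)⁻¹ ∈ F := by
  constructor
  · intro hx f hf
    have h1 : x * lift π L f * x⁻¹ ∈ frameLift π L F :=
      (Subgroup.mem_normalizer_iff.1 hx _).1 (Subgroup.subset_closure ⟨f, hf, rfl⟩)
    have h2 : π x * f * (π x)⁻¹ ∈ Subgroup.closure F := by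
      rw [← g.pi_frameLift K]
      exact ⟨_, h1, by rw [map_mul, map_mul, map_inv, g.pi_lift (K.sub hf)]⟩
    exact K.max _ (g.hyp.cl _ f (K.sub hf)) fun a ha => frame_span_comm g.hyp K _ h2 a (Subgroup.subset_closure ha)
  · intro h
    have hle : ∀ k : ℕ, ∀ y ∈ frameLift π L F, x ^ k * y * (x ^ k)⁻¹ ∈ frameLift π L F := by
      intro k
      induction k with
      | zero => intro y hy; simpa using hy
      | succ k ih =>
        intro y hy
        have h1 : ∀ y ∈ frameLift π L F, x * y * x⁻¹ ∈ frameLift π L F := by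
          intro y hy
          induction hy using Subgroup.closure_induction with
          | mem w hw =>
            obtain ⟨f, hf, rfl⟩ := hw
            rw [g.lift_conj x (K.sub hf)]
            exact Subgroup.subset_closure ⟨_, h f hf, rfl⟩
          | one => simp
          | mul p q _ _ hp hq =>
            rw [show x * (p * q) * x⁻¹ = x * p * x⁻¹ * (x * q * x⁻¹) by group]; exact mul_mem hp hq
          | inv p _ hp => rw [show x * p⁻¹ * x⁻¹ = (x * p * x⁻¹)⁻¹ by group]; exact inv_mem hp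
        rw [pow_succ', show x * x ^ k * y * (x * x ^ k)⁻¹ = x * (x ^ k * y * (x ^ k)⁻¹) * x⁻¹ by group]
        exact h1 _ (ih y hy)
    refine Subgroup.mem_normalizer_iff.2 fun y => ⟨fun hy => by simpa using hle 1 y hy, fun hy => ?_⟩
    have hinv : x⁻¹ = x ^ (orderOf x - 1) := by
      refine inv_eq_of_mul_eq_one_right ?_
      rw [← pow_succ', Nat.sub_add_cancel (orderOf_pos x), pow_orderOf_eq_one]
    have := hle (orderOf x - 1) _ hy
    rw [← hinv] at this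
    simpa [mul_assoc] using this

variable {d : Q}

/-- The pairs on the points of a line. -/
theorem exists_pair_elt (M : Hyp E) (hd : d ∈ E) {u v : Fin 6 → (M.lk hd).F} (huu : hm 2 u u = 0)
    (hvv : hm 2 v v = 0) (huv : hm 2 u v = 0) (hne : ∀ k : (M.lk hd).F, u + k • v ≠ 0) (a : (M.lk hd).F) :
    ∃ x R, Act (M.lk hd) x R ∧ (∀ w, R w = (a * hm 2 w v) • u + (a ^ 2 * hm 2 w u) • v) ∧
      ∀ F, MaxComm E F → d ∈ F → u ∈ frameSpan (M.lk hd) F → v ∈ frameSpan (M.lk hd) F →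
        x ∈ Subgroup.closure F := by
  rcases eq_or_ne a 0 with rfl | ha
  · exact ⟨1, 0, act_one _, fun w => by simp, fun F _ _ _ _ => one_mem _⟩
  haveI := charTwo (M.lk hd).card_F
  have hF := card2 (M.lk hd).card_F
  obtain ⟨ω, hω0, hω1, hω, -⟩ := exists_other (M.lk hd).card_F
  have hvu := hm_comm_zero hF huv
  have hval : ∀ k : (M.lk hd).F, Valid 2 (u + k • v) := fun k => ⟨hne k, by
    simp [hm_add_left, hm_add_right hF, hm_smul_left', hm_smul_right, huu, hvv, huv, hvu]⟩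
  have horth : ∀ k k' : (M.lk hd).F, hm 2 (u + k • v) (u + k' • v) = 0 := fun k k' => by
    simp [hm_add_left, hm_add_right hF, hm_smul_left', hm_smul_right, huu, hvv, huv, hvu]
  have hpick : ∀ k : (M.lk hd).F, ∃ y ∈ Nb E d, ∃ s : (M.lk hd).F, s ≠ 0 ∧ u + k • v = s • (M.lk hd).pt y :=
    fun k => (M.lk hd).surj _ (hval k)
  obtain ⟨y, hy, s, hs, e⟩ := hpick (a ^ 2 * ω)
  obtain ⟨y', hy', s', hs', e'⟩ := hpick (a ^ 2 * (ω + 1))
  have hT : ∀ {y : Q} {s k : (M.lk hd).F}, s ≠ 0 → u + k • v = s • (M.lk hd).pt y → ∀ w,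
      tvec ((M.lk hd).pt y) w = hm 2 w (u + k • v) • (u + k • v) := by
    intro y s k hs e w
    show hm 2 w ((M.lk hd).pt y) • (M.lk hd).pt y = _
    rw [e, hm_smul_right, smul_smul, show s ^ 2 * hm 2 w ((M.lk hd).pt y) * s = hm 2 w ((M.lk hd).pt y) * s ^ 3 by ring,
      pow_three (M.lk hd).card_F hs, mul_one]
  refine ⟨y * y', _, (act_member M _ hy).mul M (act_member M _ hy'), fun w => ?_, fun F K hdF hu hv => ?_⟩
  · simp only [LinearMap.add_apply, LinearMap.comp_apply, hT hs e, hT hs' e', hm_smul_left',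
      horth, mul_zero, zero_smul, add_zero]
    simp only [hm_add_right hF, hm_smul_right]
    have h2 : (2 : (M.lk hd).F) = 0 := CharTwo.two_eq_zero
    have ha3 : a ^ 3 = 1 := pow_three (M.lk hd).card_F ha
    match_scalars <;> grind
  · have h1 : ∀ {y : Q} {s k : (M.lk hd).F}, y ∈ Nb E d → s ≠ 0 → u + k • v = s • (M.lk hd).pt y →
        y ∈ Subgroup.closure F := fun hy hs e => Subgroup.subset_closure (mem_of_pt_mem M K hdF _ hy
      ((Submodule.smul_mem_iff _ hs).1 (e ▸ Submodule.add_mem _ hu (Submodule.smul_mem _ _ hv))))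
    exact mul_mem (h1 hy hs e) (h1 hy' hs' e')

set_option maxHeartbeats 2000000 in
/-- A Sylow 2-subgroup of the link of `d` lifts. -/
theorem Good.exists_complement [Finite C] (g : Good π z E L) (hd : d ∈ E) :
    ∃ e ∈ Nb E d, ∃ X : Subgroup C, z ∉ X ∧ Nat.card X = 2 ^ 16 ∧
      X ≤ Subgroup.closure (lift π L '' {y | y ∈ E ∧ Commute y d ∧ Commute y e}) := by
  classical
  have M := g.hyp
  haveI := charTwo (M.lk hd).card_F
  haveI : Fact (Nat.Prime 2) := ⟨Nat.prime_two⟩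
  have hF := card2 (M.lk hd).card_F
  have h2 : (2 : (M.lk hd).F) = 0 := CharTwo.two_eq_zero
  obtain ⟨ω, hω0, hω1, hω, -⟩ := exists_other (M.lk hd).card_F
  set b1 : Fin 6 → (M.lk hd).F := ![1, 1, 0, 0, 0, 0] with hb1
  set b2 : Fin 6 → (M.lk hd).F := ![0, 0, 1, 1, 0, 0] with hb2
  set b3 : Fin 6 → (M.lk hd).F := ![0, 0, 0, 0, 1, 1] with hb3
  set f2 : Fin 6 → (M.lk hd).F := ![0, 0, ω, ω + 1, 0, 0] with hf2
  set f3 : Fin 6 → (M.lk hd).F := ![0, 0, 0, 0, ω, ω + 1] with hf3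
  have key : ∀ u v : Fin 6 → (M.lk hd).F, hm 2 u v =
      u 0 * v 0 ^ 2 + u 1 * v 1 ^ 2 + u 2 * v 2 ^ 2 + u 3 * v 3 ^ 2 + u 4 * v 4 ^ 2 + u 5 * v 5 ^ 2 := fun u v => by
    simp [hm, Cfsg.hermForm, Fin.sum_univ_six]
  have o0 : ∀ i j, hm 2 (![b1, b2, b3] i) (![b1, b2, b3] j) = 0 := by
    intro i j; fin_cases i <;> fin_cases j <;> simp [key, b1, b2, b3] <;> grind
  have o1 : ∀ i j, hm 2 (![b1, f2, f3] i) (![b1, f2, f3] j) = 0 := by
    intro i j; fin_cases i <;> fin_cases j <;> simp [key, b1, f2, f3] <;> grind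
  have o2 : ∀ i j, hm 2 (![b1, b2, f3] i) (![b1, b2, f3] j) = 0 := by
    intro i j; fin_cases i <;> fin_cases j <;> simp [key, b1, b2, f3] <;> grind
  have hb2f2 : hm 2 b2 f2 = 1 := by simp [key, b2, f2]; grind
  have hb3f3 : hm 2 b3 f3 = 1 := by simp [key, b3, f3]; grind
  have li : ∀ u : Fin 3 → Fin 6 → (M.lk hd).F, (∀ g : Fin 3 → (M.lk hd).F, g 0 • u 0 + g 1 • u 1 + g 2 • u 2 = 0 →
      g 0 = 0 ∧ g 1 = 0 ∧ g 2 = 0) → LinearIndependent (M.lk hd).F u := by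
    intro u h
    refine Fintype.linearIndependent_iff.2 fun g hg i => ?_
    rw [Fin.sum_univ_three] at hg
    obtain ⟨p, q, r⟩ := h g hg
    fin_cases i <;> assumption
  have li0 : LinearIndependent (M.lk hd).F ![b1, b2, b3] := li _ fun g hg => by
    have h0 := congrFun hg 0; have h1 := congrFun hg 2; have h2' := congrFun hg 4
    simp [b1, b2, b3] at h0 h1 h2'
    exact ⟨h0, h1, h2'⟩
  have li1 : LinearIndependent (M.lk hd).F ![b1, f2, f3] := li _ fun g hg => by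
    have h0 := congrFun hg 0; have h1 := congrFun hg 2; have h2' := congrFun hg 4
    simp [b1, f2, f3, hω0] at h0 h1 h2'
    exact ⟨h0, h1, h2'⟩
  have li2 : LinearIndependent (M.lk hd).F ![b1, b2, f3] := li _ fun g hg => by
    have h0 := congrFun hg 0; have h1 := congrFun hg 2; have h2' := congrFun hg 4
    simp [b1, b2, f3, hω0] at h0 h1 h2'
    exact ⟨h0, h1, h2'⟩
  obtain ⟨F0, K0, hd0, W0⟩ := exists_frame_plane M hd _ o0 li0
  obtain ⟨F1, K1, hd1, W1⟩ := exists_frame_plane M hd _ o1 li1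
  obtain ⟨F2, K2, hd2, W2⟩ := exists_frame_plane M hd _ o2 li2
  have span : ∀ {u : Fin 3 → Fin 6 → (M.lk hd).F} {F : Set Q},
      frameSpan (M.lk hd) F = Submodule.span (M.lk hd).F (Set.range u) →
      (∀ i, u i ∈ frameSpan (M.lk hd) F) ∧
      ∀ v ∈ frameSpan (M.lk hd) F, ∃ p q r : (M.lk hd).F, v = p • u 0 + q • u 1 + r • u 2 := by
    intro u F h
    refine ⟨fun i => h ▸ Submodule.subset_span ⟨i, rfl⟩, fun v hv => ?_⟩
    rw [h, Submodule.mem_span_range_iff_exists_fun] at hv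
    obtain ⟨c, rfl⟩ := hv
    exact ⟨c 0, c 1, c 2, Fin.sum_univ_three _⟩
  obtain ⟨m0, c0⟩ := span W0
  obtain ⟨m1, c1⟩ := span W1
  obtain ⟨m2, c2⟩ := span W2
  have i01 : ∀ v ∈ frameSpan (M.lk hd) F0, v ∈ frameSpan (M.lk hd) F1 → ∃ p : (M.lk hd).F, v = p • b1 := by
    intro v hv hv'
    obtain ⟨p, q, r, rfl⟩ := c0 v hv
    obtain ⟨p', q', r', e⟩ := c1 _ hv'
    have e2 := congrFun e 2; have e3 := congrFun e 3; have e4 := congrFun e 4; have e5 := congrFun e 5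
    simp [b1, b2, b3, f2, f3] at e2 e3 e4 e5
    have : q = 0 ∧ r = 0 := by constructor <;> grind
    exact ⟨p, by simp [this.1, this.2]⟩
  have i02 : ∀ v ∈ frameSpan (M.lk hd) F0, v ∈ frameSpan (M.lk hd) F2 →
      ∃ p q : (M.lk hd).F, v = p • b1 + q • b2 := by
    intro v hv hv'
    obtain ⟨p, q, r, rfl⟩ := c0 v hv
    obtain ⟨p', q', r', e⟩ := c2 _ hv'
    have e4 := congrFun e 4; have e5 := congrFun e 5
    simp [b1, b2, b3, f3] at e4 e5
    have : r = 0 := by grind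
    exact ⟨p, q, by simp [this]⟩
  -- the pairs
  have hne : ∀ (u v : Fin 6 → (M.lk hd).F) (i : Fin 6), u i ≠ 0 → v i = 0 → ∀ k : (M.lk hd).F, u + k • v ≠ 0 :=
    fun u v i hu hv k h => hu (by simpa [hv] using congrFun h i)
  choose p12 R12 a12 r12 s12 using fun a => exists_pair_elt M hd (o1 0 0) (o1 1 1) (o1 0 1)
    (hne b1 f2 0 (by simp [b1]) (by simp [f2])) a
  choose p13 R13 a13 r13 s13 using fun a => exists_pair_elt M hd (o1 0 0) (o1 2 2) (o1 0 2)
    (hne b1 f3 0 (by simp [b1]) (by simp [f3])) a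
  choose p23 R23 a23 r23 s23 using fun a => exists_pair_elt M hd (o2 1 1) (o2 2 2) (o2 1 2)
    (hne b2 f3 2 (by simp [b2]) (by simp [f3])) a
  have hb1f2 : hm 2 b1 f2 = 0 := o1 0 1
  have hb1f3 : hm 2 b1 f3 = 0 := o1 0 2
  have hb2f3 : hm 2 b2 f3 = 0 := o2 1 2
  have hb3f2 : hm 2 b3 f2 = 0 := by simp [key, b3, f2]
  have z11 : hm 2 b1 b1 = 0 := o0 0 0
  have z12 : hm 2 b1 b2 = 0 := o0 0 1
  have z21 : hm 2 b2 b1 = 0 := o0 1 0
  have z22 : hm 2 b2 b2 = 0 := o0 1 1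
  have z31 : hm 2 b3 b1 = 0 := o0 2 0
  have z32 : hm 2 b3 b2 = 0 := o0 2 1
  have v12 : ∀ a, R12 a b1 = 0 ∧ R12 a b2 = a • b1 ∧ R12 a b3 = 0 := fun a => by
    simp [r12, hb1f2, z11, hb2f2, z21, hb3f2, z31]
  have v13 : ∀ a, R13 a b1 = 0 ∧ R13 a b2 = 0 ∧ R13 a b3 = a • b1 := fun a => by
    simp [r13, hb1f3, z11, hb2f3, z21, hb3f3, z31]
  have v23 : ∀ a, R23 a b1 = 0 ∧ R23 a b2 = 0 ∧ R23 a b3 = a • b2 := fun a => by
    simp [r23, hb1f3, z12, hb2f3, z22, hb3f3, z32]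
  -- stabilizing the first plane
  have stab : ∀ {x : Q} {R : (Fin 6 → (M.lk hd).F) →ₗ[(M.lk hd).F] (Fin 6 → (M.lk hd).F)},
      Act (M.lk hd) x R → R b1 ∈ frameSpan (M.lk hd) F0 → R b2 ∈ frameSpan (M.lk hd) F0 →
      R b3 ∈ frameSpan (M.lk hd) F0 → ∀ f ∈ F0, x * f * x⁻¹ ∈ F0 := fun hR h1 h2 h3 =>
    (act_maps_iff M K0 hd hd0 hR).2 fun v hv => by
      obtain ⟨p, q, r, rfl⟩ := c0 v hv
      simp only [map_add, map_smul]
      exact Submodule.add_mem _ (Submodule.add_mem _ (Submodule.smul_mem _ _ h1) (Submodule.smul_mem _ _ h2))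
        (Submodule.smul_mem _ _ h3)
  have mb1 : b1 ∈ frameSpan (M.lk hd) F0 := m0 0
  have mb2 : b2 ∈ frameSpan (M.lk hd) F0 := m0 1
  set H0 := frameLift π L F0
  set X1 := frameLift π L F1 ⊓ Subgroup.normalizer (H0 : Set C)
  set Y := frameLift π L F2 ⊓ Subgroup.normalizer (H0 : Set C) ⊓ Subgroup.normalizer (frameLift π L F1 : Set C)
  have hX1 : X1 ≤ Subgroup.normalizer (H0 : Set C) := inf_le_right
  have hYX : Y ≤ Subgroup.normalizer ((H0 ⊔ X1 : Subgroup C) : Set C) := by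
    intro y hy
    refine Subgroup.mem_normalizer_iff.2 fun w => ?_
    have key : ∀ y ∈ Y, ∀ w ∈ H0 ⊔ X1, y * w * y⁻¹ ∈ H0 ⊔ X1 := by
      intro y hy w hw
      rw [← SetLike.mem_coe, Subgroup.coe_mul_of_right_le_normalizer_left _ _ hX1, Set.mem_mul] at hw
      obtain ⟨h, hh, x, hx, rfl⟩ := hw
      rw [show y * (h * x) * y⁻¹ = y * h * y⁻¹ * (y * x * y⁻¹) by group]
      refine mul_mem (Subgroup.mem_sup_left ((Subgroup.mem_normalizer_iff.1 hy.1.2 h).1 hh))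
        (Subgroup.mem_sup_right ⟨(Subgroup.mem_normalizer_iff.1 hy.2 x).1 hx.1, ?_⟩)
      exact Subgroup.mul_mem _ (Subgroup.mul_mem _ hy.1.2 hx.2) (Subgroup.inv_mem _ hy.1.2)
    exact ⟨key y hy w, fun h => by simpa [mul_assoc] using key y⁻¹ (inv_mem hy) _ h⟩
  set X := H0 ⊔ X1 ⊔ Y with hXdef
  have hmem : ∀ w ∈ X, ∃ h ∈ H0, ∃ x ∈ X1, ∃ y ∈ Y, h * x * y = w := by
    intro w hw
    rw [hXdef, ← SetLike.mem_coe, Subgroup.coe_mul_of_right_le_normalizer_left _ _ hYX,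
      Subgroup.coe_mul_of_right_le_normalizer_left _ _ hX1, Set.mem_mul] at hw
    obtain ⟨hx, hhx, y, hy, rfl⟩ := hw
    obtain ⟨h, hh, x, hx, rfl⟩ := Set.mem_mul.1 hhx
    exact ⟨h, hh, x, hx, y, hy, rfl⟩
  have piz : ∀ {F : Set Q}, MaxComm E F → ∀ y ∈ frameLift π L F, π y ∈ Subgroup.closure F := fun K y hy => by
    rw [← g.pi_frameLift K]; exact ⟨y, hy, rfl⟩
  -- the action of the three factors
  have act0 : ∀ h ∈ H0, ∃ R, Act (M.lk hd) (π h) R ∧ ∀ v ∈ frameSpan (M.lk hd) F0, R v = 0 := fun h hh => by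
    obtain ⟨R, h1, -, h3⟩ := act_closure M K0 hd hd0 (piz K0 h hh)
    exact ⟨R, h1, h3⟩
  have act1 : ∀ x ∈ X1, ∃ R, ∃ a b : (M.lk hd).F, Act (M.lk hd) (π x) R ∧
      R b1 = 0 ∧ R b2 = a • b1 ∧ R b3 = b • b1 := by
    intro x hx
    obtain ⟨R, hR, h1, h2⟩ := act_closure M K1 hd hd1 (piz K1 x hx.1)
    have h3 := (act_maps_iff M K0 hd hd0 hR).1 ((g.mem_normalizer_iff K0).1 hx.2)
    obtain ⟨a, ha⟩ := i01 _ (h3 b2 mb2) (h1 b2)
    obtain ⟨b, hb⟩ := i01 _ (h3 b3 (m0 2)) (h1 b3)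
    exact ⟨R, a, b, hR, h2 _ (m1 0), ha, hb⟩
  have act2 : ∀ y ∈ Y, ∃ R, ∃ b c : (M.lk hd).F, Act (M.lk hd) (π y) R ∧
      R b1 = 0 ∧ R b2 = 0 ∧ R b3 = b • b1 + c • b2 := by
    intro y hy
    obtain ⟨R, hR, h1, h2⟩ := act_closure M K2 hd hd2 (piz K2 y hy.1.1)
    have h3 := (act_maps_iff M K0 hd hd0 hR).1 ((g.mem_normalizer_iff K0).1 hy.1.2)
    obtain ⟨b, c, hb⟩ := i02 _ (h3 b3 (m0 2)) (h1 b3)
    exact ⟨R, b, c, hR, h2 _ (m2 0), h2 _ (m2 1), hb⟩
  have fix : ∀ {F : Set Q} (K : MaxComm E F) {w : Q} {R : (Fin 6 → (M.lk hd).F) →ₗ[(M.lk hd).F] (Fin 6 → (M.lk hd).F)},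
      w ∈ Subgroup.closure F → Act (M.lk hd) w R → R b1 = 0 → R b2 = 0 → R b3 = 0 →
      w ∈ Subgroup.closure F0 := by
    intro F K w R hw hR h1 h2 h3
    by_cases hw1 : w = 1
    · rw [hw1]; exact one_mem _
    refine mem_closure_frame M K0 (orderOf_eq_prime (frame_span_sq M K w hw) hw1) (act_fixes M K0 hd hd0 hR fun v hv => ?_)
    obtain ⟨p, q, r, rfl⟩ := c0 v hv
    simp [h1, h2, h3]
  have hz : z ∉ X := by
    intro hzX
    obtain ⟨h, hh, x, hx, y, hy, e⟩ := hmem z hzX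
    obtain ⟨R0, hR0, r0⟩ := act0 h hh
    obtain ⟨R1, a, b, hR1, x1, x2, x3⟩ := act1 x hx
    obtain ⟨R2, β, γ, hR2, y1, y2, y3⟩ := act2 y hy
    have hR := (hR0.mul M hR1).mul M hR2
    rw [← map_mul, ← map_mul, e, g.piz] at hR
    obtain ⟨t, et⟩ := act_unique M K0 hd hd0 hR (act_one _) (m0 1)
    obtain ⟨t', et'⟩ := act_unique M K0 hd hd0 hR (act_one _) (m0 2)
    have e1 : R0 b1 = 0 := r0 _ mb1
    have e2 : R0 b2 = 0 := r0 _ mb2
    have e3 : R0 b3 = 0 := r0 _ (m0 2)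
    simp [e1, e2, e3, x1, x2, x3, y1, y2, y3] at et et'
    have f0 := congrFun et 0; have f2' := congrFun et 2
    have g0 := congrFun et' 0; have g2 := congrFun et' 2; have g4 := congrFun et' 4
    simp [b1, b2, b3] at f0 f2' g0 g2 g4
    obtain ⟨rfl, rfl, rfl⟩ : a = 0 ∧ γ = 0 ∧ β = b := ⟨by grind, by grind, by grind⟩
    simp only [zero_smul, add_zero] at x2 y3
    obtain ⟨P1, hP1, eP1⟩ := g.exists_lift K1 (s13 β F1 K1 hd1 (m1 0) (m1 2))
    obtain ⟨P2, hP2, eP2⟩ := g.exists_lift K2 (s13 β F2 K2 hd2 (m2 0) (m2 2))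
    have hPP : P1 = P2 := g.eq_of_pi K1 K2 hP1 hP2 (eP1.trans eP2.symm)
    obtain ⟨u1, u2, u3⟩ := v13 β
    have hA : x * P1 ∈ H0 := by
      have hm1 : x * P1 ∈ frameLift π L F1 := mul_mem hx.1 hP1
      obtain ⟨w, hw, ew⟩ := g.exists_lift K0 (x := π (x * P1)) (fix K1 (piz K1 _ hm1)
        (by rw [map_mul, eP1]; exact hR1.mul M (a13 β)) (by simp [x1, u1]) (by simp [x2, u2])
        (by simp [x3, u3, x1, ← add_smul, CharTwo.add_self_eq_zero]))
      rwa [g.eq_of_pi K1 K0 hm1 hw ew.symm]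
    have hB : P2 * y ∈ H0 := by
      have hm2 : P2 * y ∈ frameLift π L F2 := mul_mem hP2 hy.1.1
      obtain ⟨w, hw, ew⟩ := g.exists_lift K0 (x := π (P2 * y)) (fix K2 (piz K2 _ hm2)
        (by rw [map_mul, eP2]; exact (a13 β).mul M hR2) (by simp [y1, u1]) (by simp [y2, u2])
        (by simp [y3, u3, u1, ← add_smul, CharTwo.add_self_eq_zero]))
      rwa [g.eq_of_pi K2 K0 hm2 hw ew.symm]
    have hsq : P1 * P2 = 1 := by
      rw [← hPP]
      exact g.eq_one K1 (mul_mem hP1 hP1) (by rw [map_mul, eP1, ← pow_two, frame_span_sq M K1 _ (s13 β F1 K1 hd1 (m1 0) (m1 2))])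
    have hzH : z ∈ H0 := by
      rw [← e, show h * x * y = h * ((x * P1) * (P1⁻¹ * P2⁻¹) * (P2 * y)) by group,
        ← _root_.mul_inv_rev, show P2 * P1 = 1 by rw [← hPP] at hsq ⊢; exact hsq, inv_one, mul_one]
      exact mul_mem hh (mul_mem hA hB)
    exact g.z1 (g.eq_one K0 hzH g.piz)
  -- the image
  have hPi : ∀ w ∈ X, Commute (π w) d := by
    intro w hw
    obtain ⟨h, hh, x, hx, y, hy, rfl⟩ := hmem w hw
    rw [map_mul, map_mul]
    exact ((act0 h hh).choose_spec.1.1.mul_left (act1 x hx).choose_spec.choose_spec.choose_spec.1.1).mul_left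
      (act2 y hy).choose_spec.choose_spec.choose_spec.1.1
  have hpick : ∀ a b c, ∃ w ∈ X1, ∃ w' ∈ Y, π w = p12 a * p13 b ∧ π w' = p23 c := by
    intro a b c
    obtain ⟨w, hw, ew⟩ := g.exists_lift K1 (mul_mem (s12 a F1 K1 hd1 (m1 0) (m1 1)) (s13 b F1 K1 hd1 (m1 0) (m1 2)))
    obtain ⟨w', hw', ew'⟩ := g.exists_lift K2 (s23 c F2 K2 hd2 (m2 1) (m2 2))
    obtain ⟨u1, u2, u3⟩ := v12 a
    obtain ⟨t1, t2, t3⟩ := v13 b
    obtain ⟨q1, q2, q3⟩ := v23 c
    refine ⟨w, ⟨hw, (g.mem_normalizer_iff K0).2 ?_⟩, w', ⟨⟨hw', (g.mem_normalizer_iff K0).2 ?_⟩,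
      (g.mem_normalizer_iff K1).2 ?_⟩, ew, ew'⟩
    · rw [ew]
      refine stab ((a12 a).mul M (a13 b)) ?_ ?_ ?_
      all_goals simp [u1, u2, u3, t1, t2, t3, Submodule.smul_mem, mb1]
    · rw [ew']
      refine stab (a23 c) ?_ ?_ ?_
      all_goals simp [q1, q2, q3, Submodule.smul_mem, mb2]
    · rw [ew']
      refine (act_maps_iff M K1 hd hd1 (a23 c)).2 fun v hv => ?_
      obtain ⟨p, q, r, rfl⟩ := c1 v hv
      have e1 : R23 c b1 = 0 := q1
      have e2 : R23 c f2 = (c ^ 2) • f3 := by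
        have : hm 2 f2 b2 = 1 := by simp [key, f2, b2]; grind
        simp [r23, this, show hm 2 f2 f3 = 0 from o1 1 2]
      have e3 : R23 c f3 = 0 := by
        simp [r23, show hm 2 f3 f3 = 0 from o1 2 2, show hm 2 f3 b2 = 0 from o2 2 1]
      simp only [map_add, map_smul, Matrix.cons_val_zero, Matrix.cons_val_one, Matrix.cons_val_two, Matrix.head_cons,
        Matrix.tail_cons, e1, e2, e3, smul_zero, zero_add, add_zero]
      exact Submodule.smul_mem _ _ (Submodule.smul_mem _ _ (m1 2))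
  choose wX hwX wY hwY eX eY using hpick
  have hle : 2 ^ 16 ≤ Nat.card ↥(X.map π) := by
    let Φ : ↥H0 × (M.lk hd).F × (M.lk hd).F × (M.lk hd).F → ↥(X.map π) := fun p =>
      ⟨π ((p.1 : C) * wX p.2.1 p.2.2.1 p.2.2.2 * wY p.2.1 p.2.2.1 p.2.2.2),
        Subgroup.mem_map_of_mem π (mul_mem (mul_mem (Subgroup.mem_sup_left (Subgroup.mem_sup_left p.1.2))
          (Subgroup.mem_sup_left (Subgroup.mem_sup_right (hwX _ _ _)))) (Subgroup.mem_sup_right (hwY _ _ _)))⟩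
    have hinj : Function.Injective Φ := by
      rintro ⟨⟨h, hh⟩, a, b, c⟩ ⟨⟨h', hh'⟩, a', b', c'⟩ e
      have e' := congrArg Subtype.val e
      simp only [Φ, map_mul, eX, eY] at e'
      obtain ⟨R, hR, r⟩ := act0 h hh
      obtain ⟨R', hR', r'⟩ := act0 h' hh'
      have A := (hR.mul M ((a12 a).mul M (a13 b))).mul M (a23 c)
      have A' := (hR'.mul M ((a12 a').mul M (a13 b'))).mul M (a23 c')
      rw [← e'] at A'
      obtain ⟨t, et⟩ := act_unique M K0 hd hd0 A A' (m0 1)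
      obtain ⟨t', et'⟩ := act_unique M K0 hd hd0 A A' (m0 2)
      have n1 : R b1 = 0 := r _ mb1
      have n2 : R b2 = 0 := r _ mb2
      have n3 : R b3 = 0 := r _ (m0 2)
      have o1' : R' b1 = 0 := r' _ mb1
      have o2' : R' b2 = 0 := r' _ mb2
      have o3' : R' b3 = 0 := r' _ (m0 2)
      simp [n1, n2, n3, o1', o2', o3', v12, v13, v23] at et et'
      have f0 := congrFun et 0; have f2' := congrFun et 2
      have g0 := congrFun et' 0; have g2 := congrFun et' 2; have g4 := congrFun et' 4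
      simp [b1, b2, b3] at f0 f2' g0 g2 g4
      obtain ⟨rfl, rfl, rfl⟩ : a = a' ∧ b = b' ∧ c = c' := by
        refine ⟨by grind, ?_, by grind⟩
        have : a = a' := by grind
        have : c = c' := by grind
        grind
      have hh2 := g.eq_of_pi K0 K0 hh hh' (by
        rw [mul_assoc (π h), mul_assoc (π h')] at e'
        exact mul_right_cancel e')
      subst hh2
      rfl
    have h1 := Nat.card_le_card_of_injective Φ hinj
    rw [Nat.card_prod, Nat.card_prod, Nat.card_prod, Nat.card_eq_fintype_card (α := (M.lk hd).F),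
      (M.lk hd).card_F] at h1
    have h0 : Nat.card ↥H0 = 1024 := by
      rw [← card_span M K0, ← g.pi_frameLift K0]
      refine Nat.card_congr ((Equiv.ofBijective (fun y : ↥H0 => (⟨π y, Subgroup.mem_map_of_mem π y.2⟩ : ↥(H0.map π)))
        ⟨fun y y' e => Subtype.ext (g.eq_of_pi K0 K0 y.2 y'.2 (congrArg Subtype.val e)),
          fun ⟨q, y, hy, e⟩ => ⟨⟨y, hy⟩, Subtype.ext e⟩⟩))
    omega
  -- two-groups
  have p2 : ∀ {F : Set Q}, MaxComm E F → IsPGroup 2 ↥(frameLift π L F) := fun {F} K w => ⟨1, Subtype.ext (by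
    show ((w : C)) ^ (2 ^ 1) = 1
    refine g.eq_one K (pow_mem w.2 _) ?_
    rw [map_pow, pow_one, frame_span_sq M K _ (piz K _ w.2)])⟩
  have hXp : IsPGroup 2 ↥X := by
    refine IsPGroup.to_sup_of_normal_left' ?_ ((p2 K2).to_le (inf_le_left.trans inf_le_left)) hYX
    exact IsPGroup.to_sup_of_normal_left' (p2 K0) ((p2 K1).to_le inf_le_left) hX1
  have hker : ∀ w ∈ X, π w = 1 → w = 1 := fun w hw e => (g.ker w e).resolve_right fun h => hz (h ▸ hw)
  have hcard : Nat.card ↥(X.map π) = Nat.card X := by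
    refine (Nat.card_congr (Equiv.ofBijective (fun y : ↥X => (⟨π y, Subgroup.mem_map_of_mem π y.2⟩ : ↥(X.map π)))
      ⟨fun y y' e => ?_, fun ⟨q, y, hy, e⟩ => ⟨⟨y, hy⟩, Subtype.ext e⟩⟩)).symm
    refine Subtype.ext (mul_inv_eq_one.1 (hker _ (mul_mem y.2 (inv_mem y'.2)) ?_))
    rw [map_mul, map_inv, show π y = π y' from congrArg Subtype.val e, mul_inv_cancel]
  obtain ⟨k, hk⟩ := IsPGroup.iff_card.1 hXp
  have hdvd : 2 ^ k ∣ 2 * 9196830720 := by
    rw [← hk, ← hcard, ← card_centralizer M hd]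
    refine Subgroup.card_dvd_of_le ?_
    rintro _ ⟨w, hw, rfl⟩
    exact Subgroup.mem_centralizer_singleton_iff.2 (hPi w hw).eq
  have hk16 : k = 16 := by
    rw [hcard, hk] at hle
    have h1 : 16 ≤ k := (Nat.pow_le_pow_iff_right (by norm_num)).1 hle
    by_contra hne
    have := (pow_dvd_pow 2 (show 17 ≤ k by omega)).trans hdvd
    norm_num at this
  obtain ⟨e, he, s, hs, heq⟩ := (M.lk hd).surj b1 ⟨fun h => by simpa [b1] using congrFun h 0, z11⟩
  have hin : ∀ {F : Set Q}, MaxComm E F → d ∈ F → b1 ∈ frameSpan (M.lk hd) F →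
      frameLift π L F ≤ Subgroup.closure (lift π L '' {y | y ∈ E ∧ Commute y d ∧ Commute y e}) := by
    intro F K hdF hb
    have heF : e ∈ F := mem_of_pt_mem M K hdF _ he ((Submodule.smul_mem_iff _ hs).1 (heq ▸ hb))
    refine Subgroup.closure_mono ?_
    rintro _ ⟨f, hf, rfl⟩
    exact ⟨f, ⟨K.sub hf, K.comm f hf d hdF, K.comm f hf e heF⟩, rfl⟩
  exact ⟨e, he, X, hz, by rw [hk, hk16], sup_le (sup_le (hin K0 hd0 mb1) (inf_le_left.trans (hin K1 hd1 (m1 0))))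
    ((inf_le_left.trans inf_le_left).trans (hin K2 hd2 (m2 0)))⟩

end Cfsg.Agent.Lib.Involution.FischerCover
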