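import Cfsg.Agent.Lib.Involution.FischerCoverSign

/-! Double covers of groups of type M(22): the Thompson subgroup of a Sylow 2-subgroup. -/

set_option autoImplicit false

namespace Cfsg.Agent.Lib.Involution.FischerCover

open Cfsg Cfsg.Agent.Lib.ThreeTransp Cfsg.Agent.Lib.Involution.FischerTwentyTwo Cfsg.Agent.Lib.Involution.FischerRel
open Subgroup

universe u

variable {C : Type u} [Group C] [Finite C] {Q : Type u} [Group Q] [Finite Q] {π : C →* Q} {z : C} {E : Set Q}
  {L : Set C} {F : Set Q}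

omit [Finite C] in
/-- The full preimage of the group of a frame is generated by commuting involutions. -/
theorem Cls.span_eq_closure (c : Cls π z E L) (K : MaxComm E F) :
    (closure F).comap π = closure (insert z (lift π L '' F)) := by
  apply le_antisymm
  · intro x hx
    have h : π x ∈ (closure (lift π L '' F)).map π := by
      rw [MonoidHom.map_closure, Set.image_image]
      refine closure_mono (fun q hq => ?_) (mem_comap.1 hx)
      exact ⟨q, hq, c.pi_lift (K.sub hq)⟩
    obtain ⟨y, hy, e⟩ := h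
    have hy' : y ∈ closure (insert z (lift π L '' F)) := closure_mono (Set.subset_insert _ _) hy
    rcases c.toCov.lift_cases e with rfl | rfl
    · exact hy'
    · exact mul_mem hy' (subset_closure (Set.mem_insert _ _))
  · refine (closure_le _).2 ?_
    rintro w (rfl | ⟨f, hf, rfl⟩)
    · exact mem_comap.2 (c.piz ▸ one_mem _)
    · exact mem_comap.2 (by rw [c.pi_lift (K.sub hf)]; exact subset_closure hf)

omit [Finite C] in
theorem Cls.span_comm (c : Cls π z E L) (K : MaxComm E F) :
    ∀ x ∈ (closure F).comap π, ∀ y ∈ (closure F).comap π, x * y = y * x := by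
  rw [c.span_eq_closure K]
  haveI : IsMulCommutative ↥(closure (insert z (lift π L '' F))) := isMulCommutative_closure (by
    rintro a (rfl | ⟨p, hp, rfl⟩) b (rfl | ⟨q, hq, rfl⟩)
    exacts [rfl, (c.hz _).eq, (c.hz _).eq.symm, (c.lift_comm (K.sub hp) (K.sub hq) (K.comm p hp q hq)).eq])
  exact fun x hx y hy => congrArg Subtype.val
    (IsMulCommutative.is_comm.comm (⟨x, hx⟩ : ↥(closure (insert z (lift π L '' F)))) ⟨y, hy⟩)

omit [Finite C] in
theorem Cls.span_sq (c : Cls π z E L) (K : MaxComm E F) : ∀ x ∈ (closure F).comap π, x * x = 1 := by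
  have hc := c.span_comm K
  rw [c.span_eq_closure K] at hc ⊢
  intro x hx
  induction hx using Subgroup.closure_induction with
  | mem w hw =>
    rcases hw with rfl | ⟨f, hf, rfl⟩
    exacts [c.z2, c.lift_sq (K.sub hf)]
  | one => exact one_mul 1
  | mul p q hp hq ihp ihq => rw [Commute.mul_mul_mul_comm (hc q hq p hp), ihp, ihq, one_mul]
  | inv p _ ihp => rw [← mul_inv_rev, ihp, inv_one]

theorem Cls.card_span_cover (c : Cls π z E L) (K : MaxComm E F) : Nat.card ↥((closure F).comap π) = 2 ^ 11 := by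
  rw [c.toCov.card_comap, card_span c.hyp K]
  norm_num

/-- An elementary abelian subgroup of a Sylow 2-subgroup. -/
def IsBig (B : Subgroup C) : Prop :=
  (∀ x ∈ B, ∀ y ∈ B, x * y = y * x) ∧ (∀ x ∈ B, x * x = 1) ∧ 2 ^ 11 ≤ Nat.card B

theorem Cls.exists_thompson (c : Cls π z E L) (S : Sylow 2 C) :
    ∃ F, MaxComm E F ∧ Cfsg.thompsonSubgroupOf 2 (S : Subgroup C) = (closure F).comap π ∧
      ∀ B : Subgroup C, IsBig B → ∃ g : C, ∀ x, x ∈ B ↔ g * x * g⁻¹ ∈ (closure F).comap π := by
  classical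
  haveI : Fact (Nat.Prime 2) := ⟨Nat.prime_two⟩
  have M := c.hyp
  set T := S.mapSurjective c.surj with hTdef
  obtain ⟨F, K, hfix⟩ := exists_fixed_frame M T
  have hT : (T : Subgroup Q) = (S : Subgroup C).map π := rfl
  set A₀ := (closure F).comap π with hA₀
  -- the group of the frame lies in the Sylow subgroup
  have hV : IsPGroup 2 ↥(closure F) := IsPGroup.of_card (n := 10) (by rw [card_span M K]; norm_num)
  have hnorm : (T : Subgroup Q) ≤ normalizer (closure F : Set Q) := by
    have key : ∀ t ∈ (T : Subgroup Q), ∀ v ∈ closure F, t * v * t⁻¹ ∈ closure F := by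
      intro t ht v hv
      induction hv using Subgroup.closure_induction with
      | mem y hy => exact subset_closure (hfix t ht y hy)
      | one => simp
      | mul p q _ _ ihp ihq =>
        rw [show t * (p * q) * t⁻¹ = t * p * t⁻¹ * (t * q * t⁻¹) by group]; exact mul_mem ihp ihq
      | inv p _ ihp => rw [show t * p⁻¹ * t⁻¹ = (t * p * t⁻¹)⁻¹ by group]; exact inv_mem ihp
    exact fun t ht => mem_normalizer_iff.2 fun v => ⟨key t ht v, fun h => by
      simpa [mul_assoc] using key t⁻¹ (inv_mem ht) _ h⟩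
  have hVT : closure F ≤ (T : Subgroup Q) := by
    have h : closure F ⊔ (T : Subgroup Q) = T :=
      T.is_maximal' (IsPGroup.to_sup_of_normal_left' hV T.isPGroup' hnorm) le_sup_right
    exact h ▸ le_sup_left
  have hker : IsPGroup 2 ↥π.ker := fun x => ⟨1, Subtype.ext (by
    show (x : C) ^ (2 ^ 1) = 1
    rcases c.ker x x.2 with e | e <;> rw [e, pow_one, pow_two]
    exacts [one_mul 1, c.z2])⟩
  have hS : (T : Subgroup Q).comap π = (S : Subgroup C) :=
    S.is_maximal' (T.isPGroup'.comap_of_ker_isPGroup π hker) (hT ▸ le_comap_map π _)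
  have hAS : A₀ ≤ (S : Subgroup C) := hS ▸ comap_mono hVT
  -- uniqueness
  have huniq : ∀ B : Subgroup C, B ≤ (S : Subgroup C) → IsBig B → B = A₀ := by
    intro B hBS ⟨hBc, hB2, hBn⟩
    have hB : B.map π = closure F := by
      refine elementary_le M K ?_ ?_ ?_ ?_
      · rintro _ ⟨a, ha, rfl⟩ _ ⟨b, hb, rfl⟩; rw [← map_mul, hBc a ha b hb, map_mul]
      · rintro _ ⟨a, ha, rfl⟩; rw [← map_mul, hB2 a ha, map_one]
      · rintro _ ⟨a, ha, rfl⟩ u hu
        exact hfix _ (hT ▸ mem_map_of_mem π (hBS ha)) u hu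
      · rw [card_span M K]
        have h := Subgroup.card_le_of_le (show B ≤ (B.map π).comap π from le_comap_map π B)
        rw [c.toCov.card_comap] at h
        omega
    exact eq_of_le_of_card_ge (hA₀ ▸ hB ▸ le_comap_map π B) (hA₀ ▸ c.card_span_cover K ▸ hBn)
  have hA₀big : IsBig A₀ := ⟨c.span_comm K, c.span_sq K, (c.card_span_cover K).ge⟩
  refine ⟨F, K, ?_, fun B hB => ?_⟩
  · -- the Thompson subgroup
    set S' := (S : Subgroup C)
    have hmap : (A₀.subgroupOf S').map S'.subtype = A₀ := by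
      rw [subgroupOf_map_subtype, inf_eq_left.2 hAS]
    have hAe : IsElementaryAbelian 2 (A₀.subgroupOf S') :=
      ⟨⟨⟨fun a b => Subtype.ext (Subtype.ext (c.span_comm K _ a.2 _ b.2))⟩⟩,
        fun a ha => Subtype.ext (by rw [pow_two]; exact c.span_sq K _ ha)⟩
    have hAc : Nat.card ↥(A₀.subgroupOf S') = 2 ^ 11 := by
      rw [Nat.card_congr (subgroupOfEquivOfLe hAS).toEquiv, c.card_span_cover K]
    have hbig : ∀ B : Subgroup ↥S', IsElementaryAbelian 2 B → 2 ^ 11 ≤ Nat.card B → B = A₀.subgroupOf S' := by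
      intro B ⟨hBc, hB2⟩ hn
      have := huniq (B.map S'.subtype) (map_subtype_le B) ⟨?_, ?_, by rwa [card_subtype]⟩
      · rw [← this, subgroupOf, comap_map_eq_self_of_injective S'.subtype_injective]
      · rintro _ ⟨a, ha, rfl⟩ _ ⟨b, hb, rfl⟩
        have := congrArg Subtype.val (hBc.is_comm.comm ⟨a, ha⟩ ⟨b, hb⟩)
        exact congrArg S'.subtype this
      · rintro _ ⟨a, ha, rfl⟩
        rw [← map_mul, ← pow_two, hB2 a ha, map_one]
    have hmem : A₀.subgroupOf S' ∈ Cfsg.maxElementaryAbelianSubgroups 2 ↥S' := by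
      refine ⟨hAe, fun B hB => ?_⟩
      by_contra h
      rw [hbig B hB (hAc ▸ (not_le.1 h).le)] at h
      exact h le_rfl
    show (Cfsg.thompsonSubgroup 2 ↥S').map S'.subtype = A₀
    rw [Cfsg.thompsonSubgroup, show Cfsg.maxElementaryAbelianSubgroups 2 ↥S' = {A₀.subgroupOf S'} from
      Set.eq_singleton_iff_unique_mem.2 ⟨hmem, fun B hB => hbig B hB.1 (hAc ▸ hB.2 _ hAe)⟩, sSup_singleton, hmap]
  · obtain ⟨S₁, hS₁⟩ := IsPGroup.exists_le_sylow (p := 2) (P := B) fun x => ⟨1, Subtype.ext (by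
      show (x : C) ^ (2 ^ 1) = 1
      rw [pow_one, pow_two]; exact hB.2.1 x x.2)⟩
    obtain ⟨g, hg⟩ := MulAction.exists_smul_eq C S₁ S
    have hBS : B.map (MulAut.conj g).toMonoidHom ≤ (S : Subgroup C) := by
      rw [← hg]
      rintro _ ⟨x, hx, rfl⟩
      exact mem_map_of_mem _ (hS₁ hx)
    have h := huniq _ hBS ⟨?_, ?_, ?_⟩
    · refine ⟨g, fun x => ⟨fun hx => ?_, fun hx => ?_⟩⟩
      · show g * x * g⁻¹ ∈ A₀
        rw [← h]; exact ⟨x, hx, rfl⟩
      change g * x * g⁻¹ ∈ A₀ at hx
      rw [← h] at hx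
      obtain ⟨y, hy, e⟩ := hx
      exact (MulAut.conj g).injective e ▸ hy
    · rintro _ ⟨a, ha, rfl⟩ _ ⟨b, hb, rfl⟩; rw [← map_mul, hB.1 a ha b hb, map_mul]
    · rintro _ ⟨a, ha, rfl⟩; rw [← map_mul, hB.2.1 a ha, map_one]
    · rw [card_map_of_injective (MulAut.conj g).injective]; exact hB.2.2

/-- A prime dividing the automorphism group of a 2-group divides some `2^n - 2^j`. -/
theorem prime_dvd_aut {A : Type*} [Group A] [Finite A] {n : ℕ} (hA : Nat.card A = 2 ^ n) {p : ℕ} (hp : p.Prime)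
    (h : p ∣ Nat.card (MulAut A)) : ∃ j < n, p ∣ 2 ^ n - 2 ^ j := by
  classical
  haveI : Fact p.Prime := ⟨hp⟩
  obtain ⟨σ, hσ⟩ := exists_prime_orderOf_dvd_card' p h
  set Γ := zpowers σ
  have hΓ : IsPGroup p ↥Γ := IsPGroup.of_card (n := 1) (by rw [Nat.card_zpowers, hσ, pow_one])
  let Fix : Subgroup A :=
    { carrier := {a | σ a = a}
      one_mem' := map_one σ
      mul_mem' := fun {a b} ha hb => by
        show σ (a * b) = a * b
        rw [map_mul, show σ a = a from ha, show σ b = b from hb]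
      inv_mem' := fun {a} ha => by show σ a⁻¹ = a⁻¹; rw [map_inv, show σ a = a from ha] }
  obtain ⟨j, hjn, hj⟩ := (Nat.dvd_prime_pow Nat.prime_two).1 (hA ▸ Fix.card_subgroup_dvd_card)
  refine ⟨j, lt_of_le_of_ne hjn fun e => ?_, ?_⟩
  · have htop : Fix = ⊤ := eq_top_of_card_eq Fix (by rw [hj, e, hA])
    have : σ = 1 := MulEquiv.ext fun a => (htop ▸ mem_top a : a ∈ Fix)
    rw [this, orderOf_one] at hσ
    exact hp.ne_one hσ.symm
  have hfix : MulAction.fixedPoints ↥Γ A = (Fix : Set A) := by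
    ext a
    rw [MulAction.mem_fixedPoints]
    constructor
    · exact fun h => h ⟨σ, mem_zpowers σ⟩
    · intro ha g
      have hle : Γ ≤ MulAction.stabilizer (MulAut A) a := zpowers_le.2 ha
      exact hle g.2
  have hm := hΓ.card_modEq_card_fixedPoints A
  rw [hfix, hA, show Nat.card ↥(Fix : Set A) = 2 ^ j from hj] at hm
  exact (Nat.modEq_iff_dvd' (Nat.pow_le_pow_right two_pos hjn)).1 hm.symm

end Cfsg.Agent.Lib.Involution.FischerCover
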