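import Cfsg.Agent.Lib.Involution.FischerFrameProducts

/-! Type M(22): the number of frames is odd, so a Sylow 2-subgroup fixes one. -/

set_option autoImplicit false

namespace Cfsg.Agent.Lib.Involution.FischerTwentyTwo

open Cfsg Cfsg.Agent.Lib.ThreeTransp

universe u

variable {G : Type u} [Group G] [Finite G] {D : Set G}

theorem ncard_sigma_const {α β : Type*} [Finite α] [Finite β] (A : Set α) (f : α → Set β) {k : ℕ}
    (h : ∀ a ∈ A, (f a).ncard = k) : {p : α × β | p.1 ∈ A ∧ p.2 ∈ f p.1}.ncard = A.ncard * k := by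
  have := double_count {p : α × β | p.1 ∈ A ∧ p.2 ∈ f p.1} A (fun p a => p.1 = a) (p := 1) (q := k)
    (fun p hp => ?_) fun a ha => ?_
  · simpa using this
  · rw [show {a | a ∈ A ∧ p.1 = a} = {p.1} from Set.ext fun a =>
      ⟨fun h => h.2.symm, fun h => by rw [h]; exact ⟨hp.1, rfl⟩⟩, Set.ncard_singleton]
  · rw [← h a ha, show {p | p ∈ {p : α × β | p.1 ∈ A ∧ p.2 ∈ f p.1} ∧ p.1 = a} = (fun b => (a, b)) '' f a from ?_,
      Set.ncard_image_of_injective _ fun b b' e => by simpa using e]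
    ext ⟨x, b⟩
    constructor
    · rintro ⟨⟨-, h2⟩, rfl⟩; exact ⟨b, h2, rfl⟩
    · rintro ⟨b', hb', e⟩
      simp only [Prod.mk.injEq] at e
      obtain ⟨rfl, rfl⟩ := e
      exact ⟨⟨ha, hb'⟩, rfl⟩

/-- Four pairwise commuting members not in a block. -/
def quads (D : Set G) : Set (((G × G) × G) × G) :=
  {q | q.1 ∈ {r | r.1 ∈ {p | p.1 ∈ D ∧ p.2 ∈ Nb D p.1} ∧ r.2 ∈ Nb D r.1.1 ∩ Nb D r.1.2} ∧
    q.2 ∈ (Nb D q.1.1.1 ∩ Nb D q.1.1.2 ∩ Nb D q.1.2) \ Bl D q.1.1.1 q.1.1.2 q.1.2}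

variable (M : Hyp D)
include M

theorem exists_frame_three {d a b : G} (hd : d ∈ D) (ha : a ∈ Nb D d) (hb : b ∈ Nb D d ∩ Nb D a) :
    ∃ F, MaxComm D F ∧ d ∈ F ∧ a ∈ F ∧ b ∈ F := by
  obtain ⟨F, K, hsub⟩ := exists_maxComm (D := D) (E := {d, a, b})
    (by rintro w (rfl | rfl | rfl); exacts [hd, ha.1, hb.1.1])
    (by
      rintro w (rfl | rfl | rfl) v (rfl | rfl | rfl)
      exacts [Commute.refl _, ha.2.2, hb.1.2.2, ha.2.2.symm, Commute.refl _, hb.2.2.2, hb.1.2.2.symm,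
        hb.2.2.2.symm, Commute.refl _])
  exact ⟨F, K, hsub (by simp), hsub (by simp), hsub (by simp)⟩

theorem card_quads : (quads D).ncard = 3510 * 693 * 180 * 48 := by
  classical
  obtain ⟨-, ⟨d₀, hd₀, -⟩, -⟩ := M.prim
  rw [quads, ncard_sigma_const {r : (G × G) × G | r.1 ∈ {p : G × G | p.1 ∈ D ∧ p.2 ∈ Nb D p.1} ∧
      r.2 ∈ Nb D r.1.1 ∩ Nb D r.1.2}
      (fun r => (Nb D r.1.1 ∩ Nb D r.1.2 ∩ Nb D r.2) \ Bl D r.1.1 r.1.2 r.2) (k := 48) ?_,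
    ncard_sigma_const {p : G × G | p.1 ∈ D ∧ p.2 ∈ Nb D p.1} (fun p => Nb D p.1 ∩ Nb D p.2) (k := 180) ?_,
    ncard_sigma_const D (fun a => Nb D a) (k := 693) (fun a ha => card_nb M ha), card_members M hd₀]
  · exact fun p hp => card_nb_two M hp.1 hp.2
  · rintro ⟨⟨d, a⟩, b⟩ ⟨⟨hd, ha⟩, hb⟩
    simp only at hd ha hb ⊢
    obtain ⟨F, K, hdF, haF, hbF⟩ := exists_frame_three M hd ha hb
    have hab : a ≠ b := hb.2.2.1.symm
    obtain ⟨m1, m2, m3⟩ := bl_mem M K hdF haF hbF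
    have hsub : Bl D d a b \ {d, a, b} ⊆ Nb D d ∩ Nb D a ∩ Nb D b := by
      rintro w ⟨hw, hn⟩
      simp only [Set.mem_insert_iff, Set.mem_singleton_iff, not_or] at hn
      have hwF := bl_subset M K hdF haF hbF ha.2.1 hb.1.2.1 hw
      exact ⟨⟨K.nb hdF hwF hn.1, K.nb haF hwF hn.2.1⟩, K.nb hbF hwF hn.2.2⟩
    rw [show (Nb D d ∩ Nb D a ∩ Nb D b) \ Bl D d a b = (Nb D d ∩ Nb D a ∩ Nb D b) \ (Bl D d a b \ {d, a, b}) from
      Set.ext fun w => ⟨fun h => ⟨h.1, fun h' => h.2 h'.1⟩, fun h => ⟨h.1, fun h' => h.2 ⟨h', by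
        rintro (e | e | e)
        exacts [h.1.1.1.2.1 e, h.1.1.2.2.1 e, h.1.2.2.1 e]⟩⟩⟩,
      Set.ncard_sdiff hsub, card_nb_comm M hd ha hb.1 hab hb.2.2.2,
      Set.ncard_sdiff (Set.insert_subset m1 (Set.insert_subset m2 (Set.singleton_subset_iff.2 m3))),
      card_bl M K hdF haF hbF ha.2.1 hb.1.2.1 hab,
      Set.ncard_eq_three.2 ⟨d, a, b, ha.2.1.symm, hb.1.2.1.symm, hab, rfl⟩]

theorem frame_eq {F F' : Set G} (K : MaxComm D F) (K' : MaxComm D F') {d a b c : G} (hd : d ∈ F) (ha : a ∈ F)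
    (hb : b ∈ F) (hc : c ∈ F) (hd' : d ∈ F') (ha' : a ∈ F') (hb' : b ∈ F') (hc' : c ∈ F') (had : a ≠ d)
    (hbd : b ≠ d) (hab : a ≠ b) (hcB : c ∉ Bl D d a b) : F' ⊆ F := by
  intro y hy
  rcases eq_or_ne y d with e | hyd
  · rw [e]; exact hd
  set L := M.lk (K.sub hd)
  obtain ⟨m1, -, -⟩ := bl_mem M K hd ha hb
  have hcd : c ≠ d := fun e => hcB (e ▸ m1)
  set W := Submodule.span L.F {L.pt a, L.pt b}
  have hW : W ≤ frameSpan L F := Submodule.span_le.2 (by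
    rintro v (rfl | rfl)
    exacts [pt_mem_frameSpan M K L ha had, pt_mem_frameSpan M K L hb hbd])
  have hcW : L.pt c ∉ W := fun h => hcB ((mem_bl_iff M K hd ha hb had hbd L).2 (Or.inr ⟨hc, hcd, h⟩))
  have hlt : W < W ⊔ Submodule.span L.F {L.pt c} := lt_of_le_not_ge le_sup_left fun hle =>
    hcW (hle (Submodule.mem_sup_right (Submodule.mem_span_singleton_self _)))
  have h3 := Submodule.finrank_lt_finrank_of_lt hlt
  have h2 : Module.finrank L.F W = 2 := finrank_pair M K hd L ha hb had hbd hab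
  have hU := finrank_frameSpan M K hd L
  have heq := Submodule.eq_of_le_of_finrank_le (sup_le hW
    ((Submodule.span_singleton_le_iff_mem _ _).2 (pt_mem_frameSpan M K L hc hcd))) (by omega)
  have hyN := K'.nb hd' hy hyd
  have horth : ∀ z ∈ ({a, b, c} : Set G), z ∈ F → z ≠ d → z ∈ F' →
      Cfsg.Agent.Lib.AutPSU.hm 2 (L.pt y) (L.pt z) = 0 := fun z _ hz hzd hz' =>
    (L.orth hyN (K.nb hd hz hzd)).2 (K'.comm y hy z hz')
  refine mem_of_orth M K hd L hyN fun v hv => ?_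
  rw [← heq] at hv
  obtain ⟨p, hp, q, hq, rfl⟩ := Submodule.mem_sup.1 hv
  obtain ⟨s, rfl⟩ := Submodule.mem_span_singleton.1 hq
  obtain ⟨α, β, rfl⟩ := Submodule.mem_span_pair.1 hp
  have hF := Cfsg.Agent.Lib.Involution.UnitaryTransp.card2 L.card_F
  simp [Cfsg.Agent.Lib.AutPSU.hm_add_right hF, Cfsg.Agent.Lib.AutPSU.hm_smul_right,
    horth a (by simp) ha had ha', horth b (by simp) hb hbd hb', horth c (by simp) hc hcd hc']

theorem frames_odd : ¬ 2 ∣ Nat.card {F : Set G // MaxComm D F} := by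
  classical
  set 𝔉 := {F : Set G | MaxComm D F}
  have h := double_count (quads D) 𝔉
    (fun q F => q.1.1.1 ∈ F ∧ q.1.1.2 ∈ F ∧ q.1.2 ∈ F ∧ q.2 ∈ F) (p := 1) (q := 22 * 21 * 20 * 16) ?_ ?_
  · rw [card_quads M] at h
    change ¬ 2 ∣ Nat.card ↥𝔉
    rw [Nat.card_coe_set_eq]
    omega
  · rintro ⟨⟨⟨d, a⟩, b⟩, c⟩ ⟨⟨⟨hd, ha⟩, hb⟩, hc, hcB⟩
    simp only at hd ha hb hc hcB ⊢
    obtain ⟨F, K, hsub⟩ := exists_maxComm (D := D) (E := {d, a, b, c})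
      (by rintro w (rfl | rfl | rfl | rfl); exacts [hd, ha.1, hb.1.1, hc.1.1.1])
      (by
        rintro w (rfl | rfl | rfl | rfl) v (rfl | rfl | rfl | rfl)
        exacts [Commute.refl _, ha.2.2, hb.1.2.2, hc.1.1.2.2, ha.2.2.symm, Commute.refl _, hb.2.2.2, hc.1.2.2.2,
          hb.1.2.2.symm, hb.2.2.2.symm, Commute.refl _, hc.2.2.2, hc.1.1.2.2.symm, hc.1.2.2.2.symm, hc.2.2.2.symm,
          Commute.refl _])
    have hdF : d ∈ F := hsub (by simp)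
    have haF : a ∈ F := hsub (by simp)
    have hbF : b ∈ F := hsub (by simp)
    have hcF : c ∈ F := hsub (by simp)
    refine Set.ncard_eq_one.2 ⟨F, Set.ext fun F' => ⟨?_, ?_⟩⟩
    · rintro ⟨K', h1, h2, h3, h4⟩
      exact Set.Subset.antisymm
        (frame_eq M K K' hdF haF hbF hcF h1 h2 h3 h4 ha.2.1 hb.1.2.1 hb.2.2.1.symm hcB)
        (frame_eq M K' K h1 h2 h3 h4 hdF haF hbF hcF ha.2.1 hb.1.2.1 hb.2.2.1.symm hcB)
    · rintro rfl
      exact ⟨K, hdF, haF, hbF, hcF⟩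
  · intro F hF
    have K : MaxComm D F := hF
    obtain ⟨-, ⟨x0, hx0, -⟩, -⟩ := M.prim
    have hne : F.Nonempty := by
      by_contra h
      rw [Set.not_nonempty_iff_eq_empty] at h
      exact Set.eq_empty_iff_forall_notMem.1 h x0 (K.max x0 hx0 (by simp [h]))
    obtain ⟨f0, hf0⟩ := hne
    have h22 := card_maxComm M K hf0
    set P := {p : G × G | p.1 ∈ F ∧ p.2 ∈ F \ {p.1}}
    set R := {r : (G × G) × G | r.1 ∈ P ∧ r.2 ∈ F \ {r.1.1, r.1.2}}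
    rw [show {q | q ∈ quads D ∧ q.1.1.1 ∈ F ∧ q.1.1.2 ∈ F ∧ q.1.2 ∈ F ∧ q.2 ∈ F} =
      {q : ((G × G) × G) × G | q.1 ∈ R ∧ q.2 ∈ F \ Bl D q.1.1.1 q.1.1.2 q.1.2} from ?_]
    · rw [ncard_sigma_const R (fun r => F \ Bl D r.1.1 r.1.2 r.2) (k := 16) ?_,
        ncard_sigma_const P (fun p => F \ {p.1, p.2}) (k := 20) ?_,
        ncard_sigma_const F (fun p => F \ {p}) (k := 21) ?_, h22]
      · intro p hp
        rw [Set.ncard_sdiff_singleton_of_mem hp, h22]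
      · rintro ⟨d, a⟩ ⟨hd, ha, hne⟩
        rw [Set.ncard_sdiff (Set.insert_subset hd (Set.singleton_subset_iff.2 ha)), h22,
          Set.ncard_pair (fun e => hne e.symm)]
      · rintro ⟨⟨d, a⟩, b⟩ ⟨⟨hd, ha, hne⟩, hb, hn⟩
        simp only [Set.mem_insert_iff, Set.mem_singleton_iff, not_or] at hd ha hne hb hn ⊢
        rw [Set.ncard_sdiff (bl_subset M K hd ha hb hne hn.1), h22,
          card_bl M K hd ha hb hne hn.1 (Ne.symm hn.2)]
    · ext ⟨⟨⟨d, a⟩, b⟩, c⟩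
      constructor
      · rintro ⟨⟨⟨⟨hd, ha⟩, hb⟩, hc, hcB⟩, h1, h2, h3, h4⟩
        exact ⟨⟨⟨h1, h2, ha.2.1⟩, h3, by rintro (e | e); exacts [hb.1.2.1 e, hb.2.2.1 e]⟩, h4, hcB⟩
      · rintro ⟨⟨⟨h1, h2, hne⟩, h3, hn⟩, h4, hcB⟩
        have hbd : b ≠ d := fun e => hn (Or.inl e)
        have hba : b ≠ a := fun e => hn (Or.inr e)
        obtain ⟨m1, m2, m3⟩ := bl_mem M K h1 h2 h3
        exact ⟨⟨⟨⟨K.sub h1, K.nb h1 h2 hne⟩, K.nb h1 h3 hbd, K.nb h2 h3 hba⟩,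
          ⟨⟨K.nb h1 h4 (fun e => hcB (e ▸ m1)), K.nb h2 h4 (fun e => hcB (e ▸ m2))⟩,
            K.nb h3 h4 (fun e => hcB (e ▸ m3))⟩, hcB⟩, h1, h2, h3, h4⟩

theorem maxComm_conj {F : Set G} (K : MaxComm D F) (g : G) : MaxComm D ((fun x => g * x * g⁻¹) '' F) := by
  refine ⟨?_, ?_, fun y hy h => ?_⟩
  · rintro _ ⟨x, hx, rfl⟩; exact M.cl g x (K.sub hx)
  · rintro _ ⟨x, hx, rfl⟩ _ ⟨y, hy, rfl⟩; exact (commute_conj_iff g x y).2 (K.comm x hx y hy)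
  · refine ⟨g⁻¹ * y * g, K.max _ (by simpa using M.cl g⁻¹ y hy) fun a ha => ?_, by group⟩
    rw [← commute_conj_iff g, show g * (g⁻¹ * y * g) * g⁻¹ = y by group]
    exact h _ ⟨a, ha, rfl⟩

theorem exists_fixed_frame (T : Sylow 2 G) :
    ∃ F, MaxComm D F ∧ ∀ g ∈ (T : Subgroup G), ∀ x ∈ F, g * x * g⁻¹ ∈ F := by
  haveI : Fact (Nat.Prime 2) := ⟨Nat.prime_two⟩
  letI : MulAction ↥(T : Subgroup G) {F : Set G // MaxComm D F} :=
    { smul := fun g F => ⟨(fun x => (g : G) * x * (g : G)⁻¹) '' F.1, maxComm_conj M F.2 g⟩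
      one_smul := fun F => Subtype.ext (by
        show (fun x => ((1 : ↥(T : Subgroup G)) : G) * x * ((1 : ↥(T : Subgroup G)) : G)⁻¹) '' F.1 = F.1
        simp)
      mul_smul := fun g h F => Subtype.ext (by
        show (fun x => ((g * h : ↥(T : Subgroup G)) : G) * x * ((g * h : ↥(T : Subgroup G)) : G)⁻¹) '' F.1 =
          (fun x => (g : G) * x * (g : G)⁻¹) '' ((fun x => (h : G) * x * (h : G)⁻¹) '' F.1)
        rw [Set.image_image]
        refine Set.image_congr fun x _ => ?_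
        simp [mul_assoc]) }
  obtain ⟨F, hF⟩ := T.isPGroup'.nonempty_fixed_point_of_prime_not_dvd_card _ (frames_odd M)
  exact ⟨F.1, F.2, fun g hg x hx => (congrArg Subtype.val (hF ⟨g, hg⟩)) ▸ Set.mem_image_of_mem _ hx⟩

end Cfsg.Agent.Lib.Involution.FischerTwentyTwo
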