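import Cfsg.Agent.Lib.Involution.FischerFrameProducts

/-! Type M(22): an involution acting on a frame fixes at most eight of its members, unless it fixes all. -/

set_option autoImplicit false

namespace Cfsg.Agent.Lib.Involution.FischerTwentyTwo

open Cfsg Cfsg.Agent.Lib.ThreeTransp

universe u

variable {G : Type u} [Group G] [Finite G] {D : Set G} (M : Hyp D) {F : Set G} (K : MaxComm D F)
include M K

/-- Through a point off a block and a point of the block, every other point lies on a secant. -/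
theorem exists_secant {a b c x y h : G} (ha : a ∈ F) (hb : b ∈ F) (hc : c ∈ F) (hba : b ≠ a) (hca : c ≠ a)
    (hbc : b ≠ c) (hx : x ∈ F) (hxH : x ∉ Bl D a b c) (hy : y ∈ F) (hyx : y ≠ x) (hh : h ∈ Bl D a b c) (hyh : y ≠ h) :
    ∃ h' ∈ Bl D a b c, h' ≠ h ∧ y ∈ Bl D x h h' := by
  classical
  set H := Bl D a b c with hH
  have hsub : H ⊆ F := bl_subset M K ha hb hc hba hca
  have hxh : h ≠ x := fun e => hxH (e ▸ hh)
  set Y := F \ {x, h}
  set 𝓛 := (fun z => Bl D x h z) '' Y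
  have hY : Y.ncard = 20 := by
    rw [Set.ncard_sdiff (by rintro r (rfl | rfl); exacts [hx, hsub hh]), Set.ncard_pair hxh.symm,
      card_maxComm M K hx]
  have hmem : ∀ {z}, z ∈ Y → z ∈ F ∧ z ≠ x ∧ z ≠ h := fun {z} hz =>
    ⟨hz.1, fun e => hz.2 (Or.inl e), fun e => hz.2 (Or.inr e)⟩
  have h20 : Y.ncard * 1 = 𝓛.ncard * 4 := by
    refine double_count Y 𝓛 (fun z B => Bl D x h z = B) (fun z hz => ?_) ?_
    · rw [show {B | B ∈ 𝓛 ∧ Bl D x h z = B} = {Bl D x h z} from Set.ext fun B =>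
        ⟨fun e => e.2.symm, fun e => by rw [e]; exact ⟨⟨z, hz, rfl⟩, rfl⟩⟩, Set.ncard_singleton]
    rintro _ ⟨z, hz, rfl⟩
    obtain ⟨hzF, hzx, hzh⟩ := hmem hz
    rw [show {w | w ∈ Y ∧ Bl D x h w = Bl D x h z} = Bl D x h z \ {x, h} from ?_,
      Set.ncard_sdiff (by
        rintro r (rfl | rfl)
        exacts [(bl_mem M K hx (hsub hh) hzF).1, (bl_mem M K hx (hsub hh) hzF).2.1]),
      Set.ncard_pair hxh.symm, card_bl M K hx (hsub hh) hzF hxh hzx hzh.symm]
    ext w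
    constructor
    · rintro ⟨hw, e⟩
      exact ⟨e ▸ (bl_mem M K hx (hsub hh) (hmem hw).1).2.2, hw.2⟩
    · rintro ⟨hw, hw'⟩
      exact ⟨⟨bl_subset M K hx (hsub hh) hzF hxh hzx hw, hw'⟩,
        bl_exchange M K hx (hsub hh) hzF hxh hzx hzh.symm hw (fun e => hw' (Or.inl e)) (fun e => hw' (Or.inr e))⟩
  have hHY : ∀ {z}, z ∈ H \ {h} → z ∈ Y := fun {z} hz =>
    ⟨hsub hz.1, by rintro (e | e); exacts [hxH (e ▸ hz.1), hz.2 e]⟩
  have hinj : Set.InjOn (fun z => Bl D x h z) (H \ {h}) := by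
    intro z hz z' hz' e
    by_contra hne
    obtain ⟨hzF, hzx, hzh⟩ := hmem (hHY hz)
    obtain ⟨hz'F, hz'x, hz'h⟩ := hmem (hHY hz')
    have h1 := bl_three M K hx (hsub hh) hzF hxh hzx hzh.symm (bl_mem M K hx (hsub hh) hzF).2.1
      (bl_mem M K hx (hsub hh) hzF).2.2 (show z' ∈ Bl D x h z from (show Bl D x h z = Bl D x h z' from e) ▸
        (bl_mem M K hx (hsub hh) hz'F).2.2) hzh.symm hz'h.symm hne
    have h2 := bl_three M K ha hb hc hba hca hbc hh hz.1 hz'.1 hzh.symm hz'h.symm hne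
    exact hxH (hH ▸ h2 ▸ h1.symm ▸ (bl_mem M K hx (hsub hh) hzF).1)
  have himg : (fun z => Bl D x h z) '' (H \ {h}) = 𝓛 := by
    refine Set.eq_of_subset_of_ncard_le ?_ ?_ (Set.toFinite _)
    · rintro _ ⟨z, hz, rfl⟩
      exact ⟨z, hHY hz, rfl⟩
    · rw [hinj.ncard_image, Set.ncard_sdiff_singleton_of_mem hh, hH, card_bl M K ha hb hc hba hca hbc]
      omega
  have hyY : y ∈ Y := ⟨hy, by rintro (e | e); exacts [hyx e, hyh e]⟩
  obtain ⟨h', hh', e⟩ : Bl D x h y ∈ (fun z => Bl D x h z) '' (H \ {h}) := himg.symm ▸ ⟨y, hyY, rfl⟩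
  exact ⟨h', hh'.1, hh'.2, (show Bl D x h h' = Bl D x h y from e).symm ▸ (bl_mem M K hx (hsub hh) hy).2.2⟩

variable {e : G}

/-- A conjugation fixing a block and one more point fixes the whole frame. -/
theorem fix_all (hE : ∀ u ∈ F, e * u * e⁻¹ ∈ F) {a b c x : G} (ha : a ∈ F) (hb : b ∈ F) (hc : c ∈ F) (hba : b ≠ a)
    (hca : c ≠ a) (hbc : b ≠ c) (hfixH : ∀ w ∈ Bl D a b c, e * w * e⁻¹ = w) (hx : x ∈ F) (hxH : x ∉ Bl D a b c)
    (hfx : e * x * e⁻¹ = x) : ∀ y ∈ F, e * y * e⁻¹ = y := by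
  classical
  set H := Bl D a b c with hH
  have hsub : H ⊆ F := bl_subset M K ha hb hc hba hca
  intro y hy
  by_cases hyH : y ∈ H
  · exact hfixH y hyH
  rcases eq_or_ne y x with e' | hyx
  · rw [e']; exact hfx
  obtain ⟨m1, -, -⟩ := bl_mem M K ha hb hc
  obtain ⟨h1', hh1', hne1, hy1⟩ := exists_secant M K ha hb hc hba hca hbc hx hxH hy hyx m1 (fun e => hyH (e ▸ m1))
  obtain ⟨h2, hh2, hn2⟩ : ∃ h2 ∈ H, h2 ∉ ({a, h1'} : Set G) := by
    by_contra h
    push Not at h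
    have := Set.ncard_le_ncard (show H ⊆ {a, h1'} from h) (Set.toFinite _)
    rw [hH, card_bl M K ha hb hc hba hca hbc, Set.ncard_pair hne1.symm] at this
    omega
  simp only [Set.mem_insert_iff, Set.mem_singleton_iff, not_or] at hn2
  obtain ⟨h2', hh2', hne2, hy2⟩ := exists_secant M K ha hb hc hba hca hbc hx hxH hy hyx hh2 (fun e => hyH (e ▸ hh2))
  have hax : a ≠ x := fun e => hxH (e ▸ m1)
  have h1x : h1' ≠ x := fun e => hxH (e ▸ hh1')
  have h2x : h2 ≠ x := fun e => hxH (e ▸ hh2)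
  have h2x' : h2' ≠ x := fun e => hxH (e ▸ hh2')
  have hinv : ∀ {p q : G}, p ∈ H → q ∈ H → ∀ {z}, z ∈ Bl D x p q → e * z * e⁻¹ ∈ Bl D x p q := by
    intro p q hp hq z hz
    have := bl_conj M e hz
    rwa [hfx, hfixH p hp, hfixH q hq] at this
  by_contra hmove
  set y' := e * y * e⁻¹ with hy'
  have hy'x : y' ≠ x := fun h => hyx (by
    have : e * y * e⁻¹ = e * x * e⁻¹ := by rw [hfx]; exact h
    simpa using this)
  have B1 := bl_three M K hx (hsub m1) (hsub hh1') hax h1x hne1.symm (bl_mem M K hx (hsub m1) (hsub hh1')).1 hy1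
    (hinv m1 hh1' hy1) hyx.symm hy'x.symm (Ne.symm hmove)
  have B2 := bl_three M K hx (hsub hh2) (hsub hh2') h2x h2x' hne2.symm (bl_mem M K hx (hsub hh2) (hsub hh2')).1 hy2
    (hinv hh2 hh2' hy2) hyx.symm hy'x.symm (Ne.symm hmove)
  have hmem2 : h2 ∈ Bl D x a h1' := by rw [← B1, B2]; exact (bl_mem M K hx (hsub hh2) (hsub hh2')).2.1
  have h3 := bl_three M K hx (hsub m1) (hsub hh1') hax h1x hne1.symm (bl_mem M K hx (hsub m1) (hsub hh1')).2.1
    (bl_mem M K hx (hsub m1) (hsub hh1')).2.2 hmem2 hne1.symm (Ne.symm hn2.1) (Ne.symm hn2.2)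
  have h4 := bl_three M K ha hb hc hba hca hbc m1 hh1' hh2 hne1.symm (Ne.symm hn2.1) (Ne.symm hn2.2)
  exact hxH (hH ▸ h4 ▸ h3.symm ▸ (bl_mem M K hx (hsub m1) (hsub hh1')).1)

theorem fixed_le_eight (hee : e * e = 1) (hE : ∀ u ∈ F, e * u * e⁻¹ ∈ F) (hne : ∃ u ∈ F, e * u * e⁻¹ ≠ u) :
    {u | u ∈ F ∧ e * u * e⁻¹ = u}.ncard ≤ 8 := by
  classical
  haveI := Fintype.ofFinite G
  obtain ⟨u0, hu0, hu0'⟩ := hne
  have hee' : ∀ u : G, e * (e * u * e⁻¹) * e⁻¹ = u := fun u => by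
    rw [inv_eq_of_mul_eq_one_right hee, ← mul_assoc, ← mul_assoc, hee, one_mul, mul_assoc, hee, mul_one]
  set Fx := {u | u ∈ F ∧ e * u * e⁻¹ = u} with hFx
  set Fm := {u | u ∈ F ∧ e * u * e⁻¹ ≠ u} with hFm
  by_contra h9
  push Not at h9
  have hsum : Fx.ncard + Fm.ncard = 22 := by
    rw [← card_maxComm M K hu0, ← Set.ncard_union_eq (Set.disjoint_left.2 fun u h h' => h'.2 h.2)]
    congr 1
    ext u
    exact ⟨fun h => h.elim (·.1) (·.1), fun h => (em _).imp (⟨h, ·⟩) (⟨h, ·⟩)⟩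
  set T : Finset (G × G × G) := Finset.univ.filter fun t =>
    t.1 ∈ Fx ∧ t.2.1 ∈ Fx ∧ t.2.2 ∈ Fx ∧ t.1 ≠ t.2.1 ∧ t.1 ≠ t.2.2 ∧ t.2.1 ≠ t.2.2 with hT
  set S : Finset ((G × G × G) × G) := Finset.univ.filter fun s => s.1 ∈ T ∧ s.2 ∈ Fm ∧ s.2 ∈ Bl D s.1.1 s.1.2.1 s.1.2.2
    with hS
  set fx := Fx.toFinset with hfx
  set fm := Fm.toFinset with hfm
  have hfxc : fx.card = Fx.ncard := (Set.ncard_eq_toFinset_card' Fx).symm
  have hfmc : fm.card = Fm.ncard := (Set.ncard_eq_toFinset_card' Fm).symm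
  have htwo : ∀ t ∈ T, 2 ≤ (S.filter fun s => s.1 = t).card := by
    intro t ht
    simp only [hT, Finset.mem_filter, Finset.mem_univ, true_and] at ht
    obtain ⟨h1, h2, h3, n12, n13, n23⟩ := ht
    obtain ⟨u, hu, hum⟩ : ∃ u ∈ Bl D t.1 t.2.1 t.2.2, e * u * e⁻¹ ≠ u := by
      by_contra h
      push Not at h
      obtain ⟨x, hx, hxH⟩ : ∃ x ∈ Fx, x ∉ Bl D t.1 t.2.1 t.2.2 := by
        by_contra h'
        push Not at h'
        have := Set.ncard_le_ncard (show Fx ⊆ Bl D t.1 t.2.1 t.2.2 from h')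
        rw [card_bl M K h1.1 h2.1 h3.1 n12.symm n13.symm n23] at this
        omega
      exact hu0' (fix_all M K hE h1.1 h2.1 h3.1 n12.symm n13.symm n23 h hx.1 hxH hx.2 u0 hu0)
    have hu' : e * u * e⁻¹ ∈ Bl D t.1 t.2.1 t.2.2 := by
      have := bl_conj M e hu
      rwa [h1.2, h2.2, h3.2] at this
    have hmm : ∀ v ∈ Bl D t.1 t.2.1 t.2.2, e * v * e⁻¹ ≠ v → (t, v) ∈ S.filter fun s => s.1 = t := by
      intro v hv hvm
      simp only [hS, hT, Finset.mem_filter, Finset.mem_univ, true_and]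
      exact ⟨⟨⟨h1, h2, h3, n12, n13, n23⟩, ⟨bl_subset M K h1.1 h2.1 h3.1 n12.symm n13.symm hv, hvm⟩, hv⟩, trivial⟩
    refine le_trans ?_ (Finset.card_le_card (show ({(t, u), (t, e * u * e⁻¹)} : Finset _) ⊆ _ from ?_))
    · rw [Finset.card_pair (fun h => hum (congrArg Prod.snd h).symm)]
    · intro s hs
      simp only [Finset.mem_insert, Finset.mem_singleton] at hs
      rcases hs with rfl | rfl
      exacts [hmm u hu hum, hmm _ hu' (by rw [hee']; exact hum.symm)]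
  have hlow : T.card * 2 ≤ S.card := by
    calc T.card * 2 = ∑ _t ∈ T, 2 := by rw [Finset.sum_const, smul_eq_mul]
      _ ≤ ∑ t ∈ T, (S.filter fun s => s.1 = t).card := Finset.sum_le_sum htwo
      _ = S.card := (Finset.card_eq_sum_card_fiberwise fun s hs => by
          simp only [hS, Finset.coe_filter, Set.mem_setOf_eq, Finset.mem_univ, true_and] at hs; exact hs.1).symm
  have hup : S.card ≤ 6 * (fx ×ˢ fm).card := by
    refine Finset.card_le_mul_card_image_of_maps_to (f := fun s => (s.1.1, s.2)) (fun s hs => ?_) 6 fun pu hpu => ?_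
    · simp only [hS, hT, Finset.mem_filter, Finset.mem_univ, true_and] at hs
      simp only [Finset.mem_product, hfx, hfm, Set.mem_toFinset]
      exact ⟨hs.1.1, hs.2.1⟩
    obtain ⟨p, u⟩ := pu
    simp only [Finset.mem_product, hfx, hfm, Set.mem_toFinset] at hpu
    obtain ⟨hp, hu⟩ := hpu
    have hup' : u ≠ p := fun h => hu.2 (h ▸ hp.2)
    have heu' : e * u * e⁻¹ ≠ p := fun h => hu.2 (by
      have h' := congrArg (fun v => e * v * e⁻¹) h
      simp only [hee', hp.2] at h'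
      rw [← h'] at hup'
      exact absurd rfl hup')
    set W := Bl D p u (e * u * e⁻¹) \ {p, u, e * u * e⁻¹} with hW
    have hWc : W.toFinset.card = 3 := by
      rw [← Set.ncard_eq_toFinset_card', hW, Set.ncard_sdiff (Set.insert_subset (bl_mem M K hp.1 hu.1 (hE u hu.1)).1
        (Set.insert_subset (bl_mem M K hp.1 hu.1 (hE u hu.1)).2.1
          (Set.singleton_subset_iff.2 (bl_mem M K hp.1 hu.1 (hE u hu.1)).2.2))), card_bl M K hp.1 hu.1 (hE u hu.1) hup' heu' hu.2.symm,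
        Set.ncard_eq_three.2 ⟨p, u, e * u * e⁻¹, hup'.symm, heu'.symm, hu.2.symm, rfl⟩]
    refine (Finset.card_le_card_of_injOn (fun s => (s.1.2.1, s.1.2.2)) ?_ ?_).trans
      (Finset.offDiag_card W.toFinset ▸ (by rw [hWc]) : W.toFinset.offDiag.card ≤ 6)
    · intro s hs
      simp only [Finset.coe_filter, Set.mem_setOf_eq, hS, hT, Finset.mem_filter, Finset.mem_univ, true_and,
        Prod.mk.injEq] at hs
      obtain ⟨⟨⟨h1, h2, h3, n12, n13, n23⟩, hsm, hsb⟩, ep, eu⟩ := hs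
      simp only [Finset.coe_offDiag, Set.mem_offDiag, Set.coe_toFinset]
      subst ep eu
      have hinv : e * s.2 * e⁻¹ ∈ Bl D s.1.1 s.1.2.1 s.1.2.2 := by
        have := bl_conj M e hsb
        rwa [h1.2, h2.2, h3.2] at this
      have hB := bl_three M K h1.1 h2.1 h3.1 n12.symm n13.symm n23 (bl_mem M K h1.1 h2.1 h3.1).1 hsb hinv
        hup'.symm heu'.symm hu.2.symm
      rw [hW, hB]
      refine ⟨⟨(bl_mem M K h1.1 h2.1 h3.1).2.1, ?_⟩, ⟨(bl_mem M K h1.1 h2.1 h3.1).2.2, ?_⟩, n23⟩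
      · rintro (h | h | h)
        exacts [n12 h.symm, hsm.2 (h ▸ h2.2), hsm.2 (by
          have := h2.2; rw [h, hee'] at this; exact this.symm)]
      · rintro (h | h | h)
        exacts [n13 h.symm, hsm.2 (h ▸ h3.2), hsm.2 (by
          have := h3.2; rw [h, hee'] at this; exact this.symm)]
    · intro s hs s' hs' h
      simp only [Finset.coe_filter, Set.mem_setOf_eq, Prod.mk.injEq] at hs hs' h
      obtain ⟨⟨a1, a2, a3⟩, a4⟩ := s
      obtain ⟨⟨b1, b2, b3⟩, b4⟩ := s'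
      simp only at hs hs' h
      simp only [Prod.mk.injEq]
      exact ⟨⟨hs.2.1.trans hs'.2.1.symm, h.1, h.2⟩, hs.2.2.trans hs'.2.2.symm⟩
  set n := Fx.ncard with hn
  have hTc : fx.card * ((n - 1) * (n - 2)) ≤ T.card := by
    calc fx.card * ((n - 1) * (n - 2)) = ∑ _p ∈ fx, (n - 1) * (n - 2) := by rw [Finset.sum_const, smul_eq_mul]
      _ = ∑ p ∈ fx, (fx.erase p).offDiag.card := Finset.sum_congr rfl fun p hp => by
          rw [Finset.offDiag_card, Finset.card_erase_of_mem hp, hfxc, ← Nat.mul_sub_one, Nat.sub_sub]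
      _ = (fx.sigma fun p => (fx.erase p).offDiag).card := (Finset.card_sigma _ _).symm
      _ ≤ T.card := by
          refine Finset.card_le_card_of_injOn (fun s => (s.1, s.2.1, s.2.2)) ?_ ?_
          · rintro ⟨p, q, r⟩ hs
            simp only [Finset.coe_sigma, Set.mem_sigma_iff, Finset.coe_offDiag, Set.mem_offDiag, Finset.coe_erase,
              Set.mem_sdiff, Set.mem_singleton_iff, hfx, Set.coe_toFinset] at hs
            simp only [hT, Finset.coe_filter, Finset.mem_univ, true_and, Set.mem_setOf_eq]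
            obtain ⟨h1, ⟨h2, n2⟩, ⟨h3, n3⟩, n23⟩ := hs
            exact ⟨h1, h2, h3, Ne.symm n2, Ne.symm n3, n23⟩
          · rintro ⟨p, q, r⟩ _ ⟨p', q', r'⟩ _ h
            simp only [Prod.mk.injEq] at h
            obtain ⟨rfl, rfl, rfl⟩ := h
            rfl
  have hfinal := (Nat.mul_le_mul_right 2 hTc).trans (hlow.trans hup)
  rw [Finset.card_product, hfxc, hfmc, show Fm.ncard = 22 - n by omega] at hfinal
  have h22 : n ≤ 22 := by omega
  interval_cases n <;> simp at hfinal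

end Cfsg.Agent.Lib.Involution.FischerTwentyTwo
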