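import Cfsg.Agent.Lib.Involution.FischerLocal
import Cfsg.Agent.Lib.ThreeTransp.Same

/-! Fischer groups: perfect derived group and no solvable normal subgroup give primitivity. -/
set_option autoImplicit false

namespace Cfsg.Agent.Lib.Involution.FischerLocal

open Cfsg Cfsg.Agent.Lib.ThreeTransp
open scoped commutatorElement

variable {G : Type*} [Group G]

theorem fischer_reach [Finite G] (hsol : ∀ N : Subgroup G, N.Normal → Group.IsSolvable ↥N → N = ⊥)
    (hperf : ⁅commutator G, commutator G⁆ = commutator G) {D : Set G} (hD : Cfsg.IsThreeTranspositionClass D)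
    {x a b : G} (hx : x ∈ D) (ha : a ∈ D ∧ a ≠ x ∧ Commute x a) (hb : b ∈ D ∧ b ≠ x ∧ Commute x b) :
    Reach D x a b := by
  obtain ⟨hT, ⟨d₀, hd₀, hD₀⟩, hgen⟩ := hD
  have hc : ∀ g : G, ∀ x ∈ D, g * x * g⁻¹ ∈ D := fun g x hx => by
    rw [hD₀] at hx ⊢; exact IsConj.trans hx (isConj_iff.mpr ⟨g, rfl⟩)
  have hconj : ∀ a ∈ D, ∀ b ∈ D, ∃ g : G, g * a * g⁻¹ = b := fun a ha b hb => by
    rw [hD₀] at ha hb; exact isConj_iff.mp (ha.symm.trans hb)
  have hcore : ∀ p : ℕ, p.Prime → pCore p G = ⊥ := by
    intro p hp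
    haveI : Fact p.Prime := ⟨hp⟩
    have h := (Components.pCore_isPGroup (G := G) p).isNilpotent
    exact hsol _ (pCore_normal p G) inferInstance
  have hZ : Subgroup.center G = ⊥ := hsol _ inferInstance
    (Group.isSolvable_of_comm fun u v => Subtype.ext (Subgroup.mem_center_iff.1 v.2 u))
  have h2 : pCore 2 G ≤ Subgroup.center G := by rw [hcore 2 Nat.prime_two]; exact bot_le
  have h3 : pCore 3 G ≤ Subgroup.center G := by rw [hcore 3 Nat.prime_three]; exact bot_le
  obtain ⟨L, hQ⟩ := exists_qs hT hc hgen hconj hx ha.1 (Ne.symm ha.2.1) h2 h3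
  haveI := hQ.normal
  have hidx : L.index ≤ 2 := by
    by_cases hL : ∃ d ∈ D, d ∈ L
    · obtain ⟨d, hd, hdL⟩ := hL
      refine index_le_two hT hgen hd fun u hu => mul_mem hdL ?_
      obtain ⟨g, rfl⟩ := hconj d hd u hu
      exact hQ.normal.conj_mem d hdL g
    push Not at hL
    set W : Set (G ⧸ L) := QuotientGroup.mk' L '' D with hW
    have hWT : IsThreeTranspositionSet W := by
      refine ⟨?_, ?_⟩
      · rintro _ ⟨d, hd, rfl⟩
        refine orderOf_eq_prime ?_ fun h => hL d hd ((QuotientGroup.eq_one_iff d).1 h)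
        rw [← map_pow, pow_two, mul_self (hT.1 d hd), map_one]
      · rintro _ ⟨d, hd, rfl⟩ _ ⟨e, he, rfl⟩
        rcases hT.2 d hd e he with h | h <;> [left; right] <;> rw [← map_mul, ← map_pow, h, map_one]
    have hWc : ∀ g : G ⧸ L, ∀ w ∈ W, g * w * g⁻¹ ∈ W := by
      rintro q _ ⟨d, hd, rfl⟩
      obtain ⟨g, rfl⟩ := QuotientGroup.mk'_surjective L q
      exact ⟨g * d * g⁻¹, hc g d hd, by simp⟩
    have hsys : Sys W := by
      refine Sys.of_width_one hWT hWc ?_
      rintro _ ⟨d, hd, rfl⟩ _ ⟨e, he, rfl⟩ hde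
      have hcomm : d * e * d⁻¹ * e⁻¹ ∈ L := by
        rw [← QuotientGroup.eq_one_iff]
        show QuotientGroup.mk' L (d * e * d⁻¹ * e⁻¹) = 1
        simp only [map_mul, map_inv]
        rw [hde.eq]
        group
      refine QuotientGroup.eq.2 ?_
      rw [ThreeTransp.inv_eq (hT.1 d hd)]
      by_cases hcm : Commute d e
      · exact mul_mem_of_commute hT hc hgen hconj hQ hd he hcm
      · rw [ThreeTransp.inv_eq (hT.1 d hd), ThreeTransp.inv_eq (hT.1 e he)] at hcomm
        rw [← QuotientGroup.eq_one_iff]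
        refine eq_one_of_sq_of_two_three ?_ ?_
        · rw [← QuotientGroup.mk_pow, QuotientGroup.eq_one_iff, pow_two, ← mul_assoc]
          exact hcomm
        · rw [← QuotientGroup.mk_pow, cube_of_not_commute hT hd he hcm]; rfl
    set N := (pCore 3 (G ⧸ L)).comap (QuotientGroup.mk' L) with hN
    haveI : N.Normal := (pCore_normal 3 (G ⧸ L)).comap _
    have hGN : commutator G ≤ N := by
      refine Subgroup.Normal.quotient_commutative_iff_commutator_le.mp ?_
      have hcl : ∀ u ∈ D, x * u ∈ N := fun u hu => by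
        rw [hN, Subgroup.mem_comap, map_mul]
        exact mul_mem_pCore hsys hWc ⟨x, hx, rfl⟩ ⟨u, hu, rfl⟩
      have hle : Subgroup.closure D ≤ (Subgroup.zpowers (QuotientGroup.mk' N x)).comap (QuotientGroup.mk' N) := by
        rw [Subgroup.closure_le]
        intro u hu
        rw [SetLike.mem_coe, Subgroup.mem_comap]
        have : QuotientGroup.mk' N u = QuotientGroup.mk' N x := by
          refine (QuotientGroup.eq.mpr ?_).symm
          rw [ThreeTransp.inv_eq (hT.1 x hx)]; exact hcl u hu
        rw [this]; exact Subgroup.mem_zpowers _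
      rw [hgen] at hle
      refine ⟨⟨fun p q => ?_⟩⟩
      obtain ⟨g, rfl⟩ := QuotientGroup.mk'_surjective N p
      obtain ⟨h, rfl⟩ := QuotientGroup.mk'_surjective N q
      obtain ⟨i, hi⟩ := Subgroup.mem_zpowers_iff.1 (hle (Subgroup.mem_top g))
      obtain ⟨j, hj⟩ := Subgroup.mem_zpowers_iff.1 (hle (Subgroup.mem_top h))
      rw [← hi, ← hj]
      exact Commute.zpow_zpow_self _ i j
    set K := (commutator G).map (QuotientGroup.mk' L) with hK
    have hK3 : K ≤ pCore 3 (G ⧸ L) := Subgroup.map_le_iff_le_comap.2 hGN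
    haveI : Fact (Nat.Prime 3) := ⟨Nat.prime_three⟩
    haveI : Group.IsNilpotent K := ((Components.pCore_isPGroup (G := G ⧸ L) 3).to_le hK3).isNilpotent
    have hKs : Group.IsSolvable K := inferInstance
    have hKK : ⁅K, K⁆ = K := by rw [hK, ← Subgroup.map_commutator, hperf]
    have hKbot : K = ⊥ := by
      by_contra hne
      haveI := Subgroup.nontrivial_iff_ne_bot K |>.2 hne
      have htop : commutator K = ⊤ := by
        refine Subgroup.map_injective K.subtype_injective ?_
        rw [commutator_def, Subgroup.map_commutator, ← MonoidHom.range_eq_map, Subgroup.range_subtype, hKK]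
      exact absurd htop (ne_of_lt (IsSolvable.commutator_lt_top_of_nontrivial K))
    have hGL : commutator G ≤ L := by
      have := (Subgroup.map_eq_bot_iff _).1 hKbot
      rwa [QuotientGroup.ker_mk'] at this
    refine index_le_two hT hgen hx fun u hu => hGL ?_
    obtain ⟨g, rfl⟩ := hconj x hx u hu
    rw [show x * (g * x * g⁻¹) = ⁅x, g⁆ by
      rw [commutatorElement_def, ThreeTransp.inv_eq (hT.1 x hx)]; group, commutator_def]
    exact Subgroup.commutator_mem_commutator (Subgroup.mem_top _) (Subgroup.mem_top _)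
  have hblock : ∀ B : Set G, B ⊆ D → Block B → B.Subsingleton ∨ B = D :=
    fun B hBD hB => block_trivial hT hc hgen hconj hQ h2 h3 hidx hB hBD
  have hconn : (commutingGraph D).Connected :=
    connected_of_primitive hc hconj hblock hx ha.1 (Ne.symm ha.2.1) ha.2.2
  refine reach_of_mem hT hc hgen hconj
    (fun d hd H hH hle y hy hyH hdy => dsubgroup_maximal hT hc hgen hconj hblock hconn hd hH hle hy hyH hdy)
    ?_ hZ hx ha hb
  intro u hu v hv h
  have h' := same_mul_mem_pCore hT hc hu hv h
  rw [hcore 2 Nat.prime_two, Subgroup.mem_bot] at h'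
  rw [eq_inv_of_mul_eq_one_left h', ThreeTransp.inv_eq (hT.1 v hv)]

end Cfsg.Agent.Lib.Involution.FischerLocal
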