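import Cfsg.Agent.Lib.Involution.FischerPairCentralizer
import Cfsg.Agent.Lib.Involution.FischerAutLines

/-! Type M(22): the centralizer of a product of two commuting members induces every automorphism of `PSU(4, 2)`. -/

set_option autoImplicit false

namespace Cfsg.Agent.Lib.Involution.FischerTwentyTwo

open Subgroup Matrix
open Cfsg Cfsg.Agent.Lib.AutPSU Cfsg.Agent.Lib.ThreeTransp Cfsg.Agent.Lib.Classical
  Cfsg.Agent.Lib.Involution.UnitaryTransp Cfsg.Agent.Lib.Involution.UnitaryPointQuot
  Cfsg.Agent.Lib.Involution.FischerRel Cfsg.Agent.Lib.Involution.FischerLocal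

universe u

section psu

variable {F : Type*} [Field F] [Fintype F]

theorem center_psu_four (hF4 : Fintype.card F = 4) : Subgroup.center (P 4 F 2) = ⊥ := by
  have hF := card2 hF4
  haveI := Classical.UnitarySimple.isSimpleGroup_PSU hF (n := 4) (by norm_num) (by norm_num)
  rcases (inferInstance : (Subgroup.center (P 4 F 2)).Normal).eq_bot_or_eq_top with hb | hb
  · exact hb
  · exfalso
    obtain ⟨e₀, f₀, HP₀⟩ := exists_pair hF (n := 4) (by norm_num)
    have hc : Commute (tr hF e₀ (1 : F)) (tr hF f₀ 1) :=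
      (mem_center_iff.1 (hb ▸ mem_top (tr hF e₀ (1 : F))) (tr hF f₀ 1)).symm
    have := (UnitaryTransp.commute_iff hF4 (show 1 ≤ 4 by norm_num) HP₀.valid_e HP₀.valid_f).1 hc
    rw [HP₀.fe] at this
    exact one_ne_zero this

/-- The fixed points of an involution are all orthogonal to one of them. -/
theorem fixed_point_perp (hF4 : Fintype.card F = 4) {κ : P 4 F 2} (hκ : κ ≠ 1) (h2 : κ * κ = 1) :
    ∃ v₀, Valid 2 v₀ ∧ ∀ v, Valid 2 v → Commute κ (τ hF4 v) → Commute (τ hF4 v₀) (τ hF4 v) := by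
  classical
  haveI := charTwo hF4
  haveI : Fact (Nat.Prime 2) := ⟨Nat.prime_two⟩
  have hF := card2 hF4
  obtain ⟨s, rfl, hsn⟩ := exists_unip_lift (p := 2) (k := 1) hF (n := 4) (by norm_num) (z := κ) (by
    rw [pow_one, pow_two, h2])
  set N : (Fin 4 → F) →ₗ[F] (Fin 4 → F) := (mat s - 1).mulVecLin with hN
  have hNapp : ∀ x, mat s *ᵥ x = x + N x := fun x => by
    rw [hN, mulVecLin_apply, sub_mulVec, one_mulVec, add_sub_cancel]
  have hs2 : s * s = 1 := by
    refine eq_of_pr_eq hF (by norm_num) ?_ (by rw [mat_one, sub_self]; exact IsNilpotent.zero)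
      (by rw [map_mul, map_one, h2])
    obtain ⟨k, hk⟩ := hsn
    refine ⟨k, ?_⟩
    rw [mat_mul, show mat s * mat s - 1 = (mat s - 1) * (mat s + 1) by noncomm_ring,
      ((Commute.sub_left (Commute.add_right (Commute.refl _) (Commute.one_right _))
        (Commute.one_left _))).mul_pow, hk, zero_mul]
  have hN2 : ∀ x, N (N x) = 0 := by
    intro x
    have h := congrArg (fun t : S 4 F 2 => mat t *ᵥ x) hs2
    simp only [mat_mul, mat_one, one_mulVec, ← mulVec_mulVec, hNapp, map_add] at h
    rwa [show x + N x + (N x + N (N x)) = x + N (N x) + (N x + N x) by abel, vec_add_self hF4, add_zero,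
      add_eq_left] at h
  have h0 : ∀ x y, hm 2 (N x) y + hm 2 x (N y) + hm 2 (N x) (N y) = 0 := by
    intro x y
    have h := iso s x y
    rw [hNapp, hNapp, hm_add_left, hm_add_right hF, hm_add_right hF] at h
    linear_combination h
  have hsa : ∀ x y, hm 2 (N x) y = hm 2 x (N y) := by
    intro x y
    have h1 := h0 x (N y)
    rw [hN2, hm_zero_right hF, hm_zero_right hF, add_zero, add_zero] at h1
    have h2 := h0 x y
    rw [h1, add_zero] at h2
    exact CharTwo.add_eq_zero.1 h2
  obtain ⟨z, hz⟩ : ∃ z, N z ≠ 0 := by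
    by_contra h
    push Not at h
    exact hκ (by rw [show s = 1 from vec_ext fun x => by rw [hNapp, h, mat_one, one_mulVec, add_zero], map_one])
  have hv₀ : Valid 2 (N z) := ⟨hz, by rw [hsa, hN2, hm_zero_right hF]⟩
  refine ⟨N z, hv₀, fun v hv hc => ?_⟩
  obtain ⟨t, -, ht⟩ := fixes_of_commute hF (by norm_num) hv (skew_one hF4) one_ne_zero (s := s) hc
  rw [eigen_one hsn hv.1 ht, one_smul, hNapp, add_eq_left] at ht
  refine (UnitaryTransp.commute_iff hF4 (show 1 ≤ 4 by norm_num) hv₀ hv).2 ?_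
  rw [← hsa, ht, hm_zero_left]

end psu

variable {G : Type u} [Group G] [Finite G] {D : Set G}

theorem conj_mem_joint (M : Hyp D) {d e c k : G} (hd : d ∈ D) (he : e ∈ Nb D d)
    (hc : c ∈ centralizer ({d * e} : Set G)) (hk : k ∈ centralizer ({d, e} : Set G)) :
    c * k * c⁻¹ ∈ centralizer ({d, e} : Set G) := by
  obtain ⟨k1, k2⟩ := cent_pair_iff.1 hk
  have h1 : Commute (c * k * c⁻¹) (c * d * c⁻¹) := (commute_conj_iff c k d).2 k1
  have h2 : Commute (c * k * c⁻¹) (c * e * c⁻¹) := (commute_conj_iff c k e).2 k2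
  rcases conj_mem_pair M hd he hc with ⟨e1, e2⟩ | ⟨e1, e2⟩ <;> rw [e1] at h1 <;> rw [e2] at h2
  exacts [cent_pair_iff.2 ⟨h1, h2⟩, cent_pair_iff.2 ⟨h2, h1⟩]

/-- The `180` members commuting with both, seen in the joint centralizer. -/
theorem mem_joint {d e c : G} (hc : c ∈ Nb D d ∩ Nb D e) : c ∈ centralizer ({d, e} : Set G) :=
  cent_pair_iff.2 ⟨hc.1.2.2.eq.symm, hc.2.2.2.eq.symm⟩

theorem block_frame (M : Hyp D) {d e c : G} (hd : d ∈ D) (he : e ∈ Nb D d) (hc : c ∈ Nb D d ∩ Nb D e) :
    ∃ F, MaxComm D F ∧ d ∈ F ∧ e ∈ F ∧ c ∈ F ∧ (Bl D d e c).ncard = 6 ∧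
      ∀ r ∈ Bl D d e c, r ≠ d → r ≠ e → r ∈ Nb D d ∩ Nb D e ∧ Bl D d e r = Bl D d e c := by
  obtain ⟨F, K, h1, h2, h3⟩ := exists_frame_three' M hd he hc
  have hsub := bl_subset M K h1 h2 h3 he.2.1 hc.1.2.1
  exact ⟨F, K, h1, h2, h3, card_bl M K h1 h2 h3 he.2.1 hc.1.2.1 hc.2.2.1.symm, fun r hr n1 n2 =>
    ⟨⟨K.nb h1 (hsub hr) n1, K.nb h2 (hsub hr) n2⟩,
      bl_exchange M K h1 h2 h3 he.2.1 hc.1.2.1 hc.2.2.1.symm hr n1 n2⟩⟩

/-- A block meets the neighbours of an outer member in two points at most. -/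
theorem block_meet (M : Hyp D) {d e c a : G} (hd : d ∈ D) (he : e ∈ Nb D d) (hc : c ∈ Nb D d ∩ Nb D e)
    (ha : a ∈ D) (hda : ¬ Commute d a) : (Bl D d e c ∩ Nb D a).ncard ≤ 2 := by
  by_contra h
  obtain ⟨g, i, j, hg, hi, hj, n1, n2, n3⟩ := (Set.two_lt_ncard_iff (Set.toFinite _)).1 (not_le.1 h)
  obtain ⟨F, K, h1, h2, h3, -, -⟩ := block_frame M hd he hc
  have e' := bl_three M K h1 h2 h3 he.2.1 hc.1.2.1 hc.2.2.1.symm hg.1 hi.1 hj.1 n1 n2 n3
  have hm := (bl_mem M K h1 h2 h3).1
  rw [← e'] at hm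
  exact hda (hm.2 a ha hg.2.2.2 hi.2.2.2 hj.2.2.2)

omit [Finite G] in
/-- In the star with centre `a` the product of four pairwise commuting ends commutes with `a`. -/
theorem star_fixed {a c t x : G} (ha : a * a = 1) (hc : c * c = 1) (ht : t * t = 1) (hct : Commute c t)
    (hac : a * c * a = c * a * c) (hx : a * t * a = x) (hcx : Commute (c * x * c) x) (hxt : Commute x t) :
    a * (t * (c * x * c) * x) * a = t * (c * x * c) * x := by
  have eC : c * a * t * a * c = a * c * a * t * (a * c * a) := by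
    calc c * a * t * a * c = c * a * (c * c) * t * a * c := by rw [hc, mul_one]
      _ = (c * a * c) * (c * t) * a * c := by simp only [mul_assoc]
      _ = (c * a * c) * (t * c) * a * c := by rw [hct.eq]
      _ = (c * a * c) * t * (c * a * c) := by simp only [mul_assoc]
      _ = _ := by rw [← hac]
  have hy : a * (c * x * c) * a = c * x * c := by
    have h0 : c * x * c = c * a * t * a * c := by rw [← hx]; simp only [mul_assoc]
    rw [h0]
    conv_lhs => rw [eC]
    calc a * (a * c * a * t * (a * c * a)) * a = (a * a) * c * a * t * a * c * (a * a) := by simp only [mul_assoc]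
      _ = c * a * t * a * c := by rw [ha, one_mul, mul_one]
  have hax : a * x * a = t := by
    rw [← hx]
    calc a * (a * t * a) * a = (a * a) * t * (a * a) := by simp only [mul_assoc]
      _ = t := by rw [ha, one_mul, mul_one]
  calc a * (t * (c * x * c) * x) * a = a * t * ((a * a) * (c * x * c) * ((a * a) * x)) * a := by
        rw [ha, one_mul, one_mul]; simp only [mul_assoc]
    _ = (a * t * a) * (a * (c * x * c) * a) * (a * x * a) := by simp only [mul_assoc]
    _ = x * (c * x * c) * t := by rw [hx, hy, hax]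
    _ = (c * x * c) * (x * t) := by rw [← hcx.eq, mul_assoc]
    _ = (c * x * c) * (t * x) := by rw [hxt.eq]
    _ = t * (c * x * c) * x := by
      have : Commute t (c * x * c) := (hct.symm.mul_right hxt.symm).mul_right hct.symm
      rw [← mul_assoc, this.eq]

omit [Finite G] in
theorem swap_element {d e a : G} (hd : d * d = 1) (he : e * e = 1) (ha : a * a = 1) (hde : Commute d e)
    (had : a * d * a = d * a * d) (hae : a * e * a = e * a * e) :
    a * (d * e) * a * d * (a * (d * e) * a) = e := by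
  calc a * (d * e) * a * d * (a * (d * e) * a) = a * d * e * (a * d * a) * (d * e * a) := by simp only [mul_assoc]
    _ = a * d * e * (d * a * d) * (d * e * a) := by rw [had]
    _ = a * d * (e * d) * a * (d * d) * e * a := by simp only [mul_assoc]
    _ = a * d * (d * e) * a * e * a := by rw [hd, mul_one, hde.eq]
    _ = a * (d * d) * (e * a * e) * a := by simp only [mul_assoc]
    _ = (a * a) * e * (a * a) := by rw [hd, mul_one, ← hae]; simp only [mul_assoc]
    _ = e := by rw [ha, one_mul, mul_one]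

/-- An element exchanging `d` and `e` is not inner on the quotient. -/
theorem no_inner (M : Hyp D) {d e a x : G} (hd : d ∈ D) (he : e ∈ Nb D d) (ha : a ∈ D)
    (hda : ¬ Commute d a) (hea : ¬ Commute e a) (hx : x = a * (d * e) * a)
    {F : Type} [Field F] [Fintype F] (PM : PairMap D d e F) {κ : P 4 F 2} (hκ : κ * κ = 1)
    (hconj : ∀ k (hk : k ∈ centralizer ({d, e} : Set G)) (hk' : x * k * x ∈ centralizer ({d, e} : Set G)),
      PM.ψ ⟨x * k * x, hk'⟩ = κ * PM.ψ ⟨k, hk⟩ * κ⁻¹) : False := by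
  classical
  have sd := M.sq hd
  have se := M.sq he.1
  have sa := M.sq ha
  have hde : Commute d e := he.2.2
  have bad : a * d * a = d * a * d := braid_of_not_commute M.tr ha hd fun c => hda c.symm
  have bae : a * e * a = e * a * e := braid_of_not_commute M.tr ha he.1 fun c => hea c.symm
  set t := d * e with ht
  have st : t * t = 1 := by
    rw [ht]
    calc d * e * (d * e) = d * (e * d) * e := by simp only [mul_assoc]
      _ = (d * d) * (e * e) := by rw [← hde.eq]; simp only [mul_assoc]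
      _ = 1 := by rw [sd, se, one_mul]
  have sx : x * x = 1 := by
    rw [hx]
    calc a * t * a * (a * t * a) = a * t * (a * a) * t * a := by simp only [mul_assoc]
      _ = a * (t * t) * a := by rw [sa, mul_one]; simp only [mul_assoc]
      _ = 1 := by rw [st, mul_one, sa]
  have xi : x⁻¹ = x := inv_eq_of_mul_eq_one_right sx
  have xd : x * d * x = e := by rw [hx]; exact swap_element sd se sa hde bad bae
  have xe : x * e * x = d := by
    rw [← xd]
    calc x * (x * d * x) * x = (x * x) * d * (x * x) := by simp only [mul_assoc]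
      _ = d := by rw [sx, one_mul, mul_one]
  have hxt : Commute x t := by
    have : x * t = t * x := by
      calc x * (d * e) = x * d * (x * x) * e * (x * x) := by rw [sx, mul_one, mul_one, mul_assoc]
        _ = (x * d * x) * (x * e * x) * x := by simp only [mul_assoc]
        _ = t * x := by rw [xd, xe, ← hde.eq]
    exact this
  have hxN : ∀ c ∈ Nb D d ∩ Nb D e, x * c * x ∈ Nb D d ∩ Nb D e := by
    intro c hc
    have h1 := nb_conj M.cl x hc.1
    have h2 := nb_conj M.cl x hc.2
    rw [xi, xd] at h1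
    rw [xi, xe] at h2
    exact ⟨h2, h1⟩
  set R := Nb D a ∩ Nb D d ∩ Nb D e with hR
  have hR30 : R.ncard = 30 := card_third M ha hd (fun c => hda c.symm)
    (common_nonempty M ha hd fun c => hda c.symm) he (fun c => hea c.symm)
  have hRN : ∀ r ∈ R, r ∈ Nb D d ∩ Nb D e := fun r hr => ⟨hr.1.2, hr.2⟩
  have hcount : ∀ s ∈ Nb D d ∩ Nb D e, {r | r ∈ R ∧ s ∈ Bl D d e r}.ncard ≤ 2 := by
    intro s hs
    refine le_trans (Set.ncard_le_ncard ?_ (Set.toFinite _)) (block_meet M hd he hs ha hda)
    rintro r ⟨hr, hsr⟩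
    obtain ⟨F', K, h1, h2, h3, -, hB⟩ := block_frame M hd he (hRN r hr)
    obtain ⟨-, hE⟩ := hB s hsr hs.1.2.1 hs.2.2.1
    exact ⟨hE ▸ (bl_mem M K h1 h2 h3).2.2, hr.1.1⟩
  have hfour : ∀ r ∈ R, (Bl D d e r \ {d, e}).ncard = 4 := by
    intro r hr
    obtain ⟨F', K, h1, h2, h3, h6, -⟩ := block_frame M hd he (hRN r hr)
    rw [Set.ncard_sdiff, h6, Set.ncard_pair he.2.1.symm]
    rintro w (rfl | rfl)
    exacts [(bl_mem M K h1 h2 h3).1, (bl_mem M K h1 h2 h3).2.1]
  rcases eq_or_ne κ 1 with rfl | hκ1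
  · -- a block free of `R`
    obtain ⟨c, hc, hcfree⟩ : ∃ c ∈ Nb D d ∩ Nb D e, ∀ r ∈ R, c ∉ Bl D d e r := by
      by_contra hno
      push Not at hno
      have h : (Nb D d ∩ Nb D e).toFinite.toFinset.card * 1 ≤ R.toFinite.toFinset.card * 4 := by
        refine Finset.card_mul_le_card_mul (fun c r => c ∈ Bl D d e r) ?_ ?_
        · intro c hc
          obtain ⟨r, hr, hcr⟩ := hno c (by simpa using hc)
          exact Finset.card_pos.2 ⟨r, (Finset.mem_bipartiteAbove _).2 ⟨by simpa using hr, hcr⟩⟩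
        · intro r hr
          have hr' : r ∈ R := by simpa using hr
          rw [← hfour r hr', Set.ncard_eq_toFinset_card _]
          refine Finset.card_le_card fun c hc => ?_
          obtain ⟨hc1, hc2⟩ := (Finset.mem_bipartiteBelow _).1 hc
          have hc1' : c ∈ Nb D d ∩ Nb D e := by simpa using hc1
          simpa using ⟨hc2, hc1'.1.2.1, hc1'.2.2.1⟩
      rw [← Set.ncard_eq_toFinset_card _, ← Set.ncard_eq_toFinset_card _, card_nb_two M hd he, hR30] at h
      omega
    obtain ⟨F', K, h1, h2, h3, -, hB⟩ := block_frame M hd he hc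
    have hfree : ∀ r ∈ Bl D d e c, r ≠ d → r ≠ e → ¬ Commute r a := by
      intro r hr n1 n2 hcom
      obtain ⟨hrN, hE⟩ := hB r hr n1 n2
      refine hcfree r ⟨⟨⟨hrN.1.1, fun h => hda (h ▸ hrN.1.2.2), hcom.symm⟩, hrN.1⟩, hrN.2⟩ ?_
      rw [hE]; exact (bl_mem M K h1 h2 h3).2.2
    have hcC := (bl_mem M K h1 h2 h3).2.2
    have hca : ¬ Commute c a := hfree c hcC hc.1.2.1 hc.2.2.1
    have sc := M.sq hc.1.1
    have bac : a * c * a = c * a * c := braid_of_not_commute M.tr ha hc.1.1 fun h => hca h.symm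
    have hct : Commute c t := hc.1.2.2.symm.mul_right hc.2.2.2.symm
    set c' := x * c * x with hc'
    have hc'N := hxN c hc
    have hc'B : c' ∈ Bl D d e c := by
      refine PM.sep c c' (mem_joint hc) (mem_joint hc'N) hc hc'N ?_
      rw [hconj c (mem_joint hc) (mem_joint hc'N), one_mul, inv_one, mul_one]
    have hne : c' ≠ c := by
      intro heq
      have hcx : Commute x c := by
        have : x * c * x * x = c * x := congrArg (· * x) heq
        rwa [mul_assoc, sx, mul_one] at this
      have h1 : Commute t (a * c * a) := by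
        have := (commute_conj_iff a x c).2 hcx
        rw [ThreeTransp.inv_eq (M.tr.1 a ha), hx] at this
        rwa [show a * (a * t * a) * a = (a * a) * t * (a * a) by simp only [mul_assoc], sa, one_mul, mul_one] at this
      rw [bac] at h1
      have h2 : Commute t a := by
        have := (hct.symm.mul_right h1).mul_right hct.symm
        rwa [show c * (c * a * c) * c = (c * c) * a * (c * c) by simp only [mul_assoc], sc, one_mul, mul_one] at this
      apply he.2.1
      rw [← xd, hx, ← h2.eq, mul_assoc t, sa, mul_one]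
      calc t * d * t = d * (e * d) * (d * e) := by rw [ht, mul_assoc d e d]
        _ = d * e * (d * d) * e := by simp only [mul_assoc]
        _ = d := by rw [sd, mul_one, mul_assoc, se, mul_one]
    obtain ⟨x', y', z', hxB, hyB, hzB, hxN', hyN', hzN', ⟨nxb, nyb, nzb⟩, ⟨nxc, nyc, nzc⟩, ⟨nxy, nxz, nyz⟩, hprod,
      hset⟩ := block_split M K h1 h2 h3 he.2.1 hc.1.2.1 hc.2.2.1.symm
    have hsub := bl_subset M K h1 h2 h3 he.2.1 hc.1.2.1
    have kx := M.sq hxN'.1
    have ky := M.sq hyN'.1
    have kz := M.sq hzN'.1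
    have cxy : Commute x' y' := K.comm _ (hsub hxB) _ (hsub hyB)
    have cxz : Commute x' z' := K.comm _ (hsub hxB) _ (hsub hzB)
    have cyz : Commute y' z' := K.comm _ (hsub hyB) _ (hsub hzB)
    obtain ⟨g, h, hg, hh, hgN, hhN, hgd, hge, hP⟩ : ∃ g h, g ∈ Bl D d e c ∧ h ∈ Bl D d e c ∧ g ∈ D ∧
        h ∈ Nb D g ∧ g ≠ d ∧ g ≠ e ∧ d * e * c * c' = g * h := by
      have hmem : c' ∈ ({d, e, c, x', y', z'} : Set G) := hset ▸ hc'B
      rw [hprod]
      rcases hmem with e' | e' | e' | e' | e' | e'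
      · exact absurd e' hc'N.1.2.1
      · exact absurd e' hc'N.2.2.1
      · exact absurd e' hne
      · refine ⟨y', z', hyB, hzB, hyN'.1, ⟨hzN'.1, nyz.symm, cyz⟩, hyN'.2.1, nyb, ?_⟩
        rw [e', mul_assoc x', (cxy.mul_right cxz).eq, mul_assoc, kx, mul_one]
      · refine ⟨x', z', hxB, hzB, hxN'.1, ⟨hzN'.1, nxz.symm, cxz⟩, hxN'.2.1, nxb, ?_⟩
        rw [e', mul_assoc (x' * y'), ← cyz.eq, ← mul_assoc, mul_assoc x' y' y', ky, mul_one]
      · refine ⟨x', y', hxB, hyB, hxN'.1, ⟨hyN'.1, nxy.symm, cxy⟩, hxN'.2.1, nxb, ?_⟩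
        rw [(show c' = z' from e'), mul_assoc, kz, mul_one]
    have hga : ¬ Commute g a := hfree g hg hgd hge
    have hcc' : Commute c c' := K.comm c (hsub hcC) c' (hsub hc'B)
    have hcx : Commute (c * x * c) x := by
      show c * x * c * x = x * (c * x * c)
      calc c * x * c * x = c * c' := by rw [hc']; simp only [mul_assoc]
        _ = c' * c := hcc'.eq
        _ = x * (c * x * c) := by rw [hc']; simp only [mul_assoc]
    have hfix := star_fixed sa sc st hct bac hx.symm hcx hxt
    have hP' : t * (c * x * c) * x = g * h := by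
      rw [← hP, hc']; simp only [mul_assoc, ht]
    rw [hP'] at hfix
    have e2 : a * g * a⁻¹ * (a * h * a⁻¹) = g * h := by
      rw [show a * g * a⁻¹ * (a * h * a⁻¹) = a * (g * h) * a⁻¹ by group, ThreeTransp.inv_eq (M.tr.1 a ha), hfix]
    apply hga
    refine commute_of_conj_commute M hgN ha ?_
    rcases pair_unique M (M.cl a g hgN) (nb_conj M.cl a hhN) hgN hhN e2 with ⟨h', -⟩ | ⟨h', -⟩ <;> rw [h']
    exact hhN.2.2.symm
  · obtain ⟨v₀, hv₀, hperp⟩ := fixed_point_perp PM.card_F hκ1 hκ
    obtain ⟨q, hq, hqR⟩ := PM.perp v₀ hv₀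
    have hRq : ∀ r ∈ R, Commute r q := by
      intro r hr
      have hrN := hRN r hr
      have hrx : x * r * x = r := by
        have : Commute r x := by
          rw [hx]
          exact (hr.1.1.2.2.symm.mul_right (hrN.1.2.2.symm.mul_right hrN.2.2.2.symm)).mul_right hr.1.1.2.2.symm
        rw [← this.eq, mul_assoc, sx, mul_one]
      have hrK : x * r * x ∈ centralizer ({d, e} : Set G) := by rw [hrx]; exact mem_joint hrN
      have e1 := hconj r (mem_joint hrN) hrK
      obtain ⟨v, hv, hv'⟩ := PM.point r (mem_joint hrN) hrN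
      rw [show (⟨x * r * x, hrK⟩ : ↥(centralizer ({d, e} : Set G))) = ⟨r, mem_joint hrN⟩ from Subtype.ext hrx,
        hv'] at e1
      refine hqR r (mem_joint hrN) hrN ?_
      rw [hv']
      exact hperp v hv (mul_inv_eq_iff_eq_mul.1 e1.symm)
    set S := insert q (Nb D d ∩ Nb D e ∩ Nb D q) with hS
    have hS52 : S.ncard ≤ 52 := (Set.ncard_insert_le _ _).trans (by
      rw [card_nb_comm M hd he hq.1 hq.2.2.1.symm hq.2.2.2])
    have h : R.toFinite.toFinset.card * 4 ≤ S.toFinite.toFinset.card * 2 := by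
      refine Finset.card_mul_le_card_mul (fun r s => s ∈ Bl D d e r) ?_ ?_
      · intro r hr
        have hr' : r ∈ R := by simpa using hr
        rw [← hfour r hr', Set.ncard_eq_toFinset_card _]
        refine Finset.card_le_card fun s hs => ?_
        have hs' : s ∈ Bl D d e r ∧ s ≠ d ∧ s ≠ e := by simpa using hs
        obtain ⟨F', K, h1, h2, h3, -, hB⟩ := block_frame M hd he (hRN r hr')
        obtain ⟨hsN, -⟩ := hB s hs'.1 hs'.2.1 hs'.2.2
        refine (Finset.mem_bipartiteAbove _).2 ⟨(Set.Finite.mem_toFinset _).2 ?_, hs'.1⟩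
        rcases eq_or_ne s q with h | h
        · exact Or.inl h
        · have hsq : Commute s q := hs'.1.2 q hq.1.1 hq.1.2.2.symm hq.2.2.2.symm (hRq r hr').symm
          exact Or.inr ⟨hsN, hsN.1.1, h, hsq.symm⟩
      · intro s hs
        have hsN : s ∈ Nb D d ∩ Nb D e := by
          rcases ((Set.Finite.mem_toFinset _).1 hs : s ∈ S) with h | h
          exacts [h ▸ hq, h.1]
        refine le_trans ?_ (hcount s hsN)
        rw [Set.ncard_eq_toFinset_card _]
        refine Finset.card_le_card fun r hr => ?_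
        simpa using hr
    rw [← Set.ncard_eq_toFinset_card _, ← Set.ncard_eq_toFinset_card _, hR30] at h
    omega

end Cfsg.Agent.Lib.Involution.FischerTwentyTwo
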