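import Cfsg.Agent.Lib.Involution.FischerSquares
import Cfsg.Agent.Lib.Components.Local
import Cfsg.Agent.Lib.PGroupFrattini

/-! Type M(22): the generalised Fitting subgroup of the centralizer of a product of two commuting members. -/

set_option autoImplicit false

namespace Cfsg.Agent.Lib.Involution.FischerTwentyTwo

open Subgroup
open Cfsg Cfsg.Agent.Lib.AutPSU Cfsg.Agent.Lib.ThreeTransp Cfsg.Agent.Lib.Classical
  Cfsg.Agent.Lib.Involution.UnitaryTransp

universe u

/-- A criterion for an extraspecial 2-group. -/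
theorem extraspecial_crit {R : Type*} [Group R] [Finite R] (hp : IsPGroup 2 R) (c : R) (hc1 : c ≠ 1)
    (hcc : ∀ a, a * c = c * a) (hcomm : ∀ a b : R, a * b * a⁻¹ * b⁻¹ = 1 ∨ a * b * a⁻¹ * b⁻¹ = c)
    (hsq : ∀ a : R, a * a = 1 ∨ a * a = c) (hcen : ∀ a, (∀ b, b * a = a * b) → a = 1 ∨ a = c)
    (hne : ∃ a b : R, a * b ≠ b * a) : IsExtraspecial 2 R := by
  haveI : Fact (Nat.Prime 2) := ⟨Nat.prime_two⟩
  have hzc : c ∈ Subgroup.center R := Subgroup.mem_center_iff.2 hcc
  have hor : ∀ x : R, x = 1 ∨ x = c → x ∈ Subgroup.center R := by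
    rintro x (rfl | rfl)
    exacts [one_mem _, hzc]
  have hcomm_le : commutator R ≤ Subgroup.center R := by
    rw [commutator_def, Subgroup.commutator_le]
    intro a _ b _
    exact hor _ (by simpa [commutatorElement_def] using hcomm a b)
  have hle : Subgroup.center R ≤ commutator R := by
    intro x hx
    rcases hcen x (Subgroup.mem_center_iff.1 hx) with rfl | rfl
    · exact one_mem _
    · obtain ⟨a, b, hab⟩ := hne
      rw [commutator_def]
      have e : a * b * a⁻¹ * b⁻¹ = x :=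
        (hcomm a b).resolve_left fun e => hab (commutatorElement_eq_one_iff_mul_comm.1 e)
      rw [← e, ← commutatorElement_def]
      exact Subgroup.commutator_mem_commutator (Subgroup.mem_top _) (Subgroup.mem_top _)
  have heq : commutator R = Subgroup.center R := le_antisymm hcomm_le hle
  refine ⟨⟨hp, le_antisymm ?_ (hle.trans (Lib.PGroupFrattini.commutator_le_frattini hp)), heq⟩, ?_⟩
  · exact Lib.PGroupFrattini.frattini_le Nat.prime_two _ hcomm_le fun x => hor _ (by simpa [pow_two] using hsq x)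
  · rw [Nat.card_eq_two_iff' (1 : Subgroup.center R)]
    refine ⟨⟨c, hzc⟩, fun e => hc1 (congrArg (fun q : Subgroup.center R => (q : R)) e), ?_⟩
    rintro ⟨x, hx⟩ hx1
    rcases hcen x (Subgroup.mem_center_iff.1 hx) with rfl | rfl
    · exact absurd rfl hx1
    · rfl

/-- An automorphism group of a simple group has no normal 2-subgroup unless the group is a 2-group. -/
theorem aut_no_two {A : Type*} [Group A] [Finite A] [IsSimpleGroup A] (hA : ¬ IsPGroup 2 A)
    (hzero : Subgroup.center A = ⊥) (R : Subgroup (MulAut A)) [R.Normal] (hR : IsPGroup 2 R) : R = ⊥ := by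
  have hinj : Function.Injective (MulAut.conj : A →* MulAut A) := by
    rw [injective_iff_map_eq_one]
    intro z hz
    refine mem_bot.1 (hzero ▸ mem_center_iff.2 fun g => ?_)
    have := DFunLike.congr_fun hz g
    rw [MulAut.conj_apply, MulAut.one_apply, mul_inv_eq_iff_eq_mul] at this
    exact this.symm
  have hI : R.comap (MulAut.conj : A →* MulAut A) = ⊥ := by
    rcases (inferInstance : (R.comap (MulAut.conj : A →* MulAut A)).Normal).eq_bot_or_eq_top with h | h
    · exact h
    · exact absurd ((hR.comap_of_injective _ hinj).of_equiv ((MulEquiv.subgroupCongr h).trans Subgroup.topEquiv)) hA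
  rw [Subgroup.eq_bot_iff_forall]
  intro β hβ
  refine MulEquiv.ext fun z => ?_
  have h1 : MulAut.conj (β z * z⁻¹) ∈ R := by
    have e : MulAut.conj (β z) = β * MulAut.conj z * β⁻¹ := MulEquiv.ext fun y => by
      simp [MulAut.conj_apply]
    rw [map_mul, map_inv, e, show β * MulAut.conj z * β⁻¹ * (MulAut.conj z)⁻¹ =
      β * (MulAut.conj z * β⁻¹ * (MulAut.conj z)⁻¹) by group]
    exact R.mul_mem hβ ((inferInstance : R.Normal).conj_mem _ (R.inv_mem hβ) _)
  rw [MulAut.one_apply]
  exact mul_inv_eq_one.1 (mem_bot.1 (hI ▸ h1 : β z * z⁻¹ ∈ (⊥ : Subgroup A)))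

variable {G : Type u} [Group G] [Finite G] {D : Set G}

theorem pair_cases {d e x : G} (hd : d * d = 1) (he : e * e = 1) (hde : Commute d e)
    (h : x ∈ closure ({d, e} : Set G)) : x = 1 ∨ x = d ∨ x = e ∨ x = d * e := by
  have h1 : d * (d * e) = e := by rw [← mul_assoc, hd, one_mul]
  have h2 : e * (d * e) = d := by rw [← mul_assoc, ← hde.eq, mul_assoc, he, mul_one]
  have h3 : d * e * d = e := by rw [mul_assoc, ← hde.eq, h1]
  have h4 : d * e * e = d := by rw [mul_assoc, he, mul_one]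
  have h5 : d * e * (d * e) = 1 := by rw [← mul_assoc, h3, he]
  induction h using Subgroup.closure_induction with
  | mem y hy =>
    rcases hy with rfl | rfl
    exacts [Or.inr (Or.inl rfl), Or.inr (Or.inr (Or.inl rfl))]
  | one => exact Or.inl rfl
  | mul p q _ _ hp hq =>
    rcases hp with rfl | rfl | rfl | rfl <;> rcases hq with rfl | rfl | rfl | rfl <;>
      simp [hd, he, h1, h2, h3, h4, h5, hde.eq.symm]
  | inv p _ hp =>
    rcases hp with rfl | rfl | rfl | rfl
    exacts [Or.inl inv_one, Or.inr (Or.inl (inv_eq_of_mul_eq_one_right hd)),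
      Or.inr (Or.inr (Or.inl (inv_eq_of_mul_eq_one_right he))),
      Or.inr (Or.inr (Or.inr (inv_eq_of_mul_eq_one_right h5)))]

variable (M : Hyp D) {d e : G} (hd : d ∈ D) (he : e ∈ Nb D d)
include M hd he

/-- The kernel of the projection, as a subgroup. -/
theorem pair_fitting : ∃ E : Subgroup G, E ≤ centralizer ({d * e} : Set G) ∧
    Cfsg.generalizedFittingSubgroup ↥(centralizer ({d * e} : Set G)) = E.subgroupOf (centralizer ({d * e} : Set G)) ∧
    (∃ M₀ : Subgroup G, Cfsg.IsExtraspecial 2 ↥M₀ ∧ Nat.card M₀ = 2 ^ 9 ∧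
      Nonempty (↥E ≃* Multiplicative (ZMod 2) × ↥M₀)) ∧
    ∃ (_ : (E.subgroupOf (centralizer ({d * e} : Set G))).Normal) (F : Type) (_ : Field F) (_ : Fintype F),
      Fintype.card F = 4 ∧
        Nonempty (↥(centralizer ({d * e} : Set G)) ⧸ E.subgroupOf (centralizer ({d * e} : Set G)) ≃*
          MulAut (Cfsg.PSU 4 F 2)) := by
  classical
  haveI : Fact (Nat.Prime 2) := ⟨Nat.prime_two⟩
  obtain ⟨F, fF, fT, ⟨PM⟩⟩ := exists_pairMap M hd he
  have hF := card2 PM.card_F
  haveI := Classical.UnitarySimple.isSimpleGroup_PSU hF (n := 4) (by norm_num) (by norm_num)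
  set K := centralizer ({d, e} : Set G) with hKdef
  set C := centralizer ({d * e} : Set G) with hCdef
  set E := PM.ψ.ker.map K.subtype with hE
  obtain ⟨hKC, hindex⟩ := pair_le_single M hd he
  have hdK : d ∈ K := cent_pair_iff.2 ⟨rfl, he.2.2.eq⟩
  have heK : e ∈ K := cent_pair_iff.2 ⟨he.2.2.eq.symm, rfl⟩
  have sd := M.sq hd
  have se := M.sq he.1
  have hde : Commute d e := he.2.2
  have memE : ∀ {x : G}, x ∈ E ↔ ∃ h : x ∈ K, PM.ψ ⟨x, h⟩ = 1 := by
    intro x; constructor
    · rintro ⟨y, hy, rfl⟩; exact ⟨y.2, hy⟩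
    · rintro ⟨h, hx⟩; exact ⟨⟨x, h⟩, hx, rfl⟩
  have hEK : E ≤ K := fun x hx => (memE.1 hx).1
  have hEC : E ≤ C := hEK.trans hKC
  have hcard : Nat.card E = 1024 := by
    rw [hE, Subgroup.card_map_of_injective K.subtype_injective, PM.card_ker]
  have hdE : d ∈ E := memE.2 ⟨hdK, PM.mem_d _⟩
  have heE : e ∈ E := memE.2 ⟨heK, PM.mem_e _⟩
  set t := d * e with ht
  have htE : t ∈ E := mul_mem hdE heE
  have st : t * t = 1 := by
    rw [ht, mul_assoc, ← mul_assoc e, ← hde.eq, mul_assoc d e, se, mul_one, sd]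
  have hd1 : d ≠ 1 := fun h => by have := M.tr.1 d hd; rw [h, orderOf_one] at this; omega
  have ht1 : t ≠ 1 := fun h => he.2.1 (by
    rw [ht] at h; rw [eq_inv_of_mul_eq_one_right h, inv_eq_of_mul_eq_one_right sd])
  have hte : ∀ u ∈ E, Commute u t := fun u hu =>
    (show Commute u d from (cent_pair_iff.1 (hEK hu)).1).mul_right (cent_pair_iff.1 (hEK hu)).2
  have hsq : ∀ u ∈ E, u * u = 1 ∨ u * u = t := by
    intro u hu
    obtain ⟨h, h'⟩ := memE.1 hu
    have h2 := (PM.ker_rel ⟨u, h⟩ ⟨u, h⟩ h' h').2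
    rw [← pow_two]
    rcases pair_cases sd se hde h2 with h3 | h3 | h3 | h3
    · exact Or.inl h3
    · exact absurd (pow_two u ▸ h3) (sq_ne_member M hd)
    · exact absurd (pow_two u ▸ h3) (sq_ne_member M he.1)
    · exact Or.inr h3
  set T := zpowers t
  have memT : ∀ {x : G}, x ∈ T → x = 1 ∨ x = t := by
    intro x hx
    obtain ⟨k, rfl⟩ := mem_zpowers_iff.1 hx
    rcases Int.even_or_odd k with ⟨i, rfl⟩ | ⟨i, rfl⟩
    · left; rw [← two_mul, zpow_mul, zpow_two, st, one_zpow]
    · right; rw [zpow_add, zpow_one, zpow_mul, zpow_two, st, one_zpow, one_mul]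
  have hsqT : ∀ u ∈ E, u * u ∈ T := fun u hu => by
    rcases hsq u hu with h | h <;> rw [h]
    exacts [one_mem _, mem_zpowers t]
  have hcommT : ∀ u ∈ E, ∀ v ∈ E, u * v * u⁻¹ * v⁻¹ ∈ T := by
    intro u hu v hv
    rw [show u * v * u⁻¹ * v⁻¹ = (u * u) * (u⁻¹ * v * (u⁻¹ * v)) * (v⁻¹ * v⁻¹) by group]
    exact mul_mem (mul_mem (hsqT u hu) (hsqT _ (mul_mem (inv_mem hu) hv))) (hsqT _ (inv_mem hv))
  have hcen : ∀ u ∈ E, (∀ v ∈ E, Commute u v) → u = 1 ∨ u = d ∨ u = e ∨ u = t := by
    intro u hu hall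
    obtain ⟨h, h'⟩ := memE.1 hu
    exact pair_cases sd se hde
      (PM.center_ker ⟨u, h⟩ h' fun y hy => Subtype.ext (hall y (memE.2 ⟨y.2, hy⟩)).eq)
  -- a complement of `d`
  obtain ⟨M₀, ⟨hM0E, htM, hdM⟩, hmax⟩ := Set.exists_max_image
    {S : Subgroup G | S ≤ E ∧ t ∈ S ∧ d ∉ S} (fun S => Nat.card S) (Set.toFinite _)
    ⟨T, zpowers_le.2 htE, mem_zpowers t, fun h => by
      rcases memT h with h | h
      · exact hd1 h
      · have : e = 1 := mul_eq_left.1 (h.symm : t = d)
        have h2 := M.tr.1 e he.1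
        rw [this, orderOf_one] at h2; omega⟩
  have hTM : T ≤ M₀ := zpowers_le.2 htM
  have hsplit : ∀ x ∈ E, x ∈ M₀ ∨ d * x ∈ M₀ := by
    intro x hx
    by_contra hn
    push Not at hn
    set P := closure (insert x (M₀ : Set G))
    have hsub : ∀ y ∈ P, y ∈ E ∧ (y ∈ M₀ ∨ x⁻¹ * y ∈ M₀) := by
      intro y hy
      have hinvs : ∀ y ∈ E, x⁻¹ * y ∈ M₀ → x⁻¹ * y⁻¹ ∈ M₀ := fun y hy h => by
        have h1 : y⁻¹ = y * (y * y)⁻¹ := by group
        rw [h1, ← mul_assoc]
        exact mul_mem h (inv_mem (hTM (hsqT y hy)))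
      induction hy using Subgroup.closure_induction with
      | mem y hy =>
        rcases hy with rfl | hy
        · exact ⟨hx, Or.inr (by simp)⟩
        · exact ⟨hM0E hy, Or.inl hy⟩
      | one => exact ⟨one_mem _, Or.inl (one_mem _)⟩
      | mul p q _ _ hp hq =>
        obtain ⟨hpE, hp⟩ := hp
        obtain ⟨hqE, hq⟩ := hq
        refine ⟨mul_mem hpE hqE, ?_⟩
        have hconjx : ∀ m ∈ M₀, x⁻¹ * m * x ∈ M₀ := fun m hm => by
          rw [show x⁻¹ * m * x = (x⁻¹ * m * x⁻¹⁻¹ * m⁻¹) * m by group]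
          exact mul_mem (hTM (hcommT _ (inv_mem hx) _ (hM0E hm))) hm
        rcases hp with hp | hp <;> rcases hq with hq | hq
        · exact Or.inl (mul_mem hp hq)
        · right
          rw [show x⁻¹ * (p * q) = (x⁻¹ * p * x) * (x⁻¹ * q) by group]
          exact mul_mem (hconjx p hp) hq
        · right
          rw [← mul_assoc]; exact mul_mem hp hq
        · left
          rw [show p * q = (x * x) * ((x⁻¹ * (x⁻¹ * p) * x) * (x⁻¹ * q)) by group]
          exact mul_mem (hTM (hsqT x hx)) (mul_mem (hconjx _ hp) hq)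
      | inv p _ hp =>
        exact ⟨inv_mem hp.1, hp.2.imp inv_mem (hinvs p hp.1)⟩
    have hle : M₀ ≤ P := fun m hm => subset_closure (Set.mem_insert_of_mem _ hm)
    have hdP : d ∉ P := fun h => by
      rcases (hsub d h).2 with h1 | h1
      · exact hdM h1
      · refine hn.2 ?_
        rw [show d * x = (x⁻¹ * d)⁻¹ by rw [mul_inv_rev, inv_inv, inv_eq_of_mul_eq_one_right sd]]
        exact inv_mem h1
    have h := hmax P ⟨fun y hy => (hsub y hy).1, hle htM, hdP⟩
    exact hn.1 (eq_of_le_of_card_ge hle h ▸ subset_closure (Set.mem_insert x _))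
  have hdc : ∀ z ∈ zpowers d, ∀ m ∈ M₀, Commute z m := by
    intro z hz m hm
    obtain ⟨k, rfl⟩ := mem_zpowers_iff.1 hz
    exact (show Commute d m from ((cent_pair_iff.1 (hEK (hM0E hm))).1).symm).zpow_left k
  set f := MonoidHom.noncommCoprod (zpowers d).subtype M₀.subtype fun z m => hdc z z.2 m m.2
  have hf : f.range = E := by
    refine le_antisymm ?_ fun x hx => ?_
    · rintro _ ⟨⟨z, m⟩, rfl⟩
      exact mul_mem (zpowers_le.2 hdE z.2) (hM0E m.2)
    · rcases hsplit x hx with h | h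
      · exact ⟨(1, ⟨x, h⟩), one_mul x⟩
      · exact ⟨(⟨d, mem_zpowers d⟩, ⟨d * x, h⟩), show d * (d * x) = x by rw [← mul_assoc, sd, one_mul]⟩
  have memd : ∀ z ∈ zpowers d, z = 1 ∨ z = d := by
    intro z hz
    obtain ⟨k, rfl⟩ := mem_zpowers_iff.1 hz
    rcases Int.even_or_odd k with ⟨i, rfl⟩ | ⟨i, rfl⟩
    · left; rw [← two_mul, zpow_mul, zpow_two, sd, one_zpow]
    · right; rw [zpow_add, zpow_one, zpow_mul, zpow_two, sd, one_zpow, one_mul]
  have hfinj : Function.Injective f := by
    rw [injective_iff_map_eq_one]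
    rintro ⟨z, m⟩ h
    have h' : (z : G) * (m : G) = 1 := h
    rcases memd z z.2 with hz | hz
    · rw [hz, one_mul] at h'
      exact Prod.ext (Subtype.ext hz) (Subtype.ext h')
    · rw [hz] at h'
      exact absurd (inv_eq_of_mul_eq_one_left h' ▸ inv_mem m.2 : d ∈ M₀) hdM
  have hEiso : ↥E ≃* ↥(zpowers d) × ↥M₀ :=
    ((MonoidHom.ofInjective hfinj).trans (MulEquiv.subgroupCongr hf)).symm
  have hdcard : Nat.card ↥(zpowers d) = 2 := by rw [Nat.card_zpowers, M.tr.1 d hd]
  have hM9 : Nat.card M₀ = 2 ^ 9 := by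
    have h := Nat.card_congr hEiso.toEquiv
    rw [Nat.card_prod, hdcard, hcard] at h
    norm_num; omega
  have hextra : Cfsg.IsExtraspecial 2 ↥M₀ := by
    refine extraspecial_crit (IsPGroup.of_card hM9) ⟨t, htM⟩ (fun h => ht1 (congrArg Subtype.val h))
      (fun a => Subtype.ext (hte a (hM0E a.2)).eq) (fun a b => ?_) (fun a => ?_) (fun a ha => ?_) ?_
    · exact (memT (hcommT a (hM0E a.2) b (hM0E b.2))).imp (fun h => Subtype.ext h) fun h => Subtype.ext h
    · exact (hsq a (hM0E a.2)).imp (fun h => Subtype.ext h) fun h => Subtype.ext h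
    · have hall : ∀ v ∈ E, Commute (a : G) v := by
        intro v hv
        have had : Commute (a : G) d := (cent_pair_iff.1 (hEK (hM0E a.2))).1
        rcases hsplit v hv with h | h
        · exact (congrArg Subtype.val (ha ⟨v, h⟩)).symm
        · have h1 : Commute (a : G) (d * v) := (congrArg Subtype.val (ha ⟨_, h⟩)).symm
          have := had.mul_right h1
          rwa [← mul_assoc, sd, one_mul] at this
      rcases hcen a (hM0E a.2) hall with h | h | h | h
      · exact Or.inl (Subtype.ext h)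
      · exact absurd (h ▸ a.2) hdM
      · refine absurd ?_ hdM
        have : d = t * e := by rw [ht, mul_assoc, se, mul_one]
        rw [this]; exact mul_mem htM (h ▸ a.2)
      · exact Or.inr (Subtype.ext h)
    · by_contra hab
      push Not at hab
      have hall : ∀ u ∈ E, ∀ v ∈ E, Commute u v := by
        intro u hu v hv
        obtain ⟨⟨z, m⟩, rfl⟩ := hf.symm ▸ hu
        obtain ⟨⟨z', m'⟩, rfl⟩ := hf.symm ▸ hv
        show Commute ((z : G) * m) ((z' : G) * m')
        have c1 : Commute (z : G) z' := congrArg Subtype.val (mul_comm' z z')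
        exact (c1.mul_right (hdc z z.2 m' m'.2)).mul_left
          ((hdc z' z'.2 m m.2).symm.mul_right (congrArg Subtype.val (hab m m')))
      have hsub : (E : Set G) ⊆ {1, d, e, t} := fun u hu => hcen u hu (hall u hu)
      have := Set.ncard_le_ncard hsub (Set.toFinite _)
      rw [← Nat.card_coe_set_eq] at this
      have h4 : ({1, d, e, t} : Set G).ncard ≤ 4 := by
        refine (Set.ncard_insert_le _ _).trans (Nat.succ_le_succ ((Set.ncard_insert_le _ _).trans
          (Nat.succ_le_succ ((Set.ncard_insert_le _ _).trans (by simp)))))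
      change Nat.card E ≤ _ at this
      omega
  -- the centralizer of `E`
  obtain ⟨-, E', hE', -, -, -, -, -, hnorm, F', fF', fT', hF', hiso⟩ := pairMap_structure M hd he PM
  obtain rfl : E' = E := hE'.trans hE.symm
  obtain ⟨eq'⟩ := hiso
  have hEconj : ∀ c ∈ C, ∀ x ∈ E, c * x * c⁻¹ ∈ E := fun c hc x hx =>
    mem_subgroupOf.1 (hnorm.conj_mem ⟨x, hEC hx⟩ (mem_subgroupOf.2 hx) ⟨c, hc⟩)
  have hself : ∀ w ∈ C, (∀ u ∈ E, Commute w u) → w ∈ E := by
    intro w hwC hw
    set W : Subgroup K := (centralizer (E : Set G)).subgroupOf K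
    haveI : W.Normal := by
      refine ⟨fun k hk g => ?_⟩
      rw [mem_subgroupOf, mem_centralizer_iff] at hk ⊢
      intro u hu
      have hu' := hEconj _ (hKC (inv_mem g.2)) u hu
      have h1 := (commute_conj_iff (g : G) _ _).2 (show Commute _ (k : G) from hk _ hu')
      simpa [mul_assoc] using h1.eq
    haveI : (W.map PM.ψ).Normal := Subgroup.Normal.map inferInstance _ PM.surj
    have htrivK : ∀ k : G, k ∈ K → (∀ u ∈ E, Commute k u) → k ∈ E := by
      rcases (inferInstance : (W.map PM.ψ).Normal).eq_bot_or_eq_top with h | h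
      · intro k hk hku
        refine memE.2 ⟨hk, mem_bot.1 (h ▸ ⟨⟨k, hk⟩, ?_, rfl⟩)⟩
        exact mem_subgroupOf.2 (mem_centralizer_iff.2 fun u hu => (hku u hu).eq.symm)
      · exfalso
        obtain ⟨c, hc⟩ := Set.nonempty_of_ncard_ne_zero (s := Nb D d ∩ Nb D e)
          (by rw [card_nb_two M hd he]; norm_num)
        obtain ⟨⟨w', hw'K⟩, hw', hψ⟩ := (h ▸ mem_top (PM.ψ ⟨c, mem_joint hc⟩) : PM.ψ ⟨c, mem_joint hc⟩ ∈ W.map PM.ψ)
        have hu0 : w'⁻¹ * c ∈ E := memE.2 ⟨mul_mem (inv_mem hw'K) (mem_joint hc), by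
          show PM.ψ ((⟨w', hw'K⟩ : K)⁻¹ * ⟨c, mem_joint hc⟩) = 1
          rw [map_mul, map_inv, hψ, inv_mul_cancel]⟩
        have hfix : ∀ u ∈ E, Commute u c := by
          intro u hu
          have hwc : Commute w' (((w'⁻¹ * c) * u⁻¹ * (w'⁻¹ * c)⁻¹)) :=
            (mem_centralizer_iff.1 (mem_subgroupOf.1 hw') _ (mul_mem (mul_mem hu0 (inv_mem hu)) (inv_mem hu0))).symm
          have e1 : c * u⁻¹ * c⁻¹ = (w'⁻¹ * c) * u⁻¹ * (w'⁻¹ * c)⁻¹ := by
            rw [← mul_inv_eq_of_eq_mul hwc.eq]; group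
          have hmem : u * (c * u⁻¹ * c⁻¹) ∈ T := by
            rw [e1, show u * (w'⁻¹ * c * u⁻¹ * (w'⁻¹ * c)⁻¹) = u * (w'⁻¹ * c) * u⁻¹ * (w'⁻¹ * c)⁻¹ by group]
            exact hcommT u hu _ hu0
          rcases memT hmem with h1 | h1
          · rw [← mul_assoc, ← mul_assoc, mul_inv_eq_one, mul_inv_eq_iff_eq_mul] at h1
            exact h1
          · exfalso
            have h2 : u * c * u⁻¹ = d * e * c := by rw [← ht, ← h1]; group
            have h3 := isProd_unique M (by norm_num) (by norm_num) (by norm_num) le_rfl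
              (isProd_one (M.cl u c hc.1.1)) (h2 ▸ isProd_three hd he hc)
            omega
        obtain ⟨q, hq, hqc⟩ : ∃ q ∈ Nb D d ∩ Nb D e, ¬ Commute c q := by
          by_contra hno
          push Not at hno
          have hsub : Nb D d ∩ Nb D e ⊆ insert c (Nb D d ∩ Nb D e ∩ Nb D c) := fun q hq => by
            rcases eq_or_ne q c with h' | h'
            · exact Or.inl h'
            · exact Or.inr ⟨hq, hq.1.1, h', hno q hq⟩
          have := (Set.ncard_le_ncard hsub (Set.toFinite _)).trans (Set.ncard_insert_le _ _)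
          rw [card_nb_comm M hd he hc.1 hc.2.2.1.symm hc.2.2.2, card_nb_two M hd he] at this
          omega
        obtain ⟨Fr, Kf, g1, g2, g3, g6, hB⟩ := block_frame M hd he hq
        obtain ⟨q', hq', hq'n⟩ : ∃ q' ∈ Bl D d e q, q' ∉ ({d, e, q} : Set G) := by
          by_contra hno
          push Not at hno
          have := Set.ncard_le_ncard (show Bl D d e q ⊆ {d, e, q} from hno) (Set.toFinite _)
          have h3 : ({d, e, q} : Set G).ncard ≤ 3 := (Set.ncard_insert_le _ _).trans
            (Nat.succ_le_succ ((Set.ncard_insert_le _ _).trans (by simp)))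
          omega
        simp only [Set.mem_insert_iff, Set.mem_singleton_iff, not_or] at hq'n
        obtain ⟨hq'N, -⟩ := hB q' hq' hq'n.1 hq'n.2.1
        have hu : q * q' ∈ E := memE.2 ⟨mul_mem (mem_joint hq) (mem_joint hq'N), by
          show PM.ψ (⟨q, mem_joint hq⟩ * ⟨q', mem_joint hq'N⟩) = 1
          rw [map_mul, PM.same q q' (mem_joint hq) (mem_joint hq'N) hq hq'N hq', ← map_mul,
            show (⟨q, mem_joint hq⟩ : K) * ⟨q, mem_joint hq⟩ = 1 from Subtype.ext (M.sq hq.1.1), map_one]⟩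
        have hqq : q' ∈ Nb D q :=
          ⟨hq'N.1.1, hq'n.2.2, Kf.comm q g3 q' (bl_subset M Kf g1 g2 g3 he.2.1 hq.1.2.1 hq')⟩
        have e2 : c * q * c⁻¹ * (c * q' * c⁻¹) = q * q' := by
          rw [show c * q * c⁻¹ * (c * q' * c⁻¹) = c * (q * q') * c⁻¹ by group, ← (hfix _ hu).eq, mul_inv_cancel_right]
        refine hqc (commute_of_conj_commute M hq.1.1 hc.1.1 ?_).symm
        rcases pair_unique M (M.cl c q hq.1.1) (nb_conj M.cl c hqq) hq.1.1 hqq e2 with ⟨h', -⟩ | ⟨h', -⟩ <;> rw [h']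
        exact hqq.2.2.symm
    by_cases hwK : w ∈ K
    · exact htrivK w hwK hw
    exfalso
    obtain ⟨a, ha, hda, hea, -⟩ := exists_far_two M hd he.1 he.1
    set x := a * (d * e) * a with hx
    have sa := M.sq ha
    have xd : x * d * x = e := swap_element sd se sa hde
      (braid_of_not_commute M.tr ha hd fun c => hda c.symm) (braid_of_not_commute M.tr ha he.1 fun c => hea c.symm)
    have sx : x * x = 1 := by
      rw [hx]
      calc a * t * a * (a * t * a) = a * t * (a * a) * t * a := by simp only [mul_assoc]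
        _ = a * (t * t) * a := by rw [sa, mul_one]; simp only [mul_assoc]
        _ = 1 := by rw [st, mul_one, sa]
    have xi : x⁻¹ = x := inv_eq_of_mul_eq_one_right sx
    have hwd : w * d * w⁻¹ = e := by
      rcases conj_mem_pair M hd he hwC with h | h
      · exact absurd (cent_pair_iff.2 ⟨mul_inv_eq_iff_eq_mul.1 h.1, mul_inv_eq_iff_eq_mul.1 h.2⟩) hwK
      · exact h.1
    exact absurd (hw d hdE) fun h => he.2.1 (by rw [← hwd, h.eq, mul_inv_cancel_right])
  -- the generalised Fitting subgroup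
  set N := E.subgroupOf C with hN
  haveI := hnorm
  have hNp : IsPGroup 2 ↥N := IsPGroup.of_card (n := 10) (by
    rw [hN, Nat.card_congr (subgroupOfEquivOfLe hEC).toEquiv, hcard]; norm_num)
  have hcore : Cfsg.pCore 2 ↥C = N := by
    refine le_antisymm ?_ (Cfsg.Agent.Lib.Components.le_pCore hNp)
    haveI := Classical.UnitarySimple.isSimpleGroup_PSU (card2 hF') (n := 4) (by norm_num) (by norm_num)
    set R := ((Cfsg.pCore 2 ↥C).map (QuotientGroup.mk' N)).map eq'.toMonoidHom
    haveI : R.Normal := Subgroup.Normal.map (Subgroup.Normal.map inferInstance _ (QuotientGroup.mk'_surjective N)) _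
      eq'.surjective
    have hR : R = ⊥ := aut_no_two (A := Cfsg.PSU 4 F' 2) (fun hp => by
      obtain ⟨n, hn⟩ := IsPGroup.iff_card.1 hp
      rw [card_psu_four hF'] at hn
      have : 5 ∣ 2 ^ n := hn ▸ by norm_num
      have := Nat.Prime.dvd_of_dvd_pow (by norm_num : Nat.Prime 5) this
      omega) (center_psu_four hF') R (((Cfsg.Agent.Lib.Components.pCore_isPGroup 2).map _).map _)
    intro y hy
    rw [← QuotientGroup.eq_one_iff (N := N)]
    refine eq'.injective ?_
    rw [map_one]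
    exact mem_bot.1 (hR ▸ ⟨_, ⟨y, hy, rfl⟩, rfl⟩)
  have hgfs : Cfsg.generalizedFittingSubgroup ↥C = N := by
    rw [← hcore, Cfsg.Agent.Lib.Components.gfs_eq_pCore_iff, hcore]
    intro y hy
    exact mem_subgroupOf.2 (hself y y.2 fun u hu =>
      (congrArg Subtype.val (mem_centralizer_iff.1 hy ⟨u, hEC hu⟩ (mem_subgroupOf.2 hu))).symm)
  haveI := isCyclic_of_prime_card hdcard
  refine ⟨E, hEC, hgfs, ⟨M₀, hextra, hM9, ⟨hEiso.trans (MulEquiv.prodCongr
    (mulEquivOfCyclicCardEq (by rw [hdcard, Nat.card_congr Multiplicative.toAdd, Nat.card_zmod]))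
    (MulEquiv.refl _))⟩⟩, hnorm, F', fF', fT', hF', ⟨eq'⟩⟩

end Cfsg.Agent.Lib.Involution.FischerTwentyTwo
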