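import Cfsg.Agent.Lib.Involution.FischerPairAut

/-! Type M(22): the structure of the centralizer of a product of two commuting members. -/

set_option autoImplicit false

namespace Cfsg.Agent.Lib.Involution.FischerTwentyTwo

open Subgroup
open Cfsg Cfsg.Agent.Lib.AutPSU Cfsg.Agent.Lib.ThreeTransp Cfsg.Agent.Lib.Classical
  Cfsg.Agent.Lib.Involution.UnitaryTransp

universe u

variable {G : Type u} [Group G] [Finite G] {D : Set G}

theorem pairMap_structure (M : Hyp D) {d e : G} (hd : d ∈ D) (he : e ∈ Nb D d) {F : Type} [fF : Field F]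
    [fT : Fintype F] (PM : PairMap D d e F) :
    (Subgroup.center ↥(centralizer ({d, e} : Set G))).map (centralizer ({d, e} : Set G)).subtype =
        closure ({d, e} : Set G) ∧
      ∃ E : Subgroup G, E = PM.ψ.ker.map (centralizer ({d, e} : Set G)).subtype ∧ closure ({d, e} : Set G) ≤ E ∧ E ≤ centralizer ({d * e} : Set G) ∧
        (∀ c ∈ centralizer ({d * e} : Set G), ∀ x ∈ E, c * x * c⁻¹ ∈ E) ∧ Nat.card E = 2 ^ 10 ∧
        (∀ x ∈ E, ∀ y ∈ E, x * y * x⁻¹ * y⁻¹ ∈ closure ({d, e} : Set G) ∧ x ^ 2 ∈ closure ({d, e} : Set G)) ∧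
        ∃ (_ : (E.subgroupOf (centralizer ({d * e} : Set G))).Normal) (F : Type) (_ : Field F) (_ : Fintype F),
          Fintype.card F = 4 ∧
            Nonempty (↥(centralizer ({d * e} : Set G)) ⧸ E.subgroupOf (centralizer ({d * e} : Set G)) ≃*
              MulAut (Cfsg.PSU 4 F 2)) := by
  classical
  have hF := card2 PM.card_F
  haveI := Classical.UnitarySimple.isSimpleGroup_PSU hF (n := 4) (by norm_num) (by norm_num)
  have hZ := center_psu_four PM.card_F
  set K := centralizer ({d, e} : Set G) with hKdef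
  set C := centralizer ({d * e} : Set G) with hCdef
  set E := PM.ψ.ker.map K.subtype with hE
  obtain ⟨hKC, hindex⟩ := pair_le_single M hd he
  have hdK : d ∈ K := cent_pair_iff.2 ⟨rfl, he.2.2.eq⟩
  have heK : e ∈ K := cent_pair_iff.2 ⟨he.2.2.eq.symm, rfl⟩
  have memE : ∀ {x : G}, x ∈ E ↔ ∃ h : x ∈ K, PM.ψ ⟨x, h⟩ = 1 := by
    intro x; constructor
    · rintro ⟨y, hy, rfl⟩; exact ⟨y.2, hy⟩
    · rintro ⟨h, hx⟩; exact ⟨⟨x, h⟩, hx, rfl⟩
  set φ : ∀ c : C, K →* K := fun c => MonoidHom.mk' (fun k => ⟨(c : G) * k * (c : G)⁻¹, conj_mem_joint M hd he c.2 k.2⟩)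
    fun a b => Subtype.ext (by simp only [Subgroup.coe_mul]; group) with hφ
  have hφsurj : ∀ c : C, Function.Surjective (φ c) := fun c k => ⟨⟨(c : G)⁻¹ * k * (c : G), by
      simpa using conj_mem_joint M hd he (inv_mem c.2) k.2⟩, Subtype.ext (by simp [hφ, mul_assoc])⟩
  have hkerφ : ∀ c : C, PM.ψ.ker ≤ (PM.ψ.comp (φ c)).ker := by
    intro c k hk
    set N := (PM.ψ.ker.map (φ c)).map PM.ψ
    haveI : N.Normal := Subgroup.Normal.map (Subgroup.Normal.map inferInstance _ (hφsurj c)) _ PM.surj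
    rcases (inferInstance : N.Normal).eq_bot_or_eq_top with h | h
    · exact mem_bot.1 (h ▸ ⟨_, ⟨k, hk, rfl⟩, rfl⟩ : PM.ψ (φ c k) ∈ (⊥ : Subgroup (P 4 F 2)))
    · exfalso
      have h1 : Nat.card N ≤ 1024 := PM.card_ker ▸ (Nat.le_of_dvd Nat.card_pos (Subgroup.card_map_dvd _ _)).trans
        (Nat.le_of_dvd Nat.card_pos (Subgroup.card_map_dvd _ _))
      rw [h, Subgroup.card_top] at h1
      change Nat.card (Cfsg.PSU 4 F 2) ≤ _ at h1
      rw [card_psu_four PM.card_F] at h1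
      omega
  have hEconj : ∀ c ∈ C, ∀ x ∈ E, c * x * c⁻¹ ∈ E := by
    intro c hc x hx
    obtain ⟨h, hx'⟩ := memE.1 hx
    exact memE.2 ⟨_, hkerφ ⟨c, hc⟩ (show (⟨x, h⟩ : K) ∈ PM.ψ.ker from hx')⟩
  have hcard : Nat.card E = 2 ^ 10 := by
    rw [hE, Subgroup.card_map_of_injective K.subtype_injective, PM.card_ker]; norm_num
  have hVE : closure ({d, e} : Set G) ≤ E := (closure_le _).2 (by
    rintro x (rfl | rfl)
    exacts [memE.2 ⟨hdK, PM.mem_d _⟩, memE.2 ⟨heK, PM.mem_e _⟩])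
  have hEC : E ≤ C := fun x hx => hKC (memE.1 hx).1
  refine ⟨le_antisymm ?_ ((closure_le _).2 ?_), E, rfl, hVE, hEC, hEconj, hcard, ?_, ?_⟩
  · rintro x ⟨y, hy, rfl⟩
    exact PM.central y fun z => ((mem_center_iff.1 hy z).symm : y * z = z * y)
  · rintro x (rfl | rfl)
    · exact ⟨⟨x, hdK⟩, mem_center_iff.2 fun k => Subtype.ext (cent_pair_iff.1 k.2).1, rfl⟩
    · exact ⟨⟨x, heK⟩, mem_center_iff.2 fun k => Subtype.ext (cent_pair_iff.1 k.2).2, rfl⟩
  · intro x hx y hy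
    obtain ⟨h1, h1'⟩ := memE.1 hx
    obtain ⟨h2, h2'⟩ := memE.1 hy
    simpa using PM.ker_rel ⟨x, h1⟩ ⟨y, h2⟩ h1' h2'
  -- the action on `PSU(4, 2)`
  set θ : C → (P 4 F 2 →* P 4 F 2) := fun c => PM.ψ.liftOfSurjective PM.surj ⟨PM.ψ.comp (φ c), hkerφ c⟩
  have hθ : ∀ (c : C) (k : K), θ c (PM.ψ k) = PM.ψ (φ c k) := fun c k =>
    MonoidHom.liftOfRightInverse_comp_apply _ _ _ _ k
  have hθmul : ∀ (c c' : C) (y : P 4 F 2), θ (c * c') y = θ c (θ c' y) := by
    intro c c' y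
    obtain ⟨k, rfl⟩ := PM.surj y
    rw [hθ, hθ, hθ]
    exact congrArg PM.ψ (Subtype.ext (by simp [hφ, mul_assoc]))
  have hθone : ∀ y : P 4 F 2, θ 1 y = y := by
    intro y
    obtain ⟨k, rfl⟩ := PM.surj y
    rw [hθ]; exact congrArg PM.ψ (Subtype.ext (by simp [hφ]))
  set Θ : C →* MulAut (P 4 F 2) := MonoidHom.mk' (fun c =>
      MonoidHom.toMulEquiv (θ c) (θ c⁻¹)
        (MonoidHom.ext fun y => by rw [MonoidHom.comp_apply, ← hθmul, inv_mul_cancel, hθone]; rfl)
        (MonoidHom.ext fun y => by rw [MonoidHom.comp_apply, ← hθmul, mul_inv_cancel, hθone]; rfl))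
    (fun c c' => MulEquiv.ext fun y => hθmul c c' y)
  have hΘ : ∀ (c : C) (k : K), Θ c (PM.ψ k) = PM.ψ (φ c k) := hθ
  have hΘK : ∀ (k : K), Θ ⟨(k : G), hKC k.2⟩ = MulAut.conj (PM.ψ k) := by
    intro k
    refine MulEquiv.ext fun y => ?_
    obtain ⟨m, rfl⟩ := PM.surj y
    rw [hΘ, MulAut.conj_apply, ← map_inv, ← map_mul, ← map_mul]
    exact congrArg PM.ψ (Subtype.ext rfl)
  have hconj1 : ∀ z : P 4 F 2, MulAut.conj z = 1 → z = 1 := by
    intro z hz
    refine mem_bot.1 (hZ ▸ mem_center_iff.2 fun g => ?_)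
    have := DFunLike.congr_fun hz g
    rw [MulAut.conj_apply, MulAut.one_apply, mul_inv_eq_iff_eq_mul] at this
    exact this.symm
  obtain ⟨a, ha, hda, hea, -⟩ := exists_far_two M hd he.1 he.1
  set x := a * (d * e) * a with hx
  have sa := M.sq ha
  have hde : Commute d e := he.2.2
  have xd : x * d * x = e := swap_element (M.sq hd) (M.sq he.1) sa hde
    (braid_of_not_commute M.tr ha hd fun c => hda c.symm) (braid_of_not_commute M.tr ha he.1 fun c => hea c.symm)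
  have sx : x * x = 1 := by
    rw [hx]
    calc a * (d * e) * a * (a * (d * e) * a) = a * d * e * (a * a) * (d * e) * a := by simp only [mul_assoc]
      _ = a * d * (e * d) * e * a := by rw [sa, mul_one]; simp only [mul_assoc]
      _ = a * (d * d) * (e * e) * a := by rw [← hde.eq]; simp only [mul_assoc]
      _ = 1 := by rw [M.sq hd, M.sq he.1, mul_one, mul_one, sa]
  have xi : x⁻¹ = x := inv_eq_of_mul_eq_one_right sx
  have xe : x * e * x = d := by
    rw [← xd]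
    calc x * (x * d * x) * x = (x * x) * d * (x * x) := by simp only [mul_assoc]
      _ = d := by rw [sx, one_mul, mul_one]
  have hxC : x ∈ C := mem_centralizer_singleton_iff.2 (by
    calc x * (d * e) = (x * d * x) * (x * e * x) * x := by
          conv_rhs => rw [show x * d * x * (x * e * x) * x = x * d * (x * x) * e * (x * x) by simp only [mul_assoc],
            sx, mul_one, mul_one, mul_assoc]
      _ = d * e * x := by rw [xd, xe, ← hde.eq])
  have hker : Θ.ker = E.subgroupOf C := by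
    ext ⟨c, hc⟩
    rw [MonoidHom.mem_ker, mem_subgroupOf, memE]
    constructor
    · intro h1
      by_cases hcK : c ∈ K
      · exact ⟨hcK, hconj1 _ ((hΘK ⟨c, hcK⟩).symm.trans h1)⟩
      exfalso
      have hk : x * c ∈ K := by
        have e2 : c * d * c⁻¹ = e ∧ c * e * c⁻¹ = d := by
          rcases conj_mem_pair M hd he hc with h | h
          · exact absurd (cent_pair_iff.2 ⟨mul_inv_eq_iff_eq_mul.1 h.1, mul_inv_eq_iff_eq_mul.1 h.2⟩) hcK
          · exact h
        refine cent_pair_iff.2 ⟨mul_inv_eq_iff_eq_mul.1 ?_, mul_inv_eq_iff_eq_mul.1 ?_⟩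
        · rw [show x * c * d * (x * c)⁻¹ = x * (c * d * c⁻¹) * x⁻¹ by group, e2.1, xi, xe]
        · rw [show x * c * e * (x * c)⁻¹ = x * (c * e * c⁻¹) * x⁻¹ by group, e2.2, xi, xd]
      set κ := PM.ψ ⟨x * c, hk⟩
      have hX : Θ ⟨x, hxC⟩ = MulAut.conj κ := by
        rw [← hΘK ⟨x * c, hk⟩, show (⟨x * c, hKC hk⟩ : C) = ⟨x, hxC⟩ * ⟨c, hc⟩ from rfl, map_mul, h1, mul_one]
      have hκ : κ * κ = 1 := hconj1 _ (by
        rw [map_mul, ← hX, ← map_mul, show (⟨x, hxC⟩ : C) * ⟨x, hxC⟩ = 1 from Subtype.ext sx, map_one])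
      refine no_inner M hd he ha hda hea hx PM hκ fun k hk1 hk2 => ?_
      have := DFunLike.congr_fun hX (PM.ψ ⟨k, hk1⟩)
      rw [hΘ, MulAut.conj_apply] at this
      rw [← this]
      exact congrArg PM.ψ (Subtype.ext (by simp [hφ, xi]))
    · rintro ⟨hcK, h1⟩
      rw [show (⟨c, hc⟩ : C) = ⟨((⟨c, hcK⟩ : K) : G), hKC hcK⟩ from rfl, hΘK, h1, map_one]
  have hsurj : Function.Surjective Θ := by
    have h1 := Θ.ker.card_mul_index
    rw [Subgroup.index_ker, hker, Nat.card_congr (subgroupOfEquivOfLe hEC).toEquiv, hcard,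
      card_centralizer_two M hd he] at h1
    haveI : Fact (Nat.Prime 2) := ⟨Nat.prime_two⟩
    have h2 := Cfsg.Agent.Lib.AutPSU.card_aut hF (n := 4) (by norm_num) (by norm_num) (p := 2) (k := 1) le_rfl
      (by norm_num)
    change Nat.card (MulAut (P 4 F 2)) = _ * Nat.card (Cfsg.PSU 4 F 2) at h2
    rw [card_psu_four PM.card_F] at h2
    norm_num at h2
    refine MonoidHom.range_eq_top.1 (Subgroup.eq_top_of_card_eq _ ?_)
    omega
  refine ⟨hker ▸ (inferInstance : Θ.ker.Normal), F, fF, fT, PM.card_F, ?_⟩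
  haveI : (E.subgroupOf C).Normal := hker ▸ (inferInstance : Θ.ker.Normal)
  exact ⟨(QuotientGroup.quotientMulEquivOfEq hker.symm).trans (QuotientGroup.quotientKerEquivOfSurjective Θ hsurj)⟩

theorem pair_structure (M : Hyp D) {d e : G} (hd : d ∈ D) (he : e ∈ Nb D d) :
    (Subgroup.center ↥(centralizer ({d, e} : Set G))).map (centralizer ({d, e} : Set G)).subtype =
        closure ({d, e} : Set G) ∧
      ∃ E : Subgroup G, closure ({d, e} : Set G) ≤ E ∧ E ≤ centralizer ({d * e} : Set G) ∧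
        (∀ c ∈ centralizer ({d * e} : Set G), ∀ x ∈ E, c * x * c⁻¹ ∈ E) ∧ Nat.card E = 2 ^ 10 ∧
        (∀ x ∈ E, ∀ y ∈ E, x * y * x⁻¹ * y⁻¹ ∈ closure ({d, e} : Set G) ∧ x ^ 2 ∈ closure ({d, e} : Set G)) ∧
        ∃ (_ : (E.subgroupOf (centralizer ({d * e} : Set G))).Normal) (F : Type) (_ : Field F) (_ : Fintype F),
          Fintype.card F = 4 ∧
            Nonempty (↥(centralizer ({d * e} : Set G)) ⧸ E.subgroupOf (centralizer ({d * e} : Set G)) ≃*
              MulAut (Cfsg.PSU 4 F 2)) := by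
  obtain ⟨F, fF, fT, ⟨PM⟩⟩ := exists_pairMap M hd he
  obtain ⟨h1, E, -, h2⟩ := pairMap_structure M hd he PM
  exact ⟨h1, E, h2⟩

end Cfsg.Agent.Lib.Involution.FischerTwentyTwo
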