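import Cfsg.Agent.Lib.Involution.FischerSevenLinear
import Cfsg.Agent.Lib.Involution.FischerClasses
import Cfsg.Agent.S5463

/-! Type M(22): the centralizer and the fixed members of an element of order seven. -/

set_option autoImplicit false

namespace Cfsg.Agent.Lib.Involution.FischerSeven

open Matrix
open Cfsg Cfsg.Agent.Lib.AutPSU Cfsg.Agent.Lib.ThreeTransp Cfsg.Agent.Lib.Involution.UnitaryTransp
  Cfsg.Agent.Lib.Involution.FischerRel Cfsg.Agent.Lib.Involution.FischerLocal
  Cfsg.Agent.Lib.Involution.FischerTwentyTwo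

universe u

section image

variable {G : Type u} [Group G] {D : Set G} {d : G} (L : Link D d)

/-- The product of the transvections at the points of a list. -/
noncomputable def img (l : List G) : S 6 L.F 2 := (l.map fun a => T (card2 L.card_F) (L.pt a) 1).prod

theorem img_append (l l' : List G) : img L (l ++ l') = img L l * img L l' := by
  simp [img]

theorem img_reverse {l : List G} (hl : ∀ a ∈ l, a ∈ Nb D d) : img L l.reverse = (img L l)⁻¹ := by
  rw [img, img, List.prod_inv_reverse, List.map_reverse, List.map_map]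
  congr 1
  refine congrArg _ (List.map_congr_left fun a ha => ?_)
  exact (inv_eq_of_mul_eq_one_left (T_sq L.card_F (L.valid a (hl a ha)).2)).symm

theorem img_replicate (l : List G) (k : ℕ) : img L (List.replicate k l).flatten = img L l ^ k := by
  induction k with
  | zero => simp [img]
  | succ k ih => rw [List.replicate_succ, List.flatten_cons, img_append, ih, pow_succ']

theorem prod_replicate (l : List G) (k : ℕ) : (List.replicate k l).flatten.prod = l.prod ^ k := by
  induction k with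
  | zero => simp
  | succ k ih => rw [List.replicate_succ, List.flatten_cons, List.prod_append, ih, pow_succ']

theorem mem_replicate {l : List G} {k : ℕ} {a : G} (h : a ∈ (List.replicate k l).flatten) : a ∈ l := by
  obtain ⟨m, hm, ha⟩ := List.mem_flatten.1 h
  rw [List.eq_of_mem_replicate hm] at ha
  exact ha

theorem pr_img (l : List G) : pr (img L l) = (l.map fun a => τ L.card_F (L.pt a)).prod := by
  rw [img, map_list_prod, List.map_map]
  rfl

theorem img_scalar {l : List G} (hl : ∀ a ∈ l, a ∈ Nb D d) (h : ∀ e ∈ Nb D d, Commute l.prod e) :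
    ∃ c : L.F, c ≠ 0 ∧ ∀ v, mat (img L l) *ᵥ v = c • v := by
  have h1 := (L.prod l hl).2 h
  rw [← pr_img] at h1
  obtain ⟨c, hc⟩ := Cfsg.Agent.Lib.Classical.Herm.scalar_of_mem_center_SU (card2 L.card_F) (by norm_num : 1 ≤ 6) ((QuotientGroup.eq_one_iff _).1 h1)
  have hv : ∀ v, mat (img L l) *ᵥ v = c • v := fun v => by
    rw [show mat (img L l) = c • (1 : Matrix (Fin 6) (Fin 6) L.F) from hc, smul_mulVec, one_mulVec]
  refine ⟨c, fun e => ?_, hv⟩
  obtain ⟨v, hv0⟩ := exists_ne (0 : Fin 6 → L.F)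
  exact mulVec_ne_zero _ hv0 (by rw [hv, e, zero_smul])

theorem prod_of_scalar {l : List G} (hl : ∀ a ∈ l, a ∈ Nb D d) {c : L.F}
    (h : ∀ v, mat (img L l) *ᵥ v = c • v) : ∀ e ∈ Nb D d, Commute l.prod e := by
  refine (L.prod l hl).1 ?_
  rw [← pr_img]
  refine (QuotientGroup.eq_one_iff _).2 (Subgroup.mem_center_iff.2 fun s => vec_ext fun v => ?_)
  rw [mat_mul, mat_mul, ← mulVec_mulVec, ← mulVec_mulVec, h, h, mulVec_smul]

theorem img_of_prod_one {l : List G} (hl : ∀ a ∈ l, a ∈ Nb D d) (h : l.prod = 1) :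
    ∃ c : L.F, c ≠ 0 ∧ ∀ v, mat (img L l) *ᵥ v = c • v :=
  img_scalar L hl fun e _ => h ▸ Commute.one_left e

theorem pow_apply_scalar {s : S 6 L.F 2} {c : L.F} (h : ∀ v, mat s *ᵥ v = c • v) (k : ℕ) (v : Fin 6 → L.F) :
    mat (s ^ k) *ᵥ v = c ^ k • v := by
  induction k with
  | zero => rw [pow_zero, pow_zero, mat_one, one_mulVec, one_smul]
  | succ k ih => rw [pow_succ', pow_succ', mat_mul, ← mulVec_mulVec, ih, mulVec_smul, h, smul_smul, mul_comm]

end image

variable {G : Type u} [Group G] [Finite G] {D : Set G} (M : Hyp D)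
include M

theorem exists_word {d x : G} (hd : d ∈ D) (h : Commute x d) :
    ∃ l : List G, (∀ a ∈ l, a ∈ Nb D d) ∧ l.prod = x := by
  have hx : x ∈ LinkGroup D d := by
    rw [centralizer_eq_link M hd]
    exact Subgroup.mem_centralizer_singleton_iff.2 h.eq
  induction hx using Subgroup.closure_induction with
  | mem y hy => exact ⟨[y], by simpa using hy, by simp⟩
  | one => exact ⟨[], by simp, rfl⟩
  | mul y z hy hz ihy ihz =>
    have hyd : Commute y d := by
      have := (centralizer_eq_link M hd).le hy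
      exact Subgroup.mem_centralizer_singleton_iff.1 this
    have hzd : Commute z d := by
      have := (centralizer_eq_link M hd).le hz
      exact Subgroup.mem_centralizer_singleton_iff.1 this
    obtain ⟨l, h1, rfl⟩ := ihy hyd
    obtain ⟨l', h1', rfl⟩ := ihz hzd
    exact ⟨l ++ l', fun a ha => (List.mem_append.1 ha).elim (h1 a) (h1' a), List.prod_append⟩
  | inv y hy ihy =>
    have hyd : Commute y d := by
      have := (centralizer_eq_link M hd).le hy
      exact Subgroup.mem_centralizer_singleton_iff.1 this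
    obtain ⟨l, h1, rfl⟩ := ihy hyd
    refine ⟨l.reverse, fun a ha => h1 a (List.mem_reverse.1 ha), ?_⟩
    rw [List.prod_inv_reverse]
    conv_lhs => rw [← List.map_id l.reverse]
    rw [List.map_reverse]
    refine congrArg List.prod (congrArg List.reverse ?_)
    exact List.map_congr_left fun a ha => (ThreeTransp.inv_eq (M.tr.1 a (h1 a ha).1)).symm

/-- The members fixed by `x`. -/
abbrev Fix (D : Set G) (x : G) : Set G := {a | a ∈ D ∧ Commute x a}

omit M in
theorem period {x : G} (h7 : orderOf x = 7) {T : Finset G} (hT : T.card ≤ 6)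
    (hinv : ∀ a ∈ T, x * a * x⁻¹ ∈ T) {a : G} (ha : a ∈ T) : Commute x a := by
  classical
  have hmem : ∀ i : ℕ, x ^ i * a * (x ^ i)⁻¹ ∈ T := by
    intro i
    induction i with
    | zero => simpa using ha
    | succ i ih =>
      rw [pow_succ', _root_.mul_inv_rev,
        show x * x ^ i * a * ((x ^ i)⁻¹ * x⁻¹) = x * (x ^ i * a * (x ^ i)⁻¹) * x⁻¹ by group]
      exact hinv _ ih
  obtain ⟨i, j, hij, e⟩ := Fintype.exists_ne_map_eq_of_card_lt
    (fun i : Fin 7 => (⟨x ^ (i : ℕ) * a * (x ^ (i : ℕ))⁻¹, hmem i⟩ : ↥T))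
    (by rw [Fintype.card_coe, Fintype.card_fin]; omega)
  wlog hlt : (i : ℕ) < j generalizing i j
  · exact this j i hij.symm e.symm (by have := Fin.val_ne_of_ne hij; omega)
  have e' : x ^ (i : ℕ) * a * (x ^ (i : ℕ))⁻¹ = x ^ (j : ℕ) * a * (x ^ (j : ℕ))⁻¹ := congrArg Subtype.val e
  rw [show (j : ℕ) = i + ((j : ℕ) - i) by omega, pow_add] at e'
  set k := (j : ℕ) - i
  have hk : Commute (x ^ k) a := by
    refine mul_inv_eq_iff_eq_mul.1 (mul_left_cancel (a := x ^ (i : ℕ)) (mul_right_cancel
      (b := (x ^ (i : ℕ))⁻¹) ?_))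
    rw [_root_.mul_inv_rev] at e'
    calc x ^ (i : ℕ) * (x ^ k * a * (x ^ k)⁻¹) * (x ^ (i : ℕ))⁻¹
        = x ^ (i : ℕ) * x ^ k * a * ((x ^ k)⁻¹ * (x ^ (i : ℕ))⁻¹) := by group
      _ = _ := e'.symm
  have hco : (Nat.Coprime k 7) := by
    refine (Nat.Prime.coprime_iff_not_dvd (by norm_num)).2 ?_ |>.symm
    intro h
    have := Nat.le_of_dvd (by omega) h
    have := j.isLt
    omega
  obtain ⟨m, -, hm⟩ := Nat.exists_mul_mod_eq_one_of_coprime hco (by norm_num)
  have hpow : (x ^ k) ^ m = x := by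
    rw [← pow_mul, ← pow_mod_orderOf, h7, hm, pow_one]
  rw [← hpow]
  exact hk.pow_left m

theorem not_commuting_pair {d b x : G} (hd : d ∈ D) (hb : b ∈ Nb D d) (h7 : orderOf x = 7)
    (hxd : Commute x d) (hxb : Commute x b) : False := by
  classical
  haveI : Fact (Nat.Prime 7) := ⟨by norm_num⟩
  set S := Nb D d ∩ Nb D b with hS
  have hinv : ∀ a : ↥S, x * (a : G) * x⁻¹ ∈ S := by
    intro a
    have hd' : x * d * x⁻¹ = d := by rw [hxd.eq, mul_inv_cancel_right]
    have hb' : x * b * x⁻¹ = b := by rw [hxb.eq, mul_inv_cancel_right]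
    exact ⟨hd' ▸ nb_conj M.cl x a.2.1, hb' ▸ nb_conj M.cl x a.2.2⟩
  let f : Function.End ↥S := fun a => ⟨x * (a : G) * x⁻¹, hinv a⟩
  have hit : ∀ (m : ℕ) (a : ↥S), ((f ^ m) a : G) = x ^ m * a * (x ^ m)⁻¹ := by
    intro m
    induction m with
    | zero => intro a; show (a : G) = _; simp
    | succ m ih =>
      intro a
      rw [pow_succ', pow_succ', _root_.mul_inv_rev]
      show x * ((f ^ m) a : G) * x⁻¹ = _
      rw [ih]
      group
  have hf : f ^ 7 ^ 1 = 1 := funext fun a => Subtype.ext (by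
    rw [pow_one, hit, ← h7, pow_orderOf_eq_one]; show 1 * (a : G) * 1⁻¹ = a; simp)
  haveI := Fintype.ofFinite ↥S
  have h := Equiv.Perm.card_fixedPoints_modEq hf
  rw [← Nat.card_eq_fintype_card (α := ↥S), Nat.card_coe_set_eq, show S.ncard = 180 from card_nb_two M hd hb] at h
  obtain ⟨q, hq⟩ : Nonempty ↥(Function.fixedPoints f) := by
    rw [← not_isEmpty_iff]
    intro he
    rw [Fintype.card_eq_zero] at h
    exact absurd h (by decide)
  have hxq : Commute x (q : G) := mul_inv_eq_iff_eq_mul.1 (congrArg Subtype.val hq)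
  have hmem : x ∈ Subgroup.centralizer ({d * b * (q : G)} : Set G) :=
    Subgroup.mem_centralizer_singleton_iff.2 ((hxd.mul_right hxb).mul_right hxq).eq
  have hdvd := Subgroup.orderOf_dvd_natCard _ hmem
  rw [h7, card_centralizer_three M (isProd_three hd hb q.2)] at hdvd
  norm_num at hdvd

theorem nb_not_fixed {d b x : G} (hd : d ∈ D) (h7 : orderOf x = 7) (hxd : Commute x d) (hb : b ∈ Nb D d) :
    ¬ Commute x b := fun h => not_commuting_pair M hd hb h7 hxd h

theorem fix_noncomm {x a b : G} (h7 : orderOf x = 7) (ha : a ∈ Fix D x) (hb : b ∈ Fix D x) (hne : a ≠ b) :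
    ¬ Commute a b := fun h => not_commuting_pair M ha.1 ⟨hb.1, hne.symm, h⟩ h7 ha.2 hb.2

theorem involution_mem {x u : G} (h7 : orderOf x = 7) (hu : orderOf u = 2) (hc : Commute x u) : u ∈ Fix D x := by
  classical
  obtain ⟨P2, P3⟩ := Cfsg.Agent.S5463.pairs_triples M.grp M.prim M.type
  have hxu : x * u * x⁻¹ = u := by rw [hc.eq, mul_inv_cancel_right]
  have hconj : ∀ (m : ℕ) (l : List G),
      (l.Nodup ∧ l.length = m ∧ (∀ a ∈ l, a ∈ D) ∧ (∀ a ∈ l, ∀ b ∈ l, Commute a b) ∧ l.prod = u) →
      ((l.map fun a => x * a * x⁻¹).Nodup ∧ (l.map fun a => x * a * x⁻¹).length = m ∧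
        (∀ a ∈ l.map (fun a => x * a * x⁻¹), a ∈ D) ∧
        (∀ a ∈ l.map (fun a => x * a * x⁻¹), ∀ b ∈ l.map (fun a => x * a * x⁻¹), Commute a b) ∧
        (l.map fun a => x * a * x⁻¹).prod = u) := by
    rintro m l ⟨h1, h2, h3, h4, h5⟩
    refine ⟨h1.map fun a b e => by simpa using e, by simpa using h2, ?_, ?_, by rw [← conj_list_prod, h5, hxu]⟩
    · simp only [List.mem_map, forall_exists_index, and_imp, forall_apply_eq_imp_iff₂]
      exact fun a ha => M.cl x a (h3 a ha)
    · simp only [List.mem_map, forall_exists_index, and_imp, forall_apply_eq_imp_iff₂]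
      exact fun a ha b hb => (commute_conj_iff x a b).2 (h4 a ha b hb)
  obtain ⟨m, h1, h3, hm⟩ := involution_prod M hu
  interval_cases m
  · exact ⟨hm.one_elim, hc⟩
  · exfalso
    obtain ⟨a, b, ha, hb, rfl⟩ := hm.two_elim
    have hl : [a, b].Nodup ∧ [a, b].length = 2 ∧ (∀ c ∈ [a, b], c ∈ D) ∧
        (∀ c ∈ [a, b], ∀ e ∈ [a, b], Commute c e) ∧ [a, b].prod = a * b := by
      refine ⟨by simpa using hb.2.1.symm, rfl, by simp [ha, hb.1], ?_, by simp⟩
      simp only [List.mem_cons, List.not_mem_nil, or_false, forall_eq_or_imp, forall_eq]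
      exact ⟨⟨Commute.refl _, hb.2.2⟩, hb.2.2.symm, Commute.refl _⟩
    have hper : ∀ c ∈ [a, b], Commute x c := fun c hc' => period h7 (T := [a, b].toFinset)
      ((List.toFinset_card_le _).trans (by simp)) (fun e he => by
        rw [List.mem_toFinset] at he ⊢
        exact (P2 _ _ _ (hconj 2 _ hl) hl (x * e * x⁻¹)).1 (List.mem_map.2 ⟨e, he, rfl⟩)) (List.mem_toFinset.2 hc')
    exact not_commuting_pair M ha hb h7 (hper a (by simp)) (hper b (by simp))
  · exfalso
    obtain ⟨l₀, hl₀⟩ := hm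
    obtain ⟨l₁, l₂, h₁, h₂, -, hall⟩ := P3 _ l₀ hl₀
    have hT : (l₁.toFinset ∪ l₂.toFinset).card ≤ 6 := by
      refine (Finset.card_union_le _ _).trans ?_
      have := List.toFinset_card_le l₁
      have := List.toFinset_card_le l₂
      have := h₁.2.1
      have := h₂.2.1
      omega
    have hinv : ∀ e ∈ l₁.toFinset ∪ l₂.toFinset, x * e * x⁻¹ ∈ l₁.toFinset ∪ l₂.toFinset := by
      intro e he
      simp only [Finset.mem_union, List.mem_toFinset] at he ⊢
      rcases he with he | he
      · rcases hall _ (hconj 3 _ h₁) with h | h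
        · exact Or.inl ((h _).1 (List.mem_map.2 ⟨e, he, rfl⟩))
        · exact Or.inr ((h _).1 (List.mem_map.2 ⟨e, he, rfl⟩))
      · rcases hall _ (hconj 3 _ h₂) with h | h
        · exact Or.inl ((h _).1 (List.mem_map.2 ⟨e, he, rfl⟩))
        · exact Or.inr ((h _).1 (List.mem_map.2 ⟨e, he, rfl⟩))
    obtain ⟨a, b, c, rfl⟩ := List.length_eq_three.1 h₁.2.1
    have hn := h₁.1
    simp only [List.nodup_cons, List.mem_cons, List.not_mem_nil, or_false, not_or] at hn
    have hab : Commute a b := h₁.2.2.2.1 a (by simp) b (by simp)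
    exact not_commuting_pair M (h₁.2.2.1 a (by simp)) ⟨h₁.2.2.1 b (by simp), Ne.symm hn.1.1, hab⟩ h7
      (period h7 hT hinv (by simp)) (period h7 hT hinv (by simp))

theorem centralizer_cases' {d z : G} (hd : d ∈ D) (hzd : Commute z d) (hz : ∀ e ∈ Nb D d, Commute z e) :
    z = 1 ∨ z = d := by
  obtain ⟨b, hb⟩ : (Nb D d).Nonempty := Set.nonempty_of_ncard_ne_zero (by rw [card_nb M hd]; norm_num)
  exact centralizer_link M.grp M.prim M.type hd hb hzd hz

/-- An element of order three commutes with no member and element of order seven fixing it. -/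
theorem no_three {d x y : G} (hd : d ∈ D) (h7 : orderOf x = 7) (h3 : orderOf y = 3)
    (hxd : Commute x d) (hyd : Commute y d) (hxy : Commute x y) : False := by
  classical
  obtain ⟨lx, hlx, ex⟩ := exists_word M hd hxd
  obtain ⟨ly, hly, ey⟩ := exists_word M hd hyd
  set L := M.lk hd
  haveI := charTwo L.card_F
  set lg := (List.replicate 15 lx).flatten with hlg'
  have hlg : ∀ a ∈ lg, a ∈ Nb D d := fun a ha => hlx a (mem_replicate ha)
  have eg : lg.prod = x := by
    rw [hlg', prod_replicate, ex, ← pow_mod_orderOf, h7, show 15 % 7 = 1 from rfl, pow_one]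
  set g := img L lg with hg
  set h := img L ly with hh
  obtain ⟨c₀, hc₀, hx0⟩ := img_of_prod_one L (l := (List.replicate 7 lx).flatten)
    (fun a ha => hlx a (mem_replicate ha)) (by rw [prod_replicate, ex, ← h7, pow_orderOf_eq_one])
  have hg7 : ∀ v, ((mat g).mulVecLin ^ 7) v = v := by
    intro v
    have e : mat (g ^ 7) *ᵥ v = v := by
      rw [hg, hlg', img_replicate, ← pow_mul, show 15 * 7 = 7 * 15 from rfl, pow_mul, ← img_replicate,
        pow_apply_scalar L hx0, show c₀ ^ 15 = (c₀ ^ 3) ^ 5 from by rw [← pow_mul],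
        UnitaryTransp.pow_three L.card_F hc₀, one_pow, one_smul]
    have key : ∀ (k : ℕ) (w : Fin 6 → L.F), ((mat g).mulVecLin ^ k) w = mat (g ^ k) *ᵥ w := by
      intro k
      induction k with
      | zero => intro w; rw [pow_zero, pow_zero, mat_one, one_mulVec]; rfl
      | succ k ih =>
        intro w
        rw [pow_succ', pow_succ', mat_mul, ← mulVec_mulVec, ← ih]
        rfl
    rw [key, e]
  have hfix : ∀ v, Valid 2 v → mat g *ᵥ v ≠ v := by
    intro v hv e
    obtain ⟨b, hb, s, hs, rfl⟩ := L.surj v hv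
    rw [mulVec_smul] at e
    have e' : mat g *ᵥ L.pt b = L.pt b := smul_right_injective _ hs e
    set w := lg ++ [b] ++ lg.reverse ++ [b] with hw
    have hwm : ∀ a ∈ w, a ∈ Nb D d := by
      intro a ha
      simp only [hw, List.mem_append, List.mem_reverse, List.mem_singleton] at ha
      rcases ha with ((ha | rfl) | ha) | rfl
      exacts [hlg a ha, hb, hlg a ha, hb]
    have hI : img L w = 1 := by
      rw [hw, img_append, img_append, img_append, img_reverse L hlg, ← hg,
        show img L [b] = T (card2 L.card_F) (L.pt b) 1 by simp [img],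
        T_conj (card2 L.card_F) (L.valid b hb).2 (skew_one L.card_F), e', T_sq L.card_F (L.valid b hb).2]
    have hcw := prod_of_scalar L hwm (c := 1) fun v => by rw [hI, mat_one, one_mulVec, one_smul]
    have hrev : lg.reverse.prod = x⁻¹ := by
      rw [← eg, List.prod_inv_reverse]
      conv_lhs => rw [← List.map_id lg.reverse]
      rw [List.map_reverse]
      exact congrArg List.prod (congrArg List.reverse
        (List.map_congr_left fun a ha => (ThreeTransp.inv_eq (M.tr.1 a (hlg a ha).1)).symm))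
    have hwp : w.prod = x * b * x⁻¹ * b := by
      simp [hw, eg, hrev, mul_assoc]
    have hwd : Commute w.prod d := by
      rw [hwp]
      exact ((hxd.mul_left hb.2.2.symm).mul_left hxd.inv_left).mul_left hb.2.2.symm
    have hbb := M.sq hb.1
    have hfx : Commute x b := by
      rcases centralizer_cases' M hd hwd hcw with h1 | h1 <;> rw [hwp] at h1
      · exact mul_inv_eq_iff_eq_mul.1 (mul_right_cancel (b := b) (by rw [h1, hbb]))
      · have h2 : x * b * x⁻¹ = d * b := mul_right_cancel (b := b) (by rw [h1, mul_assoc, hbb, mul_one])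
        have h4 : Commute (x ^ 2) b := by
          refine mul_inv_eq_iff_eq_mul.1 ?_
          calc x ^ 2 * b * (x ^ 2)⁻¹ = x * (x * b * x⁻¹) * x⁻¹ := by rw [pow_two]; group
            _ = x * (d * b) * x⁻¹ := by rw [h2]
            _ = (x * d * x⁻¹) * (x * b * x⁻¹) := by group
            _ = b := by rw [h2, hxd.eq, mul_inv_cancel_right, ← mul_assoc, M.sq hd, one_mul]
        have := h4.pow_left 4
        rwa [← pow_mul, ← pow_mod_orderOf, h7, show 2 * 4 % 7 = 1 from rfl, pow_one] at this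
    exact nb_not_fixed M hd h7 hxd hb hfx
  obtain ⟨ω, hω0, hω⟩ := img_of_prod_one L (l := (List.replicate 3 ly).flatten)
    (fun a ha => hly a (mem_replicate ha)) (by rw [prod_replicate, ey, ← h3, pow_orderOf_eq_one])
  rw [img_replicate, ← hh] at hω
  have hω' : ∀ v, mat h *ᵥ (mat h *ᵥ (mat h *ᵥ v)) = ω • v := fun v => by
    rw [← hω, mulVec_mulVec, mulVec_mulVec, ← mat_mul, ← mat_mul, show h * h * h = h ^ 3 from (pow_three' h).symm]
  obtain ⟨c, hc0, hc⟩ := img_of_prod_one L (l := lg ++ ly ++ lg.reverse ++ ly.reverse) (fun a ha => by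
      simp only [List.mem_append, List.mem_reverse] at ha
      rcases ha with ((ha | ha) | ha) | ha
      exacts [hlg a ha, hly a ha, hlg a ha, hly a ha]) (by
    have hr : ∀ l : List G, (∀ a ∈ l, a ∈ Nb D d) → l.reverse.prod = l.prod⁻¹ := fun l hl => by
      rw [List.prod_inv_reverse]
      conv_lhs => rw [← List.map_id l.reverse]
      rw [List.map_reverse]
      exact congrArg List.prod (congrArg List.reverse
        (List.map_congr_left fun a ha => (ThreeTransp.inv_eq (M.tr.1 a (hl a ha).1)).symm))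
    rw [List.prod_append, List.prod_append, List.prod_append, hr _ hlg, hr _ hly, eg, ey, hxy.eq]
    group)
  rw [img_append, img_append, img_append, img_reverse L hlg, img_reverse L hly, ← hg, ← hh] at hc
  have hcom : ∀ v, mat g *ᵥ (mat h *ᵥ v) = c • (mat h *ᵥ (mat g *ᵥ v)) := fun v => by
    have := hc (mat (h * g) *ᵥ v)
    rw [mulVec_mulVec, ← mat_mul, show g * h * g⁻¹ * h⁻¹ * (h * g) = g * h by group, mat_mul, mat_mul,
      ← mulVec_mulVec, ← mulVec_mulVec] at this
    exact this
  have hc1 : c = 1 := by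
    have key : ∀ (k : ℕ) (v : Fin 6 → L.F),
        ((mat g).mulVecLin ^ k) (mat h *ᵥ v) = c ^ k • (mat h *ᵥ ((mat g).mulVecLin ^ k) v) := by
      intro k
      induction k with
      | zero => intro v; simp
      | succ k ih =>
        intro v
        rw [pow_succ' ((mat g).mulVecLin), Module.End.mul_apply, Module.End.mul_apply, ih, map_smul,
          mulVecLin_apply, mulVecLin_apply, hcom, smul_smul, pow_succ]
    obtain ⟨v, hv⟩ := exists_ne (0 : Fin 6 → L.F)
    have e := key 7 v
    rw [hg7, hg7] at e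
    have h7' : c ^ 7 = 1 := by
      by_contra hne
      have : (1 - c ^ 7) • (mat h *ᵥ v) = 0 := by rw [sub_smul, one_smul, ← e, sub_self]
      exact mulVec_ne_zero h hv ((smul_eq_zero.1 this).resolve_left (sub_ne_zero.2 (Ne.symm hne)))
    have h3' := UnitaryTransp.pow_three L.card_F hc0
    linear_combination h7' - (c ^ 4 + c) * h3'
  have hgh : g * h = h * g := vec_ext fun v => by
    rw [mat_mul, mat_mul, ← mulVec_mulVec, ← mulVec_mulVec, hcom, hc1, one_smul]
  obtain ⟨e, he⟩ := scalar_of_commute L.card_F g hg7 hfix h hgh hω'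
  rcases centralizer_cases' M hd hyd (ey ▸ prod_of_scalar L hly he) with h1 | h1
  · rw [h1, orderOf_one] at h3; omega
  · rw [h1, M.tr.1 d hd] at h3; omega

theorem fix_card_mod {x : G} (h7 : orderOf x = 7) : (Fix D x).ncard % 7 = 3 := by
  classical
  haveI : Fact (Nat.Prime 7) := ⟨by norm_num⟩
  let f : Function.End ↥D := fun a => ⟨x * (a : G) * x⁻¹, M.cl x a a.2⟩
  have hit : ∀ (m : ℕ) (a : ↥D), ((f ^ m) a : G) = x ^ m * a * (x ^ m)⁻¹ := by
    intro m
    induction m with
    | zero => intro a; show (a : G) = _; simp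
    | succ m ih =>
      intro a
      rw [pow_succ', pow_succ', _root_.mul_inv_rev]
      show x * ((f ^ m) a : G) * x⁻¹ = _
      rw [ih]
      group
  have hf : f ^ 7 ^ 1 = 1 := funext fun a => Subtype.ext (by
    rw [pow_one, hit, ← h7, pow_orderOf_eq_one]; show 1 * (a : G) * 1⁻¹ = a; simp)
  haveI := Fintype.ofFinite ↥D
  have h := Equiv.Perm.card_fixedPoints_modEq hf
  obtain ⟨-, ⟨d, hd, -⟩, -⟩ := M.prim
  rw [← Nat.card_eq_fintype_card, Nat.card_coe_set_eq, card_members M hd, ← Nat.card_eq_fintype_card] at h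
  have e : Nat.card ↥(Function.fixedPoints f) = (Fix D x).ncard := by
    rw [← Nat.card_coe_set_eq]
    exact Nat.card_congr
      { toFun := fun a => ⟨a.1.1, a.1.2, mul_inv_eq_iff_eq_mul.1 (congrArg Subtype.val a.2)⟩
        invFun := fun a => ⟨⟨a.1, a.2.1⟩, Subtype.ext (show x * a.1 * x⁻¹ = a.1 by
          rw [a.2.2.eq, mul_inv_cancel_right])⟩
        left_inv := fun _ => rfl
        right_inv := fun _ => rfl }
  rw [e] at h
  exact h.symm

/-- Three fixed members form a line. -/
theorem third_of_fixed {d a b x : G} (h7 : orderOf x = 7) (hd : d ∈ Fix D x) (ha : a ∈ Fix D x) (hb : b ∈ Fix D x)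
    (hda : d ≠ a) (hdb : d ≠ b) (hab : a ≠ b) : b = th d a := by
  classical
  by_contra hne
  have cda := fix_noncomm M h7 hd ha hda
  have cdb := fix_noncomm M h7 hd hb hdb
  have cab := fix_noncomm M h7 ha hb hab
  have hth : ∀ u v : G, u ∈ Fix D x → v ∈ Fix D x → th u v ∈ Fix D x := fun u v hu hv =>
    ⟨M.cl u v hv.1, (hu.2.mul_right hv.2).mul_right hu.2.inv_right⟩
  have heb : ¬ Commute (th d a) b := fix_noncomm M h7 (hth d a hd ha) hb (Ne.symm hne)
  have hu := affine_mem M hd.1 ha.1 hb.1 cda cdb cab heb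
  rw [centralizer_eq_link M hd.1] at hu
  set u := th d b * th a b * th d a with hudef
  have hud : Commute u d := Subgroup.mem_centralizer_singleton_iff.1 hu
  have hux : Commute x u := ((hth d b hd hb).2.mul_right (hth a b ha hb).2).mul_right (hth d a hd ha).2
  have hk : ¬ 3 ∣ orderOf u := fun h3 => by
    refine no_three M hd.1 h7 (y := u ^ (orderOf u / 3)) ?_ hd.2 (hud.pow_left _) (hux.pow_right _)
    rw [orderOf_pow_of_dvd (by have := orderOf_pos u; omega) (Nat.div_dvd_of_dvd h3),
      Nat.div_div_self h3 (orderOf_pos u).ne']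
  set k := orderOf u with hk'
  obtain ⟨f, ⟨hfd, hfa⟩, hfb⟩ := affine_common M hd.1 ha.1 hb.1 cda cdb cab heb
  have hdf : d ∈ Nb D f := nb_symm hd.1 hfd
  have haf : a ∈ Nb D f := nb_symm ha.1 hfa
  have hbf : b ∈ Nb D f := nb_symm hb.1 hfb
  set L := M.lk hfd.1 with hL
  haveI := charTwo L.card_F
  have hF := card2 L.card_F
  have h1 : hm 2 (L.pt a) (L.pt d) ≠ 0 := fun e => cda ((L.orth haf hdf).1 e).symm
  have h2 : hm 2 (L.pt b) (L.pt d) ≠ 0 := fun e => cdb ((L.orth hbf hdf).1 e).symm
  set p := L.pt d with hp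
  set s := (hm 2 (L.pt a) p)⁻¹ with hs
  set t := (hm 2 (L.pt b) p)⁻¹ with ht
  set q := s • L.pt a with hq
  set r := t • L.pt b with hr
  have hqp : hm 2 q p = 1 := by rw [hq, hm_smul_left', hs, inv_mul_cancel₀ h1]
  have hrp : hm 2 r p = 1 := by rw [hr, hm_smul_left', ht, inv_mul_cancel₀ h2]
  set γ := hm 2 q r with hγdef
  have hγ0 : γ ≠ 0 := by
    rw [hγdef, hq, hr, hm_smul_left', hm_smul_right]
    exact mul_ne_zero (inv_ne_zero h1) (mul_ne_zero (pow_ne_zero _ (inv_ne_zero h2))
      fun e => cab ((L.orth haf hbf).1 e))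
  have hs0 : s ≠ 0 := inv_ne_zero h1
  have ht0 : t ≠ 0 := inv_ne_zero h2
  have hpq : hm 2 p q = 1 := by rw [hm_swap hF, hqp, one_pow]
  have hpr : hm 2 p r = 1 := by rw [hm_swap hF, hrp, one_pow]
  obtain ⟨hem, re, hre, eE⟩ := pt_third M hfd.1 hdf haf cda one_ne_zero hs0 (one_smul _ p).symm hq hpq
  obtain ⟨hem', re', hre', eE'⟩ := pt_third M hfd.1 hdf hbf cdb one_ne_zero ht0 (one_smul _ p).symm hr hpr
  have hγ1 : γ ≠ 1 := by
    intro e
    refine heb ((L.orth hem hbf).1 ?_)
    have h0 : hm 2 (p + q) r = 0 := by rw [hm_add_left, hpr, ← hγdef, e, add_self L.card_F]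
    rw [eE, hm_smul_left']
    rw [hr, hm_smul_right, mul_eq_zero] at h0
    rw [h0.resolve_left (pow_ne_zero _ ht0), mul_zero]
  have hγ3 := UnitaryTransp.pow_three L.card_F hγ0
  have hqr' : hm 2 (γ ^ 2 • q) r = 1 := by rw [hm_smul_left', ← hγdef, ← pow_succ, hγ3]
  obtain ⟨hgm, rg, hrg, eG⟩ := pt_third M hfd.1 haf hbf cab (mul_ne_zero (pow_ne_zero 2 hγ0) hs0) ht0
    (show γ ^ 2 • q = (γ ^ 2 * s) • L.pt a by rw [hq, smul_smul]) hr hqr'
  have pp : hm 2 p p = 0 := (L.valid d hdf).2
  have qq : hm 2 q q = 0 := by simp [hq, hm_smul_left', hm_smul_right, (L.valid a haf).2]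
  have rr : hm 2 r r = 0 := by simp [hr, hm_smul_left', hm_smul_right, (L.valid b hbf).2]
  have hrq : hm 2 r q = γ ^ 2 := by rw [hm_swap hF]
  -- transvections at the three third points
  have hT : ∀ {m : G} {c : L.F} {v : Fin 6 → L.F}, m ∈ Nb D f → c ≠ 0 → L.pt m = c • v →
      ∀ z, mat (T hF (L.pt m) 1) *ᵥ z = z + hm 2 z v • v := fun {m c v} hm' hc e z => by
    rw [T_apply L.card_F (L.valid m hm').2, e, hm_smul_right, smul_smul,
      show c ^ 2 * hm 2 z v * c = c ^ 3 * hm 2 z v by ring, UnitaryTransp.pow_three L.card_F hc, one_mul]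
  set w := [th d b, th a b, th d a] with hwdef
  have hwm : ∀ m ∈ w, m ∈ Nb D f := by
    simp only [hwdef, List.mem_cons, List.not_mem_nil, or_false, forall_eq_or_imp, forall_eq]
    exact ⟨hem', hgm, hem⟩
  have hM : ∀ z, mat (img L w) *ᵥ z = mat (T hF (L.pt (th d b)) 1) *ᵥ (mat (T hF (L.pt (th a b)) 1) *ᵥ
      (mat (T hF (L.pt (th d a)) 1) *ᵥ z)) := fun z => by
    simp [img, hwdef, mat_mul, mulVec_mulVec, mul_assoc]
  have h2' : (2 : L.F) = 0 := CharTwo.two_eq_zero
  have hMp : mat (img L w) *ᵥ p = γ • p := by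
    rw [hM, hT (show th d a ∈ Nb D f from hem) hre eE, hm_add_right hF, pp, hpq, zero_add, one_smul,
      ← add_assoc, vec_add_self L.card_F, zero_add,
      hT (show th a b ∈ Nb D f from hgm) hrg eG, hm_add_right hF, hm_smul_right, qq, mul_zero, zero_add, ← hγdef,
      smul_add, smul_smul, show γ * γ ^ 2 = 1 by rw [← pow_succ', hγ3], one_smul, ← add_assoc,
      vec_add_self L.card_F, zero_add,
      hT (show th d b ∈ Nb D f from hem') hre' eE', hm_smul_left', hm_add_right hF, hrp, rr, add_zero, mul_one,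
      smul_add, add_left_comm, vec_add_self L.card_F, add_zero]
  obtain ⟨z, hz0, hzp, hzq, hzr⟩ : ∃ z, z ≠ 0 ∧ hm 2 z p = 0 ∧ hm 2 z q = 0 ∧ hm 2 z r = 0 := by
    set U := Submodule.span L.F (Set.range ![p, q, r])
    have h3 : Module.finrank L.F U ≤ 3 := (finrank_range_le_card _).trans (by simp)
    have h6 := (Cfsg.Agent.Lib.Forms.hermData hF 6).finrank_perp'_eq U
    rw [Module.finrank_fintype_fun_eq_card, Fintype.card_fin] at h6
    obtain ⟨z, hz, hz0⟩ := Submodule.exists_mem_ne_zero_of_ne_bot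
      (p := (Cfsg.Agent.Lib.Forms.hermData hF 6).perp' U) (by
        intro e; rw [e, finrank_bot] at h6; omega)
    exact ⟨z, hz0, hz p (Submodule.subset_span ⟨0, rfl⟩), hz q (Submodule.subset_span ⟨1, rfl⟩),
      hz r (Submodule.subset_span ⟨2, rfl⟩)⟩
  have hMz : mat (img L w) *ᵥ z = z := by
    have e1 : hm 2 z (p + q) = 0 := by rw [hm_add_right hF, hzp, hzq, add_zero]
    have e2 : hm 2 z (γ ^ 2 • q + r) = 0 := by rw [hm_add_right hF, hm_smul_right, hzq, hzr, mul_zero, add_zero]
    have e3 : hm 2 z (p + r) = 0 := by rw [hm_add_right hF, hzp, hzr, add_zero]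
    rw [hM, hT (show th d a ∈ Nb D f from hem) hre eE, e1, zero_smul, add_zero,
      hT (show th a b ∈ Nb D f from hgm) hrg eG, e2, zero_smul, add_zero,
      hT (show th d b ∈ Nb D f from hem') hre' eE', e3, zero_smul, add_zero]
  obtain ⟨c, hc0, hc⟩ := img_of_prod_one L (l := (List.replicate k w).flatten)
    (fun m hm' => hwm m (mem_replicate hm')) (by
      rw [prod_replicate, hwdef]
      simp only [List.prod_cons, List.prod_nil, mul_one]
      rw [← mul_assoc, ← hudef, hk', pow_orderOf_eq_one])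
  rw [img_replicate] at hc
  have hpow : ∀ (v : Fin 6 → L.F) (e : L.F), mat (img L w) *ᵥ v = e • v → ∀ n : ℕ, mat (img L w ^ n) *ᵥ v = e ^ n • v := by
    intro v e he n
    induction n with
    | zero => rw [pow_zero, pow_zero, mat_one, one_mulVec, one_smul]
    | succ n ih => rw [pow_succ', pow_succ', mat_mul, ← mulVec_mulVec, ih, mulVec_smul, he, smul_smul, mul_comm]
  have hcz : c = 1 := by
    have := hpow z 1 (by rw [one_smul, hMz]) k
    rw [one_pow, one_smul, hc] at this
    exact smul_left_injective L.F hz0 (this.trans (one_smul _ z).symm)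
  have hγk : γ ^ k = 1 := by
    have := hpow p γ hMp k
    rw [hc, hcz] at this
    exact (smul_left_injective L.F (L.valid d hdf).1 this).symm
  rw [← pow_mod_orderOf] at hγk
  have hord : orderOf γ = 3 := orderOf_eq_prime hγ3 hγ1
  rw [hord] at hγk
  have h30 : k % 3 = 0 := by
    by_contra hne
    have : k % 3 = 1 ∨ k % 3 = 2 := by omega
    rcases this with e | e <;> rw [e] at hγk
    · exact hγ1 (by simpa using hγk)
    · exact hγ1 (by linear_combination hγ3 - γ * hγk)
  exact hk (Nat.dvd_of_mod_eq_zero h30)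

end Cfsg.Agent.Lib.Involution.FischerSeven
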