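import Cfsg.Agent.Lib.Involution.UnitaryTransp
import Cfsg.Agent.Lib.Forms.UnitaryTI
import Mathlib.LinearAlgebra.Determinant
import Mathlib.LinearAlgebra.FreeModule.Finite.CardQuotient
import Mathlib.FieldTheory.Finite.Basic

/-! In six-dimensional unitary space over four elements an element of order seven without a fixed isotropic point
commutes with no non-scalar element whose cube is scalar. -/

set_option autoImplicit false

namespace Cfsg.Agent.Lib.Involution.FischerSeven

open Matrix Cfsg Cfsg.Agent.Lib.AutPSU Cfsg.Agent.Lib.Forms Cfsg.Agent.Lib.Classical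
  Cfsg.Agent.Lib.Involution.UnitaryTransp

universe u

variable {F : Type u} [Field F] [Fintype F] (hF4 : Fintype.card F = 4)

/-- Three iterates are independent when the cube is a scalar that is not a cube. -/
theorem triple_indep {V : Type*} [AddCommGroup V] [Module F V] (hF4 : Fintype.card F = 4) (k : V →ₗ[F] V)
    {ω : F} (hω0 : ω ≠ 0) (hω1 : ω ≠ 1) (hk : ∀ v, k (k (k v)) = ω • v) {v : V} (hv : v ≠ 0)
    {a b c : F} (h : a • v + b • k v + c • k (k v) = 0) : a = 0 ∧ b = 0 ∧ c = 0 := by
  haveI := charTwo hF4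
  have heig : ∀ s : F, k v ≠ s • v := fun s e => by
    have h3 : (s * (s * s)) • v = ω • v := by
      rw [← hk v, e, map_smul, e, map_smul, map_smul, e]
      simp [smul_smul]
    have e3 : s * (s * s) = ω := by
      by_contra hne
      exact hv ((smul_eq_zero.1 (show (s * (s * s) - ω) • v = 0 by rw [sub_smul, h3, sub_self])).resolve_left
        (sub_ne_zero.2 hne))
    rcases eq_or_ne s 0 with rfl | hs
    · exact hω0 (by rw [← e3, zero_mul])
    · exact hω1 (by rw [← e3, ← _root_.pow_three, UnitaryTransp.pow_three hF4 hs])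
  have hpair : ∀ a b : F, a • v + b • k v = 0 → a = 0 ∧ b = 0 := fun a b e => by
    rcases eq_or_ne b 0 with rfl | hb
    · rw [zero_smul, add_zero] at e
      exact ⟨(smul_eq_zero.1 e).resolve_right hv, rfl⟩
    · refine absurd ?_ (heig (-(b⁻¹ * a)))
      have e' : b • k v = -(a • v) := eq_neg_of_add_eq_zero_right e
      calc k v = b⁻¹ • (b • k v) := by rw [smul_smul, inv_mul_cancel₀ hb, one_smul]
        _ = -(b⁻¹ * a) • v := by rw [e', smul_neg, smul_smul, neg_smul]
  rcases eq_or_ne c 0 with rfl | hc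
  · rw [zero_smul, add_zero] at h
    exact ⟨(hpair a b h).1, (hpair a b h).2, rfl⟩
  exfalso
  have hkk : k (k v) = (-(c⁻¹ * a)) • v + (-(c⁻¹ * b)) • k v := by
    have h' : c • k (k v) = -(a • v + b • k v) := eq_neg_of_add_eq_zero_right h
    calc k (k v) = c⁻¹ • (c • k (k v)) := by rw [smul_smul, inv_mul_cancel₀ hc, one_smul]
      _ = _ := by rw [h', smul_neg, smul_add, smul_smul, smul_smul, neg_add, neg_smul, neg_smul]
  set p := -(c⁻¹ * a)
  set r := -(c⁻¹ * b)
  have h3 : (r * p - ω) • v + (p + r * r) • k v = 0 := by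
    have e := hk v
    rw [hkk, map_add, map_smul, map_smul, hkk, smul_add, smul_smul, smul_smul] at e
    rw [sub_smul, add_smul, ← e]
    abel
  obtain ⟨e1, e2⟩ := hpair _ _ h3
  have hp : p = r * r := by
    rw [← sub_eq_zero, CharTwo.sub_eq_add]; exact e2
  rw [sub_eq_zero, hp] at e1
  rcases eq_or_ne r 0 with hr | hr
  · exact hω0 (by rw [← e1, hr, zero_mul])
  · exact hω1 (by rw [← e1, ← _root_.pow_three, UnitaryTransp.pow_three hF4 hr])

include hF4 in
/-- The cube scalar of an element of determinant one is one. -/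
theorem cube_scalar_eq_one (h : S 6 F 2) {ω : F} (hω : ∀ v, mat h *ᵥ (mat h *ᵥ (mat h *ᵥ v)) = ω • v) : ω = 1 := by
  classical
  haveI := charTwo hF4
  set k := (mat h).mulVecLin with hk
  have hk3 : ∀ v, k (k (k v)) = ω • v := fun v => by simp only [hk, mulVecLin_apply]; exact hω v
  have hω0 : ω ≠ 0 := fun e => by
    have hv : (Pi.single 0 1 : Fin 6 → F) ≠ 0 := fun e' => by simpa using congrFun e' 0
    exact mulVec_ne_zero h (mulVec_ne_zero h (mulVec_ne_zero h hv)) (by rw [hω, e, zero_smul])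
  by_contra hω1
  obtain ⟨v, hv⟩ := exists_ne (0 : Fin 6 → F)
  set W := Submodule.span F (Set.range ![v, k v, k (k v)]) with hW
  have hkW : W ≤ W.comap k := by
    rw [hW, Submodule.span_le]
    rintro _ ⟨i, rfl⟩
    rw [SetLike.mem_coe, Submodule.mem_comap]
    fin_cases i
    · exact Submodule.subset_span ⟨1, rfl⟩
    · exact Submodule.subset_span ⟨2, rfl⟩
    · show k (k (k v)) ∈ _
      rw [hk3]
      exact Submodule.smul_mem _ _ (Submodule.subset_span ⟨0, rfl⟩)
  obtain ⟨w, hw⟩ : ∃ w, w ∉ W := by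
    by_contra hno
    push Not at hno
    have h3 : Module.finrank F W ≤ 3 := (finrank_range_le_card _).trans (by simp)
    have h6 : W = ⊤ := eq_top_iff.2 fun x _ => hno x
    rw [h6, finrank_top, Module.finrank_fintype_fun_eq_card, Fintype.card_fin] at h3
    omega
  have hLI : LinearIndependent F ![v, k v, k (k v), w, k w, k (k w)] := by
    refine Fintype.linearIndependent_iff.2 fun f hf => ?_
    simp only [Fin.sum_univ_six] at hf
    simp only [Matrix.cons_val] at hf
    have hq : (W.mapQ W k hkW) ((W.mapQ W k hkW) ((W.mapQ W k hkW) (Submodule.Quotient.mk w))) =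
        ω • Submodule.Quotient.mk w := by
      simp only [Submodule.mapQ_apply, hk3, Submodule.Quotient.mk_smul]
    have hq' : ∀ x, (W.mapQ W k hkW) ((W.mapQ W k hkW) ((W.mapQ W k hkW) x)) = ω • x := fun x => by
      obtain ⟨x, rfl⟩ := Submodule.Quotient.mk_surjective W x
      simp only [Submodule.mapQ_apply, hk3, Submodule.Quotient.mk_smul]
    have hmem : f 3 • w + f 4 • k w + f 5 • k (k w) ∈ W := by
      have : f 3 • w + f 4 • k w + f 5 • k (k w) = -(f 0 • v + f 1 • k v + f 2 • k (k v)) :=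
        eq_neg_of_add_eq_zero_left (by rw [← hf]; abel)
      rw [this]
      refine neg_mem (add_mem (add_mem ?_ ?_) ?_) <;> refine Submodule.smul_mem _ _ (Submodule.subset_span ?_)
      exacts [⟨0, rfl⟩, ⟨1, rfl⟩, ⟨2, rfl⟩]
    obtain ⟨e3, e4, e5⟩ := triple_indep hF4 (W.mapQ W k hkW) hω0 hω1 hq'
      (v := Submodule.Quotient.mk w) (fun e => hw ((Submodule.Quotient.mk_eq_zero W).1 e)) (by
        simp only [Submodule.mapQ_apply, ← Submodule.Quotient.mk_smul, ← Submodule.Quotient.mk_add]
        exact (Submodule.Quotient.mk_eq_zero W).2 hmem)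
    obtain ⟨e0, e1, e2⟩ := triple_indep hF4 k hω0 hω1 hk3 (a := f 0) (b := f 1) (c := f 2) hv (by
      rw [e3, e4, e5] at hf
      simpa using hf)
    intro i
    fin_cases i <;> assumption
  let bb := basisOfLinearIndependentOfCardEqFinrank hLI (by simp [Module.finrank_fintype_fun_eq_card])
  have hbb : ⇑bb = ![v, k v, k (k v), w, k w, k (k w)] := coe_basisOfLinearIndependentOfCardEqFinrank _ _
  let σ : Equiv.Perm (Fin 6) := Equiv.swap 0 1 * Equiv.swap 1 2 * (Equiv.swap 3 4 * Equiv.swap 4 5)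
  have hcomp : (fun i => k (bb i)) = fun i => (![1, 1, ω, 1, 1, ω] i) • bb (σ i) := by
    funext i
    rw [hbb]
    fin_cases i <;> simp [σ, Equiv.swap_apply_def, hk3]
  have h1 := Module.Basis.det_comp bb k ⇑bb
  rw [Module.Basis.det_self, mul_one] at h1
  have h2 : LinearMap.det k = 1 := by
    rw [hk, ← Matrix.toLin'_apply', LinearMap.det_toLin']
    exact (h : Matrix.SpecialLinearGroup (Fin 6) F).2
  rw [h2, show (⇑k ∘ ⇑bb) = fun i => k (bb i) from rfl, hcomp,
    AlternatingMap.map_smul_univ, show (fun i => bb (σ i)) = ⇑bb ∘ ⇑σ from rfl, AlternatingMap.map_perm,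
    Module.Basis.det_self] at h1
  have hsign : Equiv.Perm.sign σ = 1 := by decide
  rw [hsign, one_smul, smul_eq_mul, mul_one, Fin.prod_univ_six] at h1
  simp only [Matrix.cons_val, one_mul, mul_one] at h1
  refine hω1 ?_
  have h3 := UnitaryTransp.pow_three hF4 hω0
  linear_combination h3 - ω * h1

section seven

variable (g : S 6 F 2) (hg7 : ∀ v, ((mat g).mulVecLin ^ 7) v = v)
  (hfix : ∀ v, Valid 2 v → mat g *ᵥ v ≠ v)

include hF4 hg7 in
/-- The size of an invariant subspace without fixed vectors is congruent to one. -/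
theorem card_mod (K : Submodule F (Fin 6 → F)) (hK : ∀ v ∈ K, mat g *ᵥ v ∈ K)
    (hno : ∀ v ∈ K, mat g *ᵥ v = v → v = 0) : 4 ^ Module.finrank F K % 7 = 1 := by
  classical
  haveI : Fact (Nat.Prime 7) := ⟨by norm_num⟩
  haveI := Fintype.ofFinite ↥K
  let f : Function.End ↥K := fun v => ⟨mat g *ᵥ (v : Fin 6 → F), hK v v.2⟩
  have hit : ∀ (m : ℕ) (v : ↥K), (((f ^ m) v : ↥K) : Fin 6 → F) = ((mat g).mulVecLin ^ m) v := by
    intro m
    induction m with
    | zero => intro v; rfl
    | succ m ih =>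
      intro v
      rw [pow_succ', pow_succ']
      show mat g *ᵥ (((f ^ m) v : ↥K) : Fin 6 → F) = _
      rw [ih]
      rfl
  have hf : f ^ 7 ^ 1 = 1 := funext fun v => Subtype.ext (by rw [pow_one, hit, hg7]; rfl)
  have h := Equiv.Perm.card_fixedPoints_modEq hf
  have h1 : Fintype.card ↥(Function.fixedPoints f) = 1 := by
    refine Fintype.card_eq_one_iff.2 ⟨⟨0, Subtype.ext (show mat g *ᵥ (0 : Fin 6 → F) = 0 from mulVec_zero _)⟩, fun v => Subtype.ext (Subtype.ext ?_)⟩
    exact hno v.1 v.1.2 (congrArg Subtype.val v.2)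
  rw [h1, ← Nat.card_eq_fintype_card, Module.natCard_eq_pow_finrank (K := F), Nat.card_eq_fintype_card, hF4] at h
  exact h

include hF4 hg7 hfix in
/-- No fixed vectors. -/
theorem no_fixed {w : Fin 6 → F} (h : mat g *ᵥ w = w) : w = 0 := by
  classical
  haveI := charTwo hF4
  have hF := card2 hF4
  by_contra hw
  have hww : hm 2 w w = 1 := by
    rcases fixed_cases hF4 (hm_swap hF w w).symm with e | e
    · exact absurd h (hfix w ⟨hw, e⟩)
    · exact e
  set U := (Cfsg.Agent.Lib.Forms.hermData hF 6).perp' (Submodule.span F {w}) with hU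
  have hmem : ∀ u, u ∈ U ↔ hm 2 u w = 0 := fun u => by
    constructor
    · intro hu; exact hu w (Submodule.mem_span_singleton_self w)
    · intro hu y hy
      obtain ⟨c, rfl⟩ := Submodule.mem_span_singleton.1 hy
      show hm 2 u (c • w) = 0
      rw [hm_smul_right, hu, mul_zero]
  have hd : Module.finrank F U = 5 := by
    have := (Cfsg.Agent.Lib.Forms.hermData hF 6).finrank_perp'_eq (Submodule.span F {w})
    rw [finrank_span_singleton hw, Module.finrank_fintype_fun_eq_card, Fintype.card_fin] at this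
    rw [hU]; omega
  have := card_mod hF4 g hg7 U (fun u hu => by rw [hmem] at hu ⊢; rw [← h, iso]; exact hu) fun u hu he => by
    by_contra hu0
    rcases fixed_cases hF4 (hm_swap hF u u).symm with e | e
    · exact hfix u ⟨hu0, e⟩ he
    · refine hfix (u + w) ⟨fun e' => ?_, ?_⟩ (by rw [mulVec_add, he, h])
      · have hu' := (hmem u).1 hu
        rw [show u = -w from eq_neg_of_add_eq_zero_left e', ← neg_one_smul F w, hm_smul_left', hww, mul_one] at hu'
        exact one_ne_zero (neg_eq_zero.1 hu')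
      · rw [hm_add_left, hm_add_right hF, hm_add_right hF, e, hww, (hmem u).1 hu, hm_comm_zero hF ((hmem u).1 hu)]
        linear_combination (CharTwo.two_eq_zero (R := F))
  rw [hd] at this
  norm_num at this

include hF4 hg7 hfix in
/-- A commuting element with scalar cube is scalar. -/
theorem scalar_of_commute (h : S 6 F 2) (hc : g * h = h * g) {ω : F}
    (hω : ∀ v, mat h *ᵥ (mat h *ᵥ (mat h *ᵥ v)) = ω • v) : ∃ c : F, ∀ v, mat h *ᵥ v = c • v := by
  classical
  haveI := charTwo hF4
  have hF := card2 hF4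
  have hnf := fun {w : Fin 6 → F} => no_fixed hF4 g hg7 hfix (w := w)
  have hh : ∀ v, mat h *ᵥ (mat h *ᵥ (mat h *ᵥ v)) = v := fun v => by
    rw [hω, cube_scalar_eq_one hF4 h hω, one_smul]
  set k := (mat h).mulVecLin
  set f := (mat g).mulVecLin with hf
  have hfk : ∀ v, mat g *ᵥ (mat h *ᵥ v) = mat h *ᵥ (mat g *ᵥ v) := fun v => by
    rw [mulVec_mulVec, ← mat_mul, hc, mat_mul, ← mulVec_mulVec]
  by_contra hns
  push Not at hns
  let E : F → Submodule F (Fin 6 → F) := fun l => LinearMap.ker (k - l • LinearMap.id)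
  have hE : ∀ l v, v ∈ E l ↔ mat h *ᵥ v = l • v := fun l v => by
    simp [E, k, sub_eq_zero]
  -- the projection
  have hproj : ∀ l : F, l ≠ 0 → ∀ v, v + (l ^ 2) • (mat h *ᵥ v) + l • (mat h *ᵥ (mat h *ᵥ v)) ∈ E l := by
    intro l hl v
    rw [hE, mulVec_add, mulVec_add, mulVec_smul, mulVec_smul, hh, smul_add, smul_add, smul_smul, smul_smul,
      show l * l ^ 2 = 1 by rw [← pow_succ']; exact UnitaryTransp.pow_three hF4 hl,
      show l * l = l ^ 2 by ring, one_smul]
    abel
  obtain ⟨t, ht0, ht1⟩ : ∃ t : F, t ≠ 0 ∧ t ≠ 1 := by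
    by_contra h
    push Not at h
    have : (Finset.univ : Finset F) ⊆ {0, 1} := fun x _ => by
      rcases eq_or_ne x 0 with e | e
      · simp [e]
      · simp [h x e]
    have := (Finset.card_le_card this).trans Finset.card_le_two
    rw [Finset.card_univ, hF4] at this
    omega
  have ht3 := UnitaryTransp.pow_three hF4 ht0
  have hts : t ^ 2 + t + 1 = 0 :=
    (mul_eq_zero.1 (show (t - 1) * (t ^ 2 + t + 1) = 0 by linear_combination ht3)).resolve_left (sub_ne_zero.2 ht1)
  have hdec : ∀ v, v = (v + (1 : F) ^ 2 • (mat h *ᵥ v) + (1 : F) • (mat h *ᵥ (mat h *ᵥ v))) +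
      (v + (t ^ 2) • (mat h *ᵥ v) + t • (mat h *ᵥ (mat h *ᵥ v))) +
      (v + ((t ^ 2) ^ 2) • (mat h *ᵥ v) + (t ^ 2) • (mat h *ᵥ (mat h *ᵥ v))) := fun v => by
    have h2 : (2 : F) = 0 := CharTwo.two_eq_zero
    funext i
    simp only [Pi.add_apply, Pi.smul_apply, smul_eq_mul]
    linear_combination (-(v i)) * h2 - (mat h *ᵥ v) i * (hts + t * ht3) - (mat h *ᵥ (mat h *ᵥ v)) i * hts
  have hl0 : ∀ l : F, l ∈ [1, t, t ^ 2] → l ≠ 0 := by
    intro l hl
    simp only [List.mem_cons, List.not_mem_nil, or_false] at hl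
    rcases hl with rfl | rfl | rfl
    exacts [one_ne_zero, ht0, pow_ne_zero _ ht0]
  have horth : ∀ l m : F, l ≠ 0 → m ≠ 0 → l ≠ m → ∀ a ∈ E l, ∀ b ∈ E m, hm 2 a b = 0 := by
    intro l m hl hm' hne a ha b hb
    have e := iso h a b
    rw [(hE l a).1 ha, (hE m b).1 hb, hm_smul_left', hm_smul_right, ← mul_assoc] at e
    by_contra hab
    have e1 : l * m ^ 2 = 1 := mul_right_cancel₀ hab (by rw [e, one_mul])
    have e2 : m * m ^ 2 = 1 := by rw [← pow_succ']; exact UnitaryTransp.pow_three hF4 hm'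
    exact hne (mul_right_cancel₀ (pow_ne_zero 2 hm') (e1.trans e2.symm))
  have hnd : ∀ l : F, l ≠ 0 → ∀ a ∈ E l, (∀ b ∈ E l, hm 2 b a = 0) → a = 0 := by
    intro l hl a ha hz
    by_contra ha0
    obtain ⟨b, hb, -⟩ := exists_hm_one hF ha0
    have key : ∀ m ∈ [1, t, t ^ 2], ∀ c ∈ E m, hm 2 a c = 0 := by
      intro m hm' c hc
      rcases eq_or_ne l m with rfl | hne
      · exact hm_comm_zero hF (hz c hc)
      · exact horth l m hl (hl0 m hm') hne a ha c hc
    have : hm 2 a b = 0 := by
      rw [hdec b, hm_add_right hF, hm_add_right hF,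
        key 1 (by simp) _ (hproj 1 one_ne_zero b), key t (by simp) _ (hproj t ht0 b),
        key (t ^ 2) (by simp) _ (hproj (t ^ 2) (pow_ne_zero _ ht0) b)]
      simp
    rw [hm_comm_zero hF this] at hb
    exact zero_ne_one hb
  have hinv : ∀ l v, v ∈ E l → mat g *ᵥ v ∈ E l := fun l v hv => by
    rw [hE] at hv ⊢
    rw [← hfk, hv, mulVec_smul]
  have hsum : ∀ v, f (f (f (f (f (f v))))) + f (f (f (f (f v)))) + f (f (f (f v))) +
      f (f (f v)) + f (f v) + f v + v = 0 := by
    intro v
    refine hnf ?_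
    show f _ = _
    have h7 : f (f (f (f (f (f (f v)))))) = v := by
      have h7' := hg7 v
      rw [Module.End.pow_apply] at h7'
      exact h7'
    simp only [map_add]
    rw [h7]
    abel
  have hkey : ∀ l : F, l ≠ 0 → E l = ⊥ := by
    intro l hl
    by_contra hb
    have hd : Module.finrank F (E l) = 3 := by
      have h1 := card_mod hF4 g hg7 (E l) (hinv l) fun v _ hv => hnf hv
      have h2 : Module.finrank F (E l) < 6 := by
        refine lt_of_lt_of_eq (Submodule.finrank_lt fun e => ?_) (by simp [Module.finrank_fintype_fun_eq_card])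
        obtain ⟨v, hv⟩ := hns l
        exact hv ((hE l v).1 (e ▸ Submodule.mem_top))
      have h0 : Module.finrank F (E l) ≠ 0 := fun e => hb (Submodule.finrank_eq_zero.1 e)
      interval_cases hh' : Module.finrank F (E l) <;> first | rfl | omega
    -- the two cubic factors
    let P : (Fin 6 → F) →ₗ[F] (Fin 6 → F) := f ∘ₗ f ∘ₗ f + f + LinearMap.id
    let Q : (Fin 6 → F) →ₗ[F] (Fin 6 → F) := f ∘ₗ f ∘ₗ f + f ∘ₗ f + LinearMap.id
    have hfi : ∀ v, mat g *ᵥ v = f v := fun _ => rfl
    have hPf : ∀ v, f (P v) = P (f v) := fun v => by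
      simp [P]
    have hPQ : ∀ v, P (Q v) = 0 := fun v => by
      have := hsum v
      simp only [P, Q, LinearMap.add_apply, LinearMap.comp_apply,
        map_add, LinearMap.id_apply] at this ⊢
      have e2 : ∀ x : Fin 6 → F, x + x = 0 := vec_add_self hF4
      refine Eq.trans ?_ this
      linear_combination (norm := abel) e2 (f (f (f v)))
    have hfE : ∀ v ∈ E l, f v ∈ E l := fun v hv => hinv l v hv
    have hQE : ∀ v ∈ E l, Q v ∈ E l := fun v hv =>
      add_mem (add_mem (hfE _ (hfE _ (hfE _ hv))) (hfE _ (hfE _ hv))) hv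
    have hiso : ∀ a b, hm 2 (f a) (f b) = hm 2 a b := fun a b => iso g a b
    have hPtoQ : (∀ v ∈ E l, P v = 0) → ∀ u ∈ E l, Q u = 0 := by
      intro hP u hu
      refine hnd l hl _ (hQE u hu) fun b hb' => ?_
      have e := congrArg (fun z => hm 2 z (f (f (f u)))) (hP b hb')
      simp only [P, Q, LinearMap.add_apply, LinearMap.comp_apply,
        LinearMap.id_apply, hm_add_left, hm_zero_left, hm_add_right hF, hiso] at e ⊢
      linear_combination e
    have hQtoP : (∀ v ∈ E l, Q v = 0) → ∀ u ∈ E l, P u = 0 := by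
      intro hQ u hu
      refine hnd l hl _ ?_ fun b hb' => ?_
      · exact add_mem (add_mem (hfE _ (hfE _ (hfE _ hu))) (hfE u hu)) hu
      have e := congrArg (fun z => hm 2 z (f (f (f u)))) (hQ b hb')
      simp only [P, Q, LinearMap.add_apply, LinearMap.comp_apply,
        LinearMap.id_apply, hm_add_left, hm_zero_left, hm_add_right hF, hiso] at e ⊢
      linear_combination e
    have hboth : (∀ v ∈ E l, P v = 0) ∧ ∀ v ∈ E l, Q v = 0 := by
      suffices h : (∀ v ∈ E l, P v = 0) ∨ ∀ v ∈ E l, Q v = 0 by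
        exact h.elim (fun h => ⟨h, hPtoQ h⟩) fun h => ⟨hQtoP h, h⟩
      have h1 := card_mod hF4 g hg7 (E l ⊓ LinearMap.ker P)
        (fun v hv => ⟨hinv l v hv.1, LinearMap.mem_ker.2 (by rw [hfi, ← hPf, LinearMap.mem_ker.1 hv.2, map_zero])⟩)
        fun v _ hv => hnf hv
      have h2 := Submodule.finrank_mono (inf_le_left : E l ⊓ LinearMap.ker P ≤ E l)
      rw [hd] at h2
      have h3 : Module.finrank F ↥(E l ⊓ LinearMap.ker P) = 0 ∨ Module.finrank F ↥(E l ⊓ LinearMap.ker P) = 3 := by
        interval_cases hh' : Module.finrank F ↥(E l ⊓ LinearMap.ker P) <;> omega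
      rcases h3 with h3 | h3
      · refine Or.inr fun v hv => ?_
        have hm0 : Q v ∈ E l ⊓ LinearMap.ker P := ⟨hQE v hv, LinearMap.mem_ker.2 (hPQ v)⟩
        rwa [Submodule.finrank_eq_zero.1 h3, Submodule.mem_bot] at hm0
      · refine Or.inl fun v hv => ?_
        have e := Submodule.eq_of_le_of_finrank_eq (inf_le_left : E l ⊓ LinearMap.ker P ≤ E l) (by rw [h3, hd])
        rw [← e] at hv
        exact hv.2
    obtain ⟨v, hv, hv0⟩ := Submodule.exists_mem_ne_zero_of_ne_bot hb
    have e1 := hboth.1 v hv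
    have e2 := hboth.2 v hv
    simp only [P, Q, LinearMap.add_apply, LinearMap.comp_apply,
      LinearMap.id_apply] at e1 e2
    have hfv : f (f v) = f v := by linear_combination (norm := abel) e2 - e1
    have : f v = 0 := hnf hfv
    exact mulVec_ne_zero g hv0 this
  obtain ⟨v, hv⟩ := exists_ne (0 : Fin 6 → F)
  refine hv ?_
  rw [hdec v]
  have hz : ∀ l ∈ [1, t, t ^ 2], ∀ x ∈ E l, x = 0 := fun l hl x hx => by
    rw [hkey l (hl0 l hl)] at hx; exact (Submodule.mem_bot F).1 hx
  rw [hz 1 (by simp) _ (hproj 1 one_ne_zero v), hz t (by simp) _ (hproj t ht0 v),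
    hz (t ^ 2) (by simp) _ (hproj (t ^ 2) (pow_ne_zero _ ht0) v)]
  simp

end seven

end Cfsg.Agent.Lib.Involution.FischerSeven
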