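import Cfsg.Agent.Lib.Involution.FischerPairTheta
import Cfsg.Agent.Lib.Involution.FischerClasses

/-! Type M(22): no member is a square. -/

set_option autoImplicit false

namespace Cfsg.Agent.Lib.Involution.FischerTwentyTwo

open Matrix
open Cfsg Cfsg.Agent.Lib.AutPSU Cfsg.Agent.Lib.ThreeTransp Cfsg.Agent.Lib.Involution.UnitaryTransp
  Cfsg.Agent.Lib.Involution.FischerRel Cfsg.Agent.Lib.Involution.FischerLocal

universe u

variable {G : Type u} [Group G] [Finite G] {D : Set G}
variable (M : Hyp D)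
include M

/-- No member is a square. -/
theorem sq_ne_member {x d : G} (hd : d ∈ D) : x * x ≠ d := by
  classical
  intro hxx
  have hd1 : d ≠ 1 := fun e => by have := M.tr.1 d hd; rw [e, orderOf_one] at this; omega
  have hxd : Commute x d := by rw [← hxx]; exact (Commute.refl x).mul_right (Commute.refl x)
  set L := M.lk hd
  have hxH : x ∈ LinkGroup D d := by
    rw [centralizer_eq_link M hd]
    exact Subgroup.mem_centralizer_singleton_iff.2 hxd.eq
  obtain ⟨l₀, hl₀, hp₀⟩ : ∃ l : List G, (∀ a ∈ l, a ∈ Nb D d) ∧ l.prod = x := by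
    have key : ∀ y ∈ LinkGroup D d, ∃ l : List G, (∀ a ∈ l, a ∈ Nb D d) ∧ l.prod = y := by
      intro y hy
      induction hy using Subgroup.closure_induction with
      | mem y hy => exact ⟨[y], fun a ha => by rw [List.mem_singleton.1 ha]; exact hy, by simp⟩
      | one => exact ⟨[], by simp, rfl⟩
      | mul p q _ _ hp hq =>
        obtain ⟨l, hl, rfl⟩ := hp
        obtain ⟨l', hl', rfl⟩ := hq
        exact ⟨l ++ l', fun a ha => (List.mem_append.1 ha).elim (hl a) (hl' a), List.prod_append⟩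
      | inv p _ hp =>
        obtain ⟨l, hl, rfl⟩ := hp
        exact ⟨l.reverse, fun a ha => hl a (List.mem_reverse.1 ha),
          (prod_inv_rev M.tr fun a ha => (hl a ha).1).symm⟩
    exact key x hxH
  obtain ⟨b, hb⟩ : (Nb D d).Nonempty := Set.nonempty_of_ncard_ne_zero (by rw [card_nb M hd]; norm_num)
  set z := (l₀.map fun a => τ L.card_F (L.pt a)).prod with hz
  have hz2 : z * z = 1 := by
    have := (L.prod (l₀ ++ l₀) fun a ha => (List.mem_append.1 ha).elim (hl₀ a) (hl₀ a)).2 fun e he => by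
      rw [List.prod_append, hp₀, hxx]; exact he.2.2
    rwa [List.map_append, List.prod_append] at this
  by_cases hz1 : z = 1
  · rcases centralizer_link M.grp M.prim M.type hd hb hxd
      (fun e he => hp₀ ▸ (L.prod l₀ hl₀).1 hz1 e he) with h | h
    · rw [h, one_mul] at hxx; exact hd1 hxx.symm
    · rw [h, M.sq hd] at hxx; exact hd1 hxx.symm
  haveI : Fact (Nat.Prime 2) := ⟨Nat.prime_two⟩
  obtain ⟨l, hlen, hval, horth, hfree, hdec⟩ := involution_decomp L.card_F
    (orderOf_eq_prime (by rw [pow_two]; exact hz2) hz1)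
  have hsurj : ∀ v, ∃ k, Valid 2 v → k ∈ Nb D d ∧ ∃ c : L.F, c ≠ 0 ∧ v = c • L.pt k := by
    intro v
    by_cases hv : Valid 2 v
    · obtain ⟨k, hk, hc⟩ := L.surj v hv
      exact ⟨k, fun _ => ⟨hk, hc⟩⟩
    · exact ⟨d, fun h => absurd h hv⟩
  choose g hg using hsurj
  have hgN : ∀ v ∈ l, g v ∈ Nb D d := fun v hv => (hg v (hval v hv)).1
  set ks := l.map g with hks
  have hksN : ∀ k ∈ ks, k ∈ Nb D d := fun k hk => by
    obtain ⟨v, hv, rfl⟩ := List.mem_map.1 hk
    exact hgN v hv
  have hksc : ∀ k ∈ ks, ∀ k' ∈ ks, Commute k k' := by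
    intro k hk k' hk'
    obtain ⟨v, hv, rfl⟩ := List.mem_map.1 hk
    obtain ⟨w, hw, rfl⟩ := List.mem_map.1 hk'
    obtain ⟨hx', s, hs, e⟩ := hg v (hval v hv)
    obtain ⟨hy', t, ht, e'⟩ := hg w (hval w hw)
    refine (L.orth hx' hy').1 ?_
    have := horth v hv w hw
    rw [e, e', hm_smul_left', hm_smul_right, mul_eq_zero, mul_eq_zero] at this
    exact (this.resolve_left hs).resolve_left (pow_ne_zero _ ht)
  have hksτ : (ks.map fun k => τ L.card_F (L.pt k)).prod = z := by
    rw [hdec, hks, List.map_map]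
    refine congrArg List.prod (List.map_congr_left fun v hv => ?_)
    obtain ⟨hk, c, hc, e⟩ := hg v (hval v hv)
    conv_rhs => rw [e, τ_smul L.card_F (L.valid _ hk).2 hc]
    rfl
  have hkk : ks.prod * ks.prod = 1 := prod_mul_self' M.tr ks (fun k hk => (hksN k hk).1) hksc
  have hN' : ∀ a ∈ l₀ ++ ks, a ∈ Nb D d := fun a ha => (List.mem_append.1 ha).elim (hl₀ a) (hksN a)
  have hw := centralizer_link M.grp M.prim M.type hd hb (z := (l₀ ++ ks).prod)
    (Commute.list_prod_right _ _ fun a ha => (hN' a ha).2.2).symm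
    ((L.prod (l₀ ++ ks) hN').1 (by rw [List.map_append, List.prod_append, hksτ, ← hz, hz2]))
  rw [List.prod_append, hp₀] at hw
  have hcases : x = ks.prod ∨ x = d * ks.prod := by
    rcases hw with e | e
    · exact Or.inl (by rw [eq_inv_of_mul_eq_one_left e, inv_eq_of_mul_eq_one_right hkk])
    · exact Or.inr (by rw [← e, mul_assoc, hkk, mul_one])
  have hdk : Commute d ks.prod := Commute.list_prod_right _ _ fun k hk => (hksN k hk).2.2
  rcases hcases with e | e
  · exact hd1 (by rw [← hxx, e, hkk])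
  · refine hd1 ?_
    rw [← hxx, e, mul_assoc, ← mul_assoc ks.prod, ← hdk.eq, mul_assoc d, hkk, mul_one, M.sq hd]

end Cfsg.Agent.Lib.Involution.FischerTwentyTwo
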