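import Cfsg.Agent.Lib.Involution.FischerFrameMoves
import Cfsg.Agent.Lib.Involution.FischerFrameCount
import Cfsg.Agent.Lib.Thompson.Replace

/-! Type M(22): the Thompson subgroup of a Sylow 2-subgroup is generated by a frame. -/

set_option autoImplicit false

namespace Cfsg.Agent.Lib.Involution.FischerTwentyTwo

open Subgroup
open Cfsg Cfsg.Agent.Lib.ThreeTransp
open scoped commutatorElement

universe u

variable {G : Type u} [Group G] [Finite G] {D : Set G} (M : Hyp D) {F : Set G} (K : MaxComm D F)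
include M K

theorem frame_span_comm : ∀ x ∈ closure F, ∀ y ∈ closure F, x * y = y * x := by
  haveI : IsMulCommutative ↥(closure F) :=
    isMulCommutative_closure fun a ha b hb => (K.comm a ha b hb).eq
  exact fun x hx y hy => congrArg Subtype.val (IsMulCommutative.is_comm.comm (⟨x, hx⟩ : closure F) ⟨y, hy⟩)

theorem frame_span_sq : ∀ x ∈ closure F, x ^ 2 = 1 := by
  intro x hx
  induction hx using Subgroup.closure_induction with
  | mem y hy => rw [pow_two]; exact M.sq (K.sub hy)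
  | one => simp
  | mul p q hp hq ihp ihq =>
    rw [Commute.mul_pow (frame_span_comm M K p hp q hq), ihp, ihq, one_mul]
  | inv p _ ihp => rw [inv_pow, ihp, inv_one]

theorem conj_ne_of_not_mem {e : G} (h2 : e * e = 1) (hne : e ∉ closure F) : ∃ u ∈ F, e * u * e⁻¹ ≠ u := by
  by_contra h
  push Not at h
  refine hne (mem_closure_frame M K (orderOf_eq_prime (by rw [pow_two, h2]) fun e1 => hne (e1 ▸ one_mem _))
    fun f hf => ?_)
  exact mul_inv_eq_iff_eq_mul.1 (h f hf)

/-- The commutator map of an involution acting on the frame has image of order at least eight. -/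
theorem eight_mul_le {e : G} (h2 : e * e = 1) (hE : ∀ u ∈ F, e * u * e⁻¹ ∈ F) (hne : e ∉ closure F) :
    8 * Nat.card ↥(closure F ⊓ centralizer ({e} : Set G)) ≤ Nat.card ↥(closure F) := by
  classical
  set V := closure F
  have hVc := frame_span_comm M K
  have hVn : ∀ v ∈ V, e * v * e⁻¹ ∈ V := by
    intro v hv
    induction hv using Subgroup.closure_induction with
    | mem y hy => exact subset_closure (hE y hy)
    | one => simp
    | mul p q _ _ ihp ihq =>
      rw [show e * (p * q) * e⁻¹ = e * p * e⁻¹ * (e * q * e⁻¹) by group]; exact mul_mem ihp ihq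
    | inv p _ ihp => rw [show e * p⁻¹ * e⁻¹ = (e * p * e⁻¹)⁻¹ by group]; exact inv_mem ihp
  let ψ : V →* V :=
    { toFun := fun v => ⟨(v : G) * (e * v * e⁻¹), mul_mem v.2 (hVn v v.2)⟩
      map_one' := Subtype.ext (by simp)
      map_mul' := fun v w => Subtype.ext (by
        show (v : G) * w * (e * (v * w) * e⁻¹) = v * (e * v * e⁻¹) * (w * (e * w * e⁻¹))
        rw [show e * ((v : G) * w) * e⁻¹ = e * v * e⁻¹ * (e * w * e⁻¹) by group, mul_assoc (v : G) w,
          ← mul_assoc (w : G), hVc w w.2 _ (hVn v v.2)]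
        simp only [mul_assoc]) }
  have hker : Nat.card ψ.ker = Nat.card ↥(V ⊓ centralizer ({e} : Set G)) := by
    have e1 : ψ.ker.map V.subtype = V ⊓ centralizer ({e} : Set G) := by
      ext v
      rw [mem_inf, mem_centralizer_singleton_iff, mem_map]
      constructor
      · rintro ⟨w, hw, rfl⟩
        refine ⟨w.2, ?_⟩
        have h1 : (w : G) * (e * w * e⁻¹) = 1 := congrArg Subtype.val (MonoidHom.mem_ker.1 hw)
        have h2' : (w : G) * w = 1 := by rw [← pow_two]; exact frame_span_sq M K w w.2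
        exact (mul_inv_eq_iff_eq_mul.1 (mul_left_cancel (h1.trans h2'.symm))).symm
      · rintro ⟨hv, hc⟩
        refine ⟨⟨v, hv⟩, MonoidHom.mem_ker.2 (Subtype.ext ?_), rfl⟩
        show v * (e * v * e⁻¹) = 1
        rw [← hc, mul_inv_cancel_right, ← pow_two]
        exact frame_span_sq M K v hv
    rw [← e1, card_subtype]
  have hcard := ψ.ker.card_mul_index
  rw [Subgroup.index_ker, hker] at hcard
  rw [← hcard, mul_comm]
  refine Nat.mul_le_mul_left _ ?_
  obtain ⟨u0, hu0, hu0'⟩ := conj_ne_of_not_mem M K h2 hne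
  have h8 := fixed_le_eight M K h2 hE ⟨u0, hu0, hu0'⟩
  set Fm := {u | u ∈ F ∧ e * u * e⁻¹ ≠ u}
  have hsplit : F.ncard = {u | u ∈ F ∧ e * u * e⁻¹ = u}.ncard + Fm.ncard := by
    rw [← Set.ncard_union_eq (Set.disjoint_left.2 fun u h h' => h'.2 h.2)]
    congr 1
    ext u
    exact ⟨fun h => (em _).imp (⟨h, ·⟩) (⟨h, ·⟩), fun h => h.elim (·.1) (·.1)⟩
  rw [card_maxComm M K hu0] at hsplit
  set P := (fun u => u * (e * u * e⁻¹)) '' Fm
  have hP : Fm.ncard * 1 = P.ncard * 2 := by
    refine double_count Fm P (fun u p => u * (e * u * e⁻¹) = p) (fun u hu => ?_) ?_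
    · rw [show {p | p ∈ P ∧ u * (e * u * e⁻¹) = p} = {u * (e * u * e⁻¹)} from Set.ext fun p =>
        ⟨fun h => h.2.symm, fun h => by rw [h]; exact ⟨⟨u, hu, rfl⟩, rfl⟩⟩, Set.ncard_singleton]
    rintro _ ⟨u, hu, rfl⟩
    have hinv : e * (e * u * e⁻¹) * e⁻¹ = u := by
      rw [inv_eq_of_mul_eq_one_right h2, ← mul_assoc, ← mul_assoc, h2, one_mul, mul_assoc, h2, mul_one]
    have huF : e * u * e⁻¹ ∈ F := hE u hu.1
    rw [show {w | w ∈ Fm ∧ w * (e * w * e⁻¹) = u * (e * u * e⁻¹)} = {u, e * u * e⁻¹} from ?_,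
      Set.ncard_pair hu.2.symm]
    ext w
    constructor
    · rintro ⟨hw, h⟩
      rcases pair_unique M (K.sub hw.1) (K.nb hw.1 (hE w hw.1) hw.2) (K.sub hu.1) (K.nb hu.1 huF hu.2) h with
        ⟨h1, -⟩ | ⟨h1, -⟩
      exacts [Or.inl h1, Or.inr h1]
    · rintro (h | h) <;> rw [h]
      · exact ⟨hu, rfl⟩
      · refine ⟨⟨huF, by rw [hinv]; exact hu.2.symm⟩, ?_⟩
        rw [hinv]
        exact frame_span_comm M K _ (subset_closure huF) _ (subset_closure hu.1)
  have hPsub : (insert 1 P) ⊆ Subtype.val '' (ψ.range : Set V) := by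
    rintro p (rfl | ⟨u, hu, rfl⟩)
    · exact ⟨1, one_mem _, rfl⟩
    · exact ⟨ψ ⟨u, subset_closure hu.1⟩, ⟨_, rfl⟩, rfl⟩
  have h1P : (1 : G) ∉ P := by
    rintro ⟨u, hu, h⟩
    exact hu.2 ((eq_inv_of_mul_eq_one_right h).trans (inv_eq_of_mul_eq_one_right (M.sq (K.sub hu.1))))
  have hle := Set.ncard_le_ncard hPsub (Set.toFinite _)
  rw [Set.ncard_insert_of_notMem h1P, Set.ncard_image_of_injective _ Subtype.val_injective,
    ← Nat.card_coe_set_eq (s := (ψ.range : Set V)), SetLike.coe_sort_coe] at hle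
  omega

/-- An abelian group of involutions moving the frame quadratically has order at most four. -/
theorem quadratic_bound {E : Subgroup G} (hEc : ∀ a ∈ E, ∀ b ∈ E, a * b = b * a) (hE2 : ∀ a ∈ E, a * a = 1)
    (hEF : ∀ a ∈ E, ∀ u ∈ F, a * u * a⁻¹ ∈ F) (hEV : E ⊓ closure F = ⊥)
    (hquad : ∀ a ∈ E, ∀ b ∈ E, ∀ u ∈ F, Commute b (u * (a * u * a⁻¹))) : Nat.card E ≤ 4 := by
  classical
  obtain ⟨-, ⟨x0, hx0, -⟩, -⟩ := M.prim
  obtain ⟨u0, hu0⟩ : F.Nonempty := by
    by_contra h
    rw [Set.not_nonempty_iff_eq_empty] at h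
    exact Set.eq_empty_iff_forall_notMem.1 h x0 (K.max x0 hx0 (by simp [h]))
  set n := (E : Set G).ncard with hn
  have hnE : Nat.card E = n := by rw [hn, ← Nat.card_coe_set_eq, SetLike.coe_sort_coe]
  set P : Set (G × G) := {p | p.1 ∈ (E : Set G) \ {1} ∧ p.2 ∈ F ∧ p.1 * p.2 * p.1⁻¹ ≠ p.2}
  haveI := Fintype.ofFinite G
  have hlow : (n - 1) * 14 ≤ P.ncard := by
    have hc : ∀ a ∈ (E : Set G) \ {1}, 14 ≤ {u | u ∈ F ∧ a * u * a⁻¹ ≠ u}.ncard := by
      intro a ha
      have hV : a ∉ closure F := fun h => ha.2 (by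
        have : a ∈ E ⊓ closure F := ⟨ha.1, h⟩
        rw [hEV] at this
        exact mem_bot.1 this)
      have h8 := fixed_le_eight M K (hE2 a ha.1) (hEF a ha.1) (conj_ne_of_not_mem M K (hE2 a ha.1) hV)
      have hsplit : F.ncard = {u | u ∈ F ∧ a * u * a⁻¹ = u}.ncard + {u | u ∈ F ∧ a * u * a⁻¹ ≠ u}.ncard := by
        rw [← Set.ncard_union_eq (Set.disjoint_left.2 fun u h h' => h'.2 h.2)]
        congr 1
        ext u
        exact ⟨fun h => (em _).imp (⟨h, ·⟩) (⟨h, ·⟩), fun h => h.elim (·.1) (·.1)⟩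
      rw [card_maxComm M K hu0] at hsplit
      omega
    calc (n - 1) * 14 = ((E : Set G) \ {1}).ncard * 14 := by
          rw [Set.ncard_sdiff_singleton_of_mem E.one_mem]
      _ = ∑ _a ∈ ((E : Set G) \ {1}).toFinset, 14 := by
          rw [Finset.sum_const, smul_eq_mul, Set.ncard_eq_toFinset_card']
      _ ≤ ∑ a ∈ ((E : Set G) \ {1}).toFinset, {u | u ∈ F ∧ a * u * a⁻¹ ≠ u}.toFinset.card :=
          Finset.sum_le_sum fun a ha => by
            rw [← Set.ncard_eq_toFinset_card']; exact hc a (Set.mem_toFinset.1 ha)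
      _ = P.ncard := by
          rw [← Finset.card_sigma, Set.ncard_eq_toFinset_card']
          refine Finset.card_bij (fun s _ => (s.1, s.2)) ?_ ?_ ?_
          · rintro ⟨a, u⟩ h
            simpa [P, and_assoc] using h
          · rintro ⟨a, u⟩ _ ⟨b, v⟩ _ h
            simp only [Prod.mk.injEq] at h
            obtain ⟨rfl, rfl⟩ := h
            rfl
          · rintro ⟨a, u⟩ h
            exact ⟨⟨a, u⟩, by simpa [P, and_assoc] using h, rfl⟩
  have hup : 2 * P.ncard ≤ 22 * n := by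
    have hmov : ∀ u ∈ F, 2 * {a | a ∈ (E : Set G) ∧ a * u * a⁻¹ ≠ u}.ncard ≤ n := by
      intro u hu
      set Mv := {a | a ∈ (E : Set G) ∧ a * u * a⁻¹ ≠ u}
      set St := {a | a ∈ (E : Set G) ∧ a * u * a⁻¹ = u}
      have hn' : n = St.ncard + Mv.ncard := by
        rw [← Set.ncard_union_eq (Set.disjoint_left.2 fun a h h' => h'.2 h.2), hn]
        congr 1
        ext a
        exact ⟨fun h => (em _).imp (⟨h, ·⟩) (⟨h, ·⟩), fun h => h.elim (·.1) (·.1)⟩
      rcases Mv.eq_empty_or_nonempty with h | ⟨a₀, ha₀⟩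
      · rw [h, Set.ncard_empty]; omega
      have hmv : ∀ b ∈ Mv, b * u * b⁻¹ = a₀ * u * a₀⁻¹ := by
        intro b hb
        have hv := hquad a₀ ha₀.1 b hb.1 u hu
        have e : b * u * b⁻¹ * (b * (a₀ * u * a₀⁻¹) * b⁻¹) = u * (a₀ * u * a₀⁻¹) := by
          calc b * u * b⁻¹ * (b * (a₀ * u * a₀⁻¹) * b⁻¹) = b * (u * (a₀ * u * a₀⁻¹)) * b⁻¹ := by group
            _ = _ := by rw [hv.eq, mul_inv_cancel_right]
        have huF := hEF a₀ ha₀.1 u hu
        rcases pair_unique M (M.cl b u (K.sub hu)) (nb_conj M.cl b (K.nb hu huF ha₀.2)) (K.sub hu)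
          (K.nb hu huF ha₀.2) e with ⟨h, -⟩ | ⟨h, -⟩
        exacts [absurd h hb.2, h]
      have hle : Mv.ncard ≤ St.ncard := by
        refine Set.ncard_le_ncard_of_injOn (fun b => a₀⁻¹ * b) (fun b hb => ?_)
          (fun b _ c _ h => mul_left_cancel h) (Set.toFinite _)
        refine ⟨E.mul_mem (E.inv_mem ha₀.1) hb.1, ?_⟩
        rw [show a₀⁻¹ * b * u * (a₀⁻¹ * b)⁻¹ = a₀⁻¹ * (b * u * b⁻¹) * a₀ by group, hmv b hb]
        group
      omega
    calc 2 * P.ncard ≤ 2 * ∑ u ∈ F.toFinset, {a | a ∈ (E : Set G) ∧ a * u * a⁻¹ ≠ u}.toFinset.card := by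
          refine Nat.mul_le_mul_left 2 ?_
          rw [← Finset.card_sigma, Set.ncard_eq_toFinset_card']
          refine Finset.card_le_card_of_injOn (fun p => ⟨p.2, p.1⟩) ?_ ?_
          · rintro ⟨a, u⟩ h
            simp [P] at h
            simp [h]
          · rintro ⟨a, u⟩ _ ⟨b, v⟩ _ h
            simp only [Sigma.mk.injEq, heq_eq_eq] at h
            obtain ⟨rfl, rfl⟩ := h
            rfl
      _ = ∑ u ∈ F.toFinset, 2 * {a | a ∈ (E : Set G) ∧ a * u * a⁻¹ ≠ u}.toFinset.card := Finset.mul_sum _ _ _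
      _ ≤ ∑ _u ∈ F.toFinset, n := Finset.sum_le_sum fun u hu => by
          rw [← Set.ncard_eq_toFinset_card']; exact hmov u (Set.mem_toFinset.1 hu)
      _ = 22 * n := by
          rw [Finset.sum_const, smul_eq_mul, ← Set.ncard_eq_toFinset_card', card_maxComm M K hu0]
  omega

/-- A group of commuting involutions acting faithfully on the frame is not an offender. -/
theorem not_offender (E : Subgroup G) (hE : E ≠ ⊥) (hEc : ∀ a ∈ E, ∀ b ∈ E, a * b = b * a)
    (hE2 : ∀ a ∈ E, a * a = 1) (hEF : ∀ a ∈ E, ∀ u ∈ F, a * u * a⁻¹ ∈ F) (hEV : E ⊓ closure F = ⊥) :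
    Thompson.offProd (closure F) E < Nat.card ↥(closure F) := by
  classical
  haveI : Fact (Nat.Prime 2) := ⟨Nat.prime_two⟩
  set V := closure F with hV
  by_contra hcon
  obtain ⟨A, ⟨hAE, hA1, hAoff⟩, hmin⟩ := Set.exists_min_image
    {B : Subgroup G | B ≤ E ∧ B ≠ ⊥ ∧ Nat.card ↥V ≤ Thompson.offProd V B} (fun B : Subgroup G => Nat.card B)
    (Set.toFinite _) ⟨E, le_rfl, hE, not_lt.1 hcon⟩
  have hVc := frame_span_comm M K
  have hnorm : A ≤ normalizer (V : Set G) := by
    intro a ha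
    have h1 : ∀ b ∈ E, ∀ v ∈ V, b * v * b⁻¹ ∈ V := by
      intro b hb v hv
      induction hv using Subgroup.closure_induction with
      | mem y hy => exact subset_closure (hEF b hb y hy)
      | one => simp
      | mul p q _ _ ihp ihq =>
        rw [show b * (p * q) * b⁻¹ = b * p * b⁻¹ * (b * q * b⁻¹) by group]; exact mul_mem ihp ihq
      | inv p _ ihp => rw [show b * p⁻¹ * b⁻¹ = (b * p * b⁻¹)⁻¹ by group]; exact inv_mem ihp
    rw [mem_normalizer_iff]
    refine fun v => ⟨h1 a (hAE ha) v, fun h => ?_⟩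
    have := h1 a⁻¹ (inv_mem (hAE ha)) _ h
    simpa [mul_assoc] using this
  have hab : ⁅A, A⁆ ≤ centralizer (V : Set G) := by
    rw [commutator_le]
    intro a ha b hb
    rw [commutatorElement_eq_one_iff_mul_comm.2 (hEc a (hAE ha) b (hAE hb))]
    exact one_mem _
  have hbot : Thompson.offProd V ⊥ = Nat.card ↥V := by
    unfold Thompson.offProd
    rw [card_bot, one_mul, inf_eq_left.2 fun v _ => mem_centralizer_iff.2 fun h hh => by
      rw [mem_bot.1 hh, one_mul, mul_one]]
  have hmax : ∀ B ≤ A, Thompson.offProd V B ≤ Thompson.offProd V A := by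
    intro B hB
    rcases eq_or_ne B ⊥ with rfl | hB0
    · rw [hbot]; exact hAoff
    by_cases h : Nat.card ↥V ≤ Thompson.offProd V B
    · rw [eq_of_le_of_card_ge hB (hmin B ⟨hB.trans hAE, hB0, h⟩)]
    · omega
  obtain ⟨e1, e2⟩ := Thompson.replacement_subgroup hVc hnorm hab hmax le_rfl
  set B := A ⊓ centralizer ((⁅V, A⁆ : Subgroup G) : Set G) with hB
  rcases eq_or_ne B ⊥ with h0 | h0
  · rw [h0, inf_eq_left.2 fun v _ => mem_centralizer_iff.2 fun h hh => by
      rw [mem_bot.1 hh, one_mul, mul_one]] at e2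
    set X := ⁅V, A⁆ with hX
    set C := V ⊓ centralizer (A : Set G)
    change V = X ⊔ C at e2
    have hXV : X ≤ V := by rw [e2]; exact le_sup_left
    have hXnorm : A ≤ normalizer (X : Set G) := by
      have key : ∀ a ∈ A, ∀ x ∈ X, a * x * a⁻¹ ∈ X := by
        intro a ha
        suffices h : X ≤ X.comap (MulAut.conj a).toMonoidHom from fun x hx => h hx
        rw [hX, commutator_le]
        intro v hv b hb
        show a * ⁅v, b⁆ * a⁻¹ ∈ ⁅V, A⁆
        rw [show a * ⁅v, b⁆ * a⁻¹ = ⁅a * v * a⁻¹, a * b * a⁻¹⁆ by simp only [commutatorElement_def]; group]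
        exact commutator_mem_commutator ((mem_normalizer_iff.1 (hnorm ha) v).1 hv)
          (mul_mem (mul_mem ha hb) (inv_mem ha))
      intro a ha
      rw [mem_normalizer_iff]
      refine fun x => ⟨key a ha x, fun h => ?_⟩
      have := key a⁻¹ (inv_mem ha) _ h
      simpa [mul_assoc] using this
    have hXle : X ≤ ⁅X, A⁆ := by
      rw [hX, commutator_le]
      intro v hv b hb
      rw [e2] at hv
      obtain ⟨x, hx, c, hc, rfl⟩ : ∃ x ∈ X, ∃ c ∈ C, x * c = v := by
        have hCn : C ≤ normalizer (X : Set G) := fun c hc => by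
          rw [mem_normalizer_iff]
          intro x
          constructor
          · intro hx; rwa [hVc c hc.1 x (hXV hx), mul_inv_cancel_right]
          · intro hx
            have hxV : x ∈ V := by
              have := V.mul_mem (V.mul_mem (V.inv_mem hc.1) (hXV hx)) hc.1
              simpa [mul_assoc] using this
            rwa [hVc c hc.1 x hxV, mul_inv_cancel_right] at hx
        rw [← SetLike.mem_coe, Subgroup.coe_mul_of_right_le_normalizer_left _ _ hCn] at hv
        exact hv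
      have hcb : c * b = b * c := (mem_centralizer_iff.1 hc.2 b hb).symm
      rw [show ⁅x * c, b⁆ = x * (c * b * c⁻¹) * x⁻¹ * b⁻¹ by simp only [commutatorElement_def]; group, hcb,
        mul_inv_cancel_right, ← commutatorElement_def]
      exact commutator_mem_commutator hx hb
    have hX0 : X = ⊥ := Thompson.eq_bot_of_le_commutator (p := 2)
      (fun x => ⟨1, Subtype.ext (by simpa using frame_span_sq M K x (hXV x.2))⟩) hXnorm
      (fun a ha => ⟨1, by rw [pow_one, pow_two, hE2 a (hAE ha)]; exact one_mem _⟩) hXle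
    obtain ⟨a, ha, ha1⟩ := (Subgroup.ne_bot_iff_exists_ne_one.1 hA1 : ∃ a : A, a ≠ 1) |>.elim
      fun a h => (⟨a.1, a.2, fun e => h (Subtype.ext e)⟩ : ∃ a ∈ A, a ≠ 1)
    obtain ⟨u, hu, hu'⟩ := conj_ne_of_not_mem M K (hE2 a (hAE ha)) fun h => ha1 (by
      have : a ∈ E ⊓ closure F := ⟨hAE ha, h⟩
      rw [hEV] at this
      exact mem_bot.1 this)
    have huV : u ∈ C := by
      have : u ∈ V := subset_closure hu
      rwa [e2, hX0, bot_sup_eq] at this
    exact hu' (by rw [mem_centralizer_iff.1 huV.2 a ha, mul_inv_cancel_right])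
  · have hBA : B = A := eq_of_le_of_card_ge inf_le_left (hmin B ⟨inf_le_left.trans hAE, h0, e1 ▸ hAoff⟩)
    have hquad : ∀ a ∈ A, ∀ b ∈ A, ∀ u ∈ F, Commute b (u * (a * u * a⁻¹)) := by
      intro a ha b hb u hu
      have hb' : b ∈ centralizer ((⁅V, A⁆ : Subgroup G) : Set G) := (hBA.symm ▸ hb : b ∈ B).2
      have hm : ⁅u, a⁆ ∈ ⁅V, A⁆ := commutator_mem_commutator (subset_closure hu) ha
      have hu2 : u⁻¹ = u := inv_eq_of_mul_eq_one_right (M.sq (K.sub hu))
      rw [commutatorElement_def, hu2, mul_assoc u a u, mul_assoc u] at hm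
      exact (mem_centralizer_iff.1 hb' _ hm).symm
    have hAV : A ⊓ closure F = ⊥ := le_bot_iff.1 (hEV ▸ inf_le_inf_right _ hAE)
    have h4 := quadratic_bound M K (fun a ha b hb => hEc a (hAE ha) b (hAE hb)) (fun a ha => hE2 a (hAE ha))
      (fun a ha => hEF a (hAE ha)) hAV hquad
    obtain ⟨⟨a, ha⟩, ha1⟩ := Subgroup.ne_bot_iff_exists_ne_one.1 hA1
    have haV : a ∉ closure F := fun h => ha1 (Subtype.ext (by
      have : a ∈ A ⊓ closure F := ⟨ha, h⟩
      rw [hAV] at this
      exact mem_bot.1 this))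
    have h8 := eight_mul_le M K (hE2 a (hAE ha)) (hEF a (hAE ha)) haV
    have hle : Nat.card ↥(V ⊓ centralizer (A : Set G)) ≤ Nat.card ↥(V ⊓ centralizer ({a} : Set G)) :=
      card_le_of_le (inf_le_inf_left _ (centralizer_le (Set.singleton_subset_iff.2 ha)))
    have hoff : Nat.card ↥V ≤ 4 * Nat.card ↥(V ⊓ centralizer ({a} : Set G)) :=
      hAoff.trans (Nat.mul_le_mul h4 hle)
    have := Nat.card_pos (α := ↥(V ⊓ centralizer ({a} : Set G)))
    rw [← hV] at h8
    omega

theorem elementary_le {A : Subgroup G} (hAc : ∀ a ∈ A, ∀ b ∈ A, a * b = b * a) (hA2 : ∀ a ∈ A, a * a = 1)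
    (hAF : ∀ a ∈ A, ∀ u ∈ F, a * u * a⁻¹ ∈ F) (hle : Nat.card ↥(closure F) ≤ Nat.card A) : A = closure F := by
  classical
  set V := closure F with hV
  obtain ⟨E, ⟨hEA, hEV⟩, hmax⟩ := Set.exists_max_image {B : Subgroup G | B ≤ A ∧ B ⊓ V = ⊥}
    (fun B : Subgroup G => Nat.card B) (Set.toFinite _) ⟨⊥, bot_le, bot_inf_eq _⟩
  have hcov : ∀ a ∈ A, ∃ e ∈ E, ∃ v ∈ A ⊓ V, a = e * v := by
    intro a ha
    by_cases haE : a ∈ E
    · exact ⟨a, haE, 1, one_mem _, (mul_one a).symm⟩
    let E' : Subgroup G :=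
      { carrier := {g | g ∈ E ∨ a * g ∈ E}
        one_mem' := Or.inl E.one_mem
        mul_mem' := fun {g h} hg hh => by
          have hc : ∀ {x}, x ∈ E → a * x = x * a := fun {x} hx => hAc a ha x (hEA hx)
          have haa := hA2 a ha
          rcases hg with hg | hg <;> rcases hh with hh | hh
          · exact Or.inl (E.mul_mem hg hh)
          · exact Or.inr (by rw [← mul_assoc, hc hg, mul_assoc]; exact E.mul_mem hg hh)
          · exact Or.inr (by rw [← mul_assoc]; exact E.mul_mem hg hh)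
          · refine Or.inl ?_
            have e : g * h = (a * g) * (a * h) := by
              have hga : g * a = a * g := by
                have := hc hg
                calc g * a = a * (a * g) * a := by rw [← mul_assoc, haa, one_mul]
                  _ = (a * g) * a * a := by rw [this]
                  _ = a * g := by rw [mul_assoc, haa, mul_one]
              rw [← hga, mul_assoc g a, ← mul_assoc a a, haa, one_mul]
            rw [e]; exact E.mul_mem hg hh
        inv_mem' := fun {g} hg => by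
          rcases hg with hg | hg
          · exact Or.inl (E.inv_mem hg)
          · refine Or.inr ?_
            have hgA : g ∈ A := by
              have := A.mul_mem (A.inv_mem ha) (hEA hg)
              simpa using this
            rw [inv_eq_of_mul_eq_one_right (hA2 g hgA)]; exact hg }
    have hEE' : E ≤ E' := fun x hx => Or.inl hx
    have hE'A : E' ≤ A := by
      rintro g (hg | hg)
      · exact hEA hg
      · have := A.mul_mem (A.inv_mem ha) (hEA hg)
        simpa using this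
    obtain ⟨v, hv, hv1⟩ : ∃ v ∈ E' ⊓ V, v ≠ 1 := by
      by_contra h
      push Not at h
      have h0 : E' ⊓ V = ⊥ := eq_bot_iff.2 fun v hv => mem_bot.2 (h v hv)
      have he := eq_of_le_of_card_ge hEE' (hmax E' ⟨hE'A, h0⟩)
      exact haE (he ▸ (Or.inr (by rw [hA2 a ha]; exact E.one_mem) : a ∈ E'))
    rcases hv.1 with h | h
    · have : v ∈ E ⊓ V := ⟨h, hv.2⟩
      rw [hEV] at this
      exact absurd (mem_bot.1 this) hv1
    · refine ⟨a * v, h, v, ⟨hE'A hv.1, hv.2⟩, ?_⟩
      rw [mul_assoc, hA2 v (hE'A hv.1), mul_one]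
  have hcard : Nat.card A ≤ Nat.card E * Nat.card ↥(A ⊓ V) := by
    rw [← Nat.card_prod]
    refine Nat.card_le_card_of_surjective (fun p : E × ↥(A ⊓ V) =>
      (⟨(p.1 : G) * p.2, A.mul_mem (hEA p.1.2) p.2.2.1⟩ : A)) fun a => ?_
    obtain ⟨e, he, v, hv, h⟩ := hcov a a.2
    exact ⟨(⟨e, he⟩, ⟨v, hv⟩), Subtype.ext h.symm⟩
  rcases eq_or_ne E ⊥ with h0 | h0
  · refine eq_of_le_of_card_ge (fun a ha => ?_) hle
    obtain ⟨e, he, v, hv, rfl⟩ := hcov a ha
    rw [h0, mem_bot] at he
    rw [he, one_mul]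
    exact hv.2
  · exfalso
    have h := not_offender M K E h0 (fun a ha b hb => hAc a (hEA ha) b (hEA hb)) (fun a ha => hA2 a (hEA ha))
      (fun a ha => hAF a (hEA ha)) hEV
    have h2 : Nat.card ↥(A ⊓ V) ≤ Nat.card ↥(V ⊓ centralizer (E : Set G)) :=
      card_le_of_le fun x hx => ⟨hx.2, mem_centralizer_iff.2 fun e he => hAc e (hEA he) x hx.1⟩
    have h3 : Nat.card A ≤ Thompson.offProd V E := hcard.trans (Nat.mul_le_mul_left _ h2)
    rw [← hV] at h
    omega

omit K in
theorem thompson_eq (T : Sylow 2 G) :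
    closure {x : G | x ∈ D ∧ x ∈ (T : Subgroup G)} = thompsonSubgroupOf 2 (T : Subgroup G) := by
  classical
  haveI : Fact (Nat.Prime 2) := ⟨Nat.prime_two⟩
  obtain ⟨F, K, hT⟩ := exists_fixed_frame M T
  set V := closure F with hV
  have hVp : IsPGroup 2 V := fun x => ⟨1, Subtype.ext (by simpa using frame_span_sq M K x x.2)⟩
  have hTn : (T : Subgroup G) ≤ normalizer (V : Set G) := by
    intro g hg
    have key : ∀ g ∈ (T : Subgroup G), ∀ v ∈ V, g * v * g⁻¹ ∈ V := by
      intro g hg v hv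
      induction hv using Subgroup.closure_induction with
      | mem y hy => exact subset_closure (hT g hg y hy)
      | one => simp
      | mul p q _ _ ihp ihq =>
        rw [show g * (p * q) * g⁻¹ = g * p * g⁻¹ * (g * q * g⁻¹) by group]; exact mul_mem ihp ihq
      | inv p _ ihp => rw [show g * p⁻¹ * g⁻¹ = (g * p * g⁻¹)⁻¹ by group]; exact inv_mem ihp
    rw [mem_normalizer_iff]
    refine fun v => ⟨key g hg v, fun h => ?_⟩
    have := key g⁻¹ (inv_mem hg) _ h
    simpa [mul_assoc] using this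
  have hVT : V ≤ (T : Subgroup G) := by
    have h := T.is_maximal' (IsPGroup.to_sup_of_normal_right' T.isPGroup' hVp hTn) le_sup_left
    exact h ▸ le_sup_right
  have hFD : {x : G | x ∈ D ∧ x ∈ (T : Subgroup G)} = F := by
    ext x
    refine ⟨fun ⟨hx, hxT⟩ => K.max x hx fun f hf => ?_, fun hx => ⟨K.sub hx, hVT (subset_closure hx)⟩⟩
    by_contra hn
    have h3 : (x * f) ^ 3 = 1 := (M.tr.2 x hx f (K.sub hf)).resolve_left fun h2 => hn (by
      rw [pow_two] at h2
      show x * f = f * x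
      rw [eq_inv_of_mul_eq_one_left h2, mul_inv_rev, inv_eq_of_mul_eq_one_right (M.sq hx),
        inv_eq_of_mul_eq_one_right (M.sq (K.sub hf))])
    obtain ⟨k, hk⟩ := T.isPGroup' ⟨x * f, mul_mem hxT (hVT (subset_closure hf))⟩
    have hk' : (x * f) ^ 2 ^ k = 1 := congrArg Subtype.val hk
    have hg : Nat.Coprime (2 ^ k) 3 := Nat.Coprime.pow_left _ (by norm_num)
    have h1 : (x * f) ^ Nat.gcd (2 ^ k) 3 = 1 := pow_gcd_eq_one.2 ⟨hk', h3⟩
    rw [hg, pow_one] at h1
    exact hn (by rw [eq_inv_of_mul_eq_one_left h1, inv_eq_of_mul_eq_one_right (M.sq (K.sub hf))])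
  rw [hFD]
  have hEl : ∀ B : Subgroup ↥(T : Subgroup G), IsElementaryAbelian 2 B → Nat.card ↥V ≤ Nat.card B →
      B.map (T : Subgroup G).subtype = V := by
    intro B hB hle
    refine elementary_le M K ?_ ?_ ?_ ?_
    · rintro _ ⟨a, ha, rfl⟩ _ ⟨b, hb, rfl⟩
      exact congrArg (fun z : B => ((z : ↥(T : Subgroup G)) : G)) (hB.1.is_comm.comm (⟨a, ha⟩ : B) ⟨b, hb⟩)
    · rintro _ ⟨a, ha, rfl⟩
      have := congrArg (fun z : ↥(T : Subgroup G) => (z : G)) (hB.2 a ha)
      simpa [pow_two] using this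
    · rintro _ ⟨a, -, rfl⟩ u hu
      exact hT a a.2 u hu
    · rwa [card_subtype]
  have hV' : IsElementaryAbelian 2 (V.subgroupOf (T : Subgroup G)) := by
    refine ⟨⟨⟨fun a b => Subtype.ext (Subtype.ext (frame_span_comm M K _ a.2 _ b.2))⟩⟩, fun a ha => ?_⟩
    exact Subtype.ext (frame_span_sq M K _ ha)
  have hcardV : Nat.card ↥(V.subgroupOf (T : Subgroup G)) = Nat.card ↥V :=
    Nat.card_congr (subgroupOfEquivOfLe hVT).toEquiv
  have hmem : V.subgroupOf (T : Subgroup G) ∈ maxElementaryAbelianSubgroups 2 ↥(T : Subgroup G) := by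
    refine ⟨hV', fun B hB => ?_⟩
    by_contra hlt
    rw [hcardV] at hlt
    have := hEl B hB (by omega)
    have hc := congrArg (fun S : Subgroup G => Nat.card S) this
    simp only [card_subtype] at hc
    omega
  have hJ : thompsonSubgroup 2 ↥(T : Subgroup G) = V.subgroupOf (T : Subgroup G) := by
    refine le_antisymm (sSup_le fun B hB => ?_) (le_sSup hmem)
    have h := hB.2 _ hV'
    rw [hcardV] at h
    rw [← hEl B hB.1 h, subgroupOf, comap_map_eq_self_of_injective (T : Subgroup G).subtype_injective]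
  unfold thompsonSubgroupOf
  rw [hJ, map_subgroupOf_eq_of_le hVT]

end Cfsg.Agent.Lib.Involution.FischerTwentyTwo
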