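import Cfsg.Agent.Lib.Involution.FischerStructM24
import Cfsg.Agent.Lib.Involution.FischerPairsM23
import Cfsg.Agent.Lib.Involution.FischerPairFitting
import Cfsg.Agent.Lib.Components.Bender
import Cfsg.Agent.Lib.AutPSU.Count
import Cfsg.Agent.S5464

/-! Type M(24): the centralizer in the commutator subgroup of a product of three commuting members, given
that no member lies in the commutator subgroup. -/

set_option autoImplicit false

namespace Cfsg.Agent.Lib.Involution.FischerTwentyFour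

open Cfsg Cfsg.Agent.Lib.ThreeTransp Cfsg.Agent.Lib.Involution.FischerRel Cfsg.Agent.Lib.Involution.FischerLocal
open Cfsg.Agent.Lib.Involution.FischerTwentyTwo (Nb IsProd nb_conj nb_symm)
open Cfsg.Agent.Lib.Involution.FischerTwentyThree (link_commute)
open scoped commutatorElement

universe u

/-- An automorphism of a group induces one of the quotient by the centre. -/
noncomputable def autQuot (A : Type*) [Group A] : MulAut A →* MulAut (A ⧸ Subgroup.center A) :=
  MonoidHom.mk'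
    (fun α => QuotientGroup.congr (Subgroup.center A) (Subgroup.center A) α
      (Subgroup.characteristic_iff_map_eq.1 inferInstance α))
    fun α β => MulEquiv.ext fun q => by
      obtain ⟨x, rfl⟩ := QuotientGroup.mk_surjective q
      rfl

variable {G : Type u} [Group G] [Finite G] {D : Set G}

omit [Finite G] in
/-- A conjugation fixing the product of a pair permutes the pair. -/
theorem pair_perm (hc : ∀ g : G, ∀ d ∈ D, g * d * g⁻¹ ∈ D) (h2 : Cfsg.Agent.S5464.Det D 2) {a b g : G}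
    (ha : a ∈ D) (hb : b ∈ D) (hab : a ≠ b) (cab : Commute a b) (hg : g * (a * b) * g⁻¹ = a * b) :
    g * a * g⁻¹ = a ∨ g * a * g⁻¹ = b := by
  have key := h2 (a * b) [g * a * g⁻¹, g * b * g⁻¹] [a, b]
    ⟨by simp [hab], rfl,
      by simp only [List.mem_cons, List.not_mem_nil, or_false, forall_eq_or_imp, forall_eq]
         exact ⟨hc g a ha, hc g b hb⟩,
      by simp only [List.mem_cons, List.not_mem_nil, or_false, forall_eq_or_imp, forall_eq]
         simp only [commute_conj_iff]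
         exact ⟨⟨Commute.refl _, cab⟩, cab.symm, Commute.refl _⟩,
      by
        simp only [List.prod_cons, List.prod_nil, mul_one]
        calc g * a * g⁻¹ * (g * b * g⁻¹) = g * (a * b) * g⁻¹ := by group
          _ = a * b := hg⟩
    ⟨by simp [hab], rfl,
      by simp only [List.mem_cons, List.not_mem_nil, or_false, forall_eq_or_imp, forall_eq]
         exact ⟨ha, hb⟩,
      by simp only [List.mem_cons, List.not_mem_nil, or_false, forall_eq_or_imp, forall_eq]
         exact ⟨⟨Commute.refl _, cab⟩, cab.symm, Commute.refl _⟩,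
      by simp⟩
  simpa using (key (g * a * g⁻¹)).1 (by simp)

variable (M : Hyp24 D)
include M

/-- The commutator subgroup and the coset of a member cover the group. -/
theorem mem_or_mul {d : G} (hd : d ∈ D) (g : G) : g ∈ commutator G ∨ g * d ∈ commutator G := by
  have dd := M.sq hd
  have hn : (commutator G).Normal := inferInstance
  have hg : g ∈ Subgroup.closure D := M.gen ▸ Subgroup.mem_top g
  induction hg using Subgroup.closure_induction with
  | mem x hx =>
    right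
    obtain ⟨h, rfl⟩ := M.conj d hd x hx
    have h1 : ⁅h, d⁆ ∈ commutator G := Subgroup.commutator_mem_commutator (Subgroup.mem_top _) (Subgroup.mem_top _)
    rwa [commutatorElement_def, ThreeTransp.inv_eq (M.tr.1 d hd)] at h1
  | one => exact Or.inl (one_mem _)
  | mul x y _ _ hx hy =>
    rcases hx with hx | hx <;> rcases hy with hy | hy
    · exact Or.inl (mul_mem hx hy)
    · right; rw [mul_assoc]; exact mul_mem hx hy
    · right
      rw [show x * y * d = x * d * (d⁻¹ * y * d⁻¹⁻¹) by group]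
      exact mul_mem hx (hn.conj_mem y hy d⁻¹)
    · left
      have e : x * y = x * d * (d⁻¹ * (y * d) * d⁻¹⁻¹) := by
        rw [show x * d * (d⁻¹ * (y * d) * d⁻¹⁻¹) = x * y * (d * d) by group, dd, mul_one]
      rw [e]
      exact mul_mem hx (hn.conj_mem _ hy d⁻¹)
  | inv x _ hx =>
    rcases hx with hx | hx
    · exact Or.inl (inv_mem hx)
    · right
      rw [show x⁻¹ * d = d * (x * d)⁻¹ * d⁻¹ * (d * d) by group, dd, mul_one]
      exact hn.conj_mem _ (inv_mem hx) d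

theorem triple_main (hsign : ∀ d ∈ D, d ∉ commutator G) (hdet2 : Cfsg.Agent.S5464.Det D 2)
    (hdet3 : Cfsg.Agent.S5464.Det D 3) {d₁ d₂ d₃ : G} (h₁ : d₁ ∈ D) (h₂ : d₂ ∈ D) (h₃ : d₃ ∈ D)
    (h12 : d₁ ≠ d₂) (h13 : d₁ ≠ d₃) (h23 : d₂ ≠ d₃) (c12 : Commute d₁ d₂) (c13 : Commute d₁ d₃)
    (c23 : Commute d₂ d₃) (E CL K : Subgroup G) (hE : E = Subgroup.closure ({d₁ * d₂, d₁ * d₃} : Set G))
    (hCL : CL = commutator G ⊓ Subgroup.centralizer ({d₁ * d₂ * d₃} : Set G))
    (hK : K = (Cfsg.generalizedFittingSubgroup ↥CL).map CL.subtype) :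
    Cfsg.IsQuasisimple ↥K ∧ (Subgroup.center ↥K).map K.subtype = E ∧
      K = commutator G ⊓ Subgroup.centralizer (E : Set G) ∧
      (∃ (_ : (E.subgroupOf K).Normal) (F : Type) (_ : Field F) (_ : Fintype F),
        Fintype.card F = 4 ∧ Nonempty (↥K ⧸ E.subgroupOf K ≃* Cfsg.PSU 6 F 2)) ∧
      ∃ _ : (K.subgroupOf CL).Normal, Nonempty (↥CL ⧸ K.subgroupOf CL ≃* Equiv.Perm (Fin 3)) ∧ E ≤ CL ∧
        ∃ (_ : (E.subgroupOf CL).Normal) (F : Type) (_ : Field F) (_ : Fintype F),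
          Fintype.card F = 4 ∧ Nonempty (↥CL ⧸ E.subgroupOf CL ≃* MulAut (Cfsg.PSU 6 F 2)) := by
  classical
  set L := commutator G with hLdef
  have hLn : L.Normal := inferInstance
  have mL := mem_or_mul M h₁
  have pairL : ∀ {x y : G}, x ∈ D → y ∈ D → x * y ∈ L := by
    intro x y hx hy
    rcases mem_or_mul M hy x with h | h
    · exact absurd h (hsign x hx)
    · exact h
  -- the cover of `d₁`
  set C := M.cv h₁
  have n2 : d₂ ∈ Nb D d₁ := ⟨h₂, Ne.symm h12, c12⟩
  have n3 : d₃ ∈ Nb D d₁ := ⟨h₃, Ne.symm h13, c13⟩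
  set p₂ := C.pr d₂ with hp₂
  set p₃ := C.pr d₃ with hp₃
  have q2 : p₂ ∈ C.E := C.pr_mem n2
  have q3 : p₃ ∈ C.E := C.pr_mem n3
  have qne : p₂ ≠ p₃ := fun e => h23 (C.pr_inj n2 n3 e)
  have qc : Commute p₂ p₃ := (C.pr_comm n2 n3).2 c23
  set K' := Subgroup.centralizer ({p₂, p₃} : Set C.X) with hK'
  set C' := Subgroup.centralizer ({p₂ * p₃} : Set C.X) with hC'
  set V' := Subgroup.closure ({p₂, p₃} : Set C.X) with hV'
  have hV2 : p₂ ∈ V' := Subgroup.subset_closure (by simp)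
  have hV3 : p₃ ∈ V' := Subgroup.subset_closure (by simp)
  have hlift : ∀ c : C.X, c * (p₂ * p₃) * c⁻¹ = p₂ * p₃ → c * p₂ * c⁻¹ ∈ V' ∧ c * p₃ * c⁻¹ ∈ V' := by
    intro c hc
    obtain ⟨u, rfl⟩ := C.surj c
    have hd2U : d₂ ∈ LinkGroup D d₁ := Subgroup.subset_closure n2
    have hd3U : d₃ ∈ LinkGroup D d₁ := Subgroup.subset_closure n3
    rw [hp₂, hp₃, C.pr_eq n2, C.pr_eq n3, ← map_mul, ← map_inv, ← map_mul, ← map_mul] at hc
    have h1 := ker_cases M h₁ ((u * (⟨d₂, hd2U⟩ * ⟨d₃, hd3U⟩) * u⁻¹)⁻¹ * (⟨d₂, hd2U⟩ * ⟨d₃, hd3U⟩))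
      (by rw [map_mul, map_inv, hc, inv_mul_cancel])
    simp only [Subgroup.coe_mul, Subgroup.coe_inv] at h1
    have hfix : (u : G) * (d₂ * d₃) * (u : G)⁻¹ = d₂ * d₃ := by
      rcases h1 with h1 | h1
      · exact inv_mul_eq_one.1 h1
      · exfalso
        rw [inv_mul_eq_iff_eq_mul] at h1
        have e : (u : G) * (d₂ * d₃) * (u : G)⁻¹ = d₂ * d₃ * d₁ := by
          calc (u : G) * (d₂ * d₃) * (u : G)⁻¹ = (u : G) * (d₂ * d₃) * (u : G)⁻¹ * (d₁ * d₁) := by
                rw [M.sq h₁, mul_one]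
            _ = d₂ * d₃ * d₁ := by rw [← mul_assoc, ← h1]
        have w2 : IsProd D 2 (d₂ * d₃ * d₁) := by
          rw [← e, show (u : G) * (d₂ * d₃) * (u : G)⁻¹ = ((u : G) * d₂ * (u : G)⁻¹) * ((u : G) * d₃ * (u : G)⁻¹) by group]
          exact FischerTwentyTwo.isProd_two (M.cl u d₂ h₂) (nb_conj M.cl u ⟨h₃, Ne.symm h23, c23⟩)
        have w3 : IsProd D 3 (d₂ * d₃ * d₁) :=
          FischerTwentyTwo.isProd_three h₂ ⟨h₃, Ne.symm h23, c23⟩
            ⟨⟨h₁, h12, c12.symm⟩, h₁, h13, c13.symm⟩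
        have := isProd_unique M (by norm_num) (by norm_num) w2 w3
        omega
    have hmem : ∀ x : G, x = d₂ ∨ x = d₃ → ∃ h : x ∈ LinkGroup D d₁, C.π ⟨x, h⟩ ∈ V' := by
      rintro x (rfl | rfl)
      · exact ⟨hd2U, by rw [← C.pr_eq n2]; exact hV2⟩
      · exact ⟨hd3U, by rw [← C.pr_eq n3]; exact hV3⟩
    constructor
    · obtain ⟨h, hm⟩ := hmem _ (pair_perm M.cl hdet2 h₂ h₃ h23 c23 hfix)
      rw [hp₂, C.pr_eq n2, ← map_inv, ← map_mul, ← map_mul]
      exact hm
    · obtain ⟨h, hm⟩ := hmem _ ((pair_perm M.cl hdet2 h₃ h₂ h23.symm c23.symm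
        (by rw [← c23.eq]; exact hfix)).symm)
      rw [hp₃, C.pr_eq n3, ← map_inv, ← map_mul, ← map_mul]
      exact hm
  have hVC : ∀ c ∈ C', ∀ v ∈ V', c * v * c⁻¹ ∈ V' := by
    intro c hc v hv
    have hfix : c * (p₂ * p₃) * c⁻¹ = p₂ * p₃ := by
      rw [(Subgroup.mem_centralizer_singleton_iff.1 hc), mul_inv_cancel_right]
    have hle : V' ≤ V'.comap (MulAut.conj c).toMonoidHom := by
      rw [hV', Subgroup.closure_le]
      rintro x (rfl | rfl)
      exacts [(hlift c hfix).1, (hlift c hfix).2]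
    exact hle hv
  haveI : (V'.subgroupOf C').Normal :=
    ⟨fun v hv c => Subgroup.mem_subgroupOf.2 (hVC c c.2 v (Subgroup.mem_subgroupOf.1 hv))⟩
  obtain ⟨-, -, hcen', hqs', hpsu', -⟩ :=
    FischerTwentyThree.pair_centralizer C.hyp q2 q3 qne qc K' C' V' hK' hC' hV'
  -- `J` is the joint centralizer of the three members in `L`
  set J : Subgroup G := L ⊓ Subgroup.centralizer ({d₁, d₂, d₃} : Set G) with hJ
  have hJm : ∀ g, g ∈ J ↔ g ∈ L ∧ Commute g d₁ ∧ Commute g d₂ ∧ Commute g d₃ := fun g => by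
    rw [hJ, Subgroup.mem_inf, Subgroup.mem_centralizer_iff]
    simp only [Set.mem_insert_iff, Set.mem_singleton_iff, forall_eq_or_imp, forall_eq]
    exact ⟨fun h => ⟨h.1, h.2.1.symm, h.2.2.1.symm, h.2.2.2.symm⟩,
      fun h => ⟨h.1, h.2.1.eq.symm, h.2.2.1.eq.symm, h.2.2.2.eq.symm⟩⟩
  have hJU : J ≤ LinkGroup D d₁ := fun g hg => by
    rw [centralizer_eq_link M h₁]
    exact Subgroup.mem_centralizer_singleton_iff.2 ((hJm g).1 hg).2.1.eq
  let φ : ↥J →* ↥K' := (C.π.comp (Subgroup.inclusion hJU)).codRestrict K' fun g => by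
    rw [hK', Subgroup.mem_centralizer_iff]
    simp only [Set.mem_insert_iff, Set.mem_singleton_iff, forall_eq_or_imp, forall_eq]
    rw [hp₂, hp₃, C.pr_eq n2, C.pr_eq n3, MonoidHom.comp_apply, ← map_mul, ← map_mul, ← map_mul, ← map_mul]
    exact ⟨congrArg C.π (Subtype.ext ((hJm g).1 g.2).2.2.1.eq.symm),
      congrArg C.π (Subtype.ext ((hJm g).1 g.2).2.2.2.eq.symm)⟩
  have hφinj : Function.Injective φ := by
    rw [injective_iff_map_eq_one]
    intro g hg
    rcases ker_cases M h₁ (Subgroup.inclusion hJU g) (congrArg Subtype.val hg) with e | e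
    · exact Subtype.ext e
    · exact absurd (show (d₁ : G) ∈ L from e ▸ ((hJm g).1 g.2).1) (hsign d₁ h₁)
  have hπd : C.π ⟨d₁, mem_link M h₁⟩ = 1 := (C.ker _).2 fun e he => he.2.2
  have hφsurj : Function.Surjective φ := by
    rintro ⟨q, hq⟩
    obtain ⟨u, rfl⟩ := C.surj q
    have hu1 : Commute (u : G) d₁ := (link_commute d₁ u)
    have hcomm : ∀ {x : G}, x ∈ Nb D d₁ → Commute (C.π u) (C.pr x) → Commute (u : G) x := by
      intro x hx h
      have h1 := C.conj_pr M.cl u hx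
      refine mul_inv_eq_iff_eq_mul.1 (C.pr_inj h1.1 hx ?_)
      rw [h1.2, h.eq, mul_inv_cancel_right]
    rw [hK', Subgroup.mem_centralizer_iff] at hq
    have hu2 : Commute (u : G) d₂ := hcomm n2 (hq p₂ (by simp)).symm
    have hu3 : Commute (u : G) d₃ := hcomm n3 (hq p₃ (by simp)).symm
    rcases mL (u : G) with h | h
    · exact ⟨⟨u, (hJm _).2 ⟨h, hu1, hu2, hu3⟩⟩, Subtype.ext rfl⟩
    · refine ⟨⟨(u : G) * d₁, (hJm _).2 ⟨h, hu1.mul_left (Commute.refl _), hu2.mul_left c12,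
        hu3.mul_left c13⟩⟩, Subtype.ext ?_⟩
      show C.π (u * ⟨d₁, mem_link M h₁⟩) = _
      rw [map_mul, hπd, mul_one]
  let eJ : ↥J ≃* ↥K' := MulEquiv.ofBijective φ ⟨hφinj, hφsurj⟩
  have hqsJ : IsQuasisimple ↥J := (Lib.Components.qs_congr eJ).2 hqs'
  -- the centre
  have m12 : d₁ * d₂ ∈ J := (hJm _).2 ⟨pairL h₁ h₂, (Commute.refl _).mul_left c12.symm,
    c12.mul_left (Commute.refl _), c13.mul_left c23⟩
  have m13 : d₁ * d₃ ∈ J := (hJm _).2 ⟨pairL h₁ h₃, (Commute.refl _).mul_left c13.symm,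
    c12.mul_left c23.symm, c13.mul_left (Commute.refl _)⟩
  have hEJ : E ≤ J := by
    rw [hE, Subgroup.closure_le]
    rintro x (rfl | rfl)
    exacts [m12, m13]
  have hEcomm : ∀ v ∈ E, ∀ g ∈ J, Commute g v := by
    intro v hv g hg
    have hle : E ≤ Subgroup.centralizer ({g} : Set G) := by
      rw [hE, Subgroup.closure_le]
      obtain ⟨-, a, b, c⟩ := (hJm g).1 hg
      rintro x (rfl | rfl)
      exacts [Subgroup.mem_centralizer_singleton_iff.2 (a.mul_right b).symm.eq,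
        Subgroup.mem_centralizer_singleton_iff.2 (a.mul_right c).symm.eq]
    exact (show Commute v g from Subgroup.mem_centralizer_singleton_iff.1 (hle hv)).symm
  have hval : ∀ {x : G} (hx : x ∈ J), (φ ⟨x, hx⟩ : C.X) = C.π ⟨x, hJU hx⟩ := fun hx => rfl
  have hφ12 : (φ ⟨_, m12⟩ : C.X) = p₂ := by
    rw [hval, hp₂, C.pr_eq n2,
      show (⟨d₁ * d₂, hJU m12⟩ : ↥(LinkGroup D d₁)) = ⟨d₁, mem_link M h₁⟩ * ⟨d₂, Subgroup.subset_closure n2⟩ from rfl,
      map_mul, hπd, one_mul]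
  have hφ13 : (φ ⟨_, m13⟩ : C.X) = p₃ := by
    rw [hval, hp₃, C.pr_eq n3,
      show (⟨d₁ * d₃, hJU m13⟩ : ↥(LinkGroup D d₁)) = ⟨d₁, mem_link M h₁⟩ * ⟨d₃, Subgroup.subset_closure n3⟩ from rfl,
      map_mul, hπd, one_mul]
  have hcenJ : (Subgroup.center ↥J).map J.subtype = E := by
    apply le_antisymm
    · rintro _ ⟨z, hz, rfl⟩
      have h1 : (φ z : C.X) ∈ V' := by
        rw [← hcen']
        refine ⟨φ z, Subgroup.mem_center_iff.2 fun q => ?_, rfl⟩
        obtain ⟨k, rfl⟩ := hφsurj q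
        rw [← map_mul, ← map_mul, Subgroup.mem_center_iff.1 hz k]
      have hle : V' ≤ ((E.subgroupOf J).map φ).map K'.subtype := by
        rw [hV', Subgroup.closure_le]
        rintro x (rfl | rfl)
        · exact ⟨φ ⟨_, m12⟩, ⟨⟨_, m12⟩, Subgroup.mem_subgroupOf.2 (hE ▸ Subgroup.subset_closure (by simp)), rfl⟩, hφ12⟩
        · exact ⟨φ ⟨_, m13⟩, ⟨⟨_, m13⟩, Subgroup.mem_subgroupOf.2 (hE ▸ Subgroup.subset_closure (by simp)), rfl⟩, hφ13⟩
      obtain ⟨y, ⟨w, hw, e1⟩, e2⟩ := hle h1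
      rw [← e1] at e2
      have e3 : w = z := hφinj (Subtype.ext e2)
      exact e3 ▸ Subgroup.mem_subgroupOf.1 hw
    · intro v hv
      exact ⟨⟨v, hEJ hv⟩, Subgroup.mem_center_iff.2 fun g => Subtype.ext (hEcomm v hv g g.2).eq, rfl⟩
  have hEsub : E.subgroupOf J = Subgroup.center ↥J := by
    rw [← hcenJ]
    exact Subgroup.comap_map_eq_self_of_injective J.subtype_injective _
  -- `J` centralizes `E` exactly
  have hJE : J = L ⊓ Subgroup.centralizer (E : Set G) := by
    apply le_antisymm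
    · exact le_inf inf_le_left fun g hg => Subgroup.mem_centralizer_iff.2 fun v hv => (hEcomm v hv g hg).eq.symm
    · intro g hg
      obtain ⟨hgL, hgE⟩ := Subgroup.mem_inf.1 hg
      rw [Subgroup.mem_centralizer_iff] at hgE
      have h1 : g * (d₁ * d₂) * g⁻¹ = d₁ * d₂ := by
        rw [← hgE (d₁ * d₂) (hE ▸ Subgroup.subset_closure (by simp)), mul_inv_cancel_right]
      have h2 : g * (d₁ * d₃) * g⁻¹ = d₁ * d₃ := by
        rw [← hgE (d₁ * d₃) (hE ▸ Subgroup.subset_closure (by simp)), mul_inv_cancel_right]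
      have e1 : g * d₁ * g⁻¹ = d₁ := by
        rcases pair_perm M.cl hdet2 h₁ h₂ h12 c12 h1 with a | a
        · exact a
        · rcases pair_perm M.cl hdet2 h₁ h₃ h13 c13 h2 with b | b
          · exact b
          · exact absurd (a.symm.trans b) h23
      have e2 : g * d₂ * g⁻¹ = d₂ := by
        rw [show g * d₂ * g⁻¹ = (g * d₁ * g⁻¹)⁻¹ * (g * (d₁ * d₂) * g⁻¹) by group, e1, h1, inv_mul_cancel_left]
      have e3 : g * d₃ * g⁻¹ = d₃ := by
        rw [show g * d₃ * g⁻¹ = (g * d₁ * g⁻¹)⁻¹ * (g * (d₁ * d₃) * g⁻¹) by group, e1, h2, inv_mul_cancel_left]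
      exact (hJm g).2 ⟨hgL, mul_inv_eq_iff_eq_mul.1 e1, mul_inv_eq_iff_eq_mul.1 e2, mul_inv_eq_iff_eq_mul.1 e3⟩
  have hCLm : ∀ g, g ∈ CL ↔ g ∈ L ∧ g * (d₁ * d₂ * d₃) * g⁻¹ = d₁ * d₂ * d₃ := fun g => by
    rw [hCL, Subgroup.mem_inf, Subgroup.mem_centralizer_singleton_iff]
    exact and_congr_right fun _ => mul_inv_eq_iff_eq_mul.symm
  have hJCL : J ≤ CL := fun g hg => by
    obtain ⟨hgL, a, b, c⟩ := (hJm g).1 hg
    exact (hCLm g).2 ⟨hgL, mul_inv_eq_iff_eq_mul.2 ((a.mul_right b).mul_right c).eq⟩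
  have hECL : E ≤ CL := hEJ.trans hJCL
  -- the permutation action
  set d : Fin 3 → G := ![d₁, d₂, d₃] with hd
  have hdm : ∀ i, d i ∈ D := by intro i; fin_cases i <;> assumption
  have hdi : Function.Injective d := by
    intro i k e
    fin_cases i <;> fin_cases k <;> first | rfl | exact absurd e h12 | exact absurd e h13 | exact absurd e h23 | exact absurd e h12.symm | exact absurd e h13.symm | exact absurd e h23.symm
  have hdc : ∀ i k, Commute (d i) (d k) := by
    intro i k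
    fin_cases i <;> fin_cases k <;> first | exact Commute.refl _ | assumption | exact c12.symm | exact c13.symm | exact c23.symm
  have hperm : ∀ c : ↥CL, ∃ σ : Equiv.Perm (Fin 3), ∀ i, (c : G) * d i * (c : G)⁻¹ = d (σ i) := by
    rintro ⟨c, hcC⟩
    have hcj := ((hCLm c).1 hcC).2
    have key := hdet3 (d₁ * d₂ * d₃) [c * d 0 * c⁻¹, c * d 1 * c⁻¹, c * d 2 * c⁻¹] [d 0, d 1, d 2]
      ⟨by simp only [List.nodup_cons, List.mem_cons, List.not_mem_nil, or_false, mul_left_inj, mul_right_inj,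
            hdi.eq_iff, List.nodup_nil, and_true, not_false_eq_true]; decide, rfl,
        by simp only [List.mem_cons, List.not_mem_nil, or_false, forall_eq_or_imp, forall_eq];
           exact ⟨M.cl _ _ (hdm 0), M.cl _ _ (hdm 1), M.cl _ _ (hdm 2)⟩,
        by simp only [List.mem_cons, List.not_mem_nil, or_false, forall_eq_or_imp, forall_eq];
           simp only [commute_conj_iff]
           exact ⟨⟨hdc _ _, hdc _ _, hdc _ _⟩, ⟨hdc _ _, hdc _ _, hdc _ _⟩, hdc _ _, hdc _ _, hdc _ _⟩,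
        by
          simp only [List.prod_cons, List.prod_nil, mul_one, hd]
          calc c * d₁ * c⁻¹ * (c * d₂ * c⁻¹ * (c * d₃ * c⁻¹)) = c * (d₁ * d₂ * d₃) * c⁻¹ := by group
            _ = _ := hcj⟩
      ⟨by simp only [List.nodup_cons, List.mem_cons, List.not_mem_nil, or_false,
            hdi.eq_iff, List.nodup_nil, and_true, not_false_eq_true]; decide, rfl,
        by simp only [List.mem_cons, List.not_mem_nil, or_false, forall_eq_or_imp, forall_eq];
           exact ⟨hdm 0, hdm 1, hdm 2⟩,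
        by simp only [List.mem_cons, List.not_mem_nil, or_false, forall_eq_or_imp, forall_eq];
           exact ⟨⟨hdc _ _, hdc _ _, hdc _ _⟩, ⟨hdc _ _, hdc _ _, hdc _ _⟩, hdc _ _, hdc _ _, hdc _ _⟩,
        by simp [hd, mul_assoc]⟩
    have hex : ∀ i, ∃ k, c * d i * c⁻¹ = d k := by
      intro i
      have h1 := (key (c * d i * c⁻¹)).1 (by fin_cases i <;> simp)
      simp only [List.mem_cons, List.not_mem_nil, or_false] at h1
      rcases h1 with h | h | h
      exacts [⟨0, h⟩, ⟨1, h⟩, ⟨2, h⟩]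
    choose f hf using hex
    have hfi : Function.Injective f := fun a b e => hdi (by
      have := (hf a).trans (e ▸ (hf b).symm)
      simpa using this)
    exact ⟨Equiv.ofBijective f (Finite.injective_iff_bijective.1 hfi), hf⟩
  choose σ hσ using hperm
  have huniq : ∀ (c : ↥CL) (τ : Equiv.Perm (Fin 3)), (∀ i, (c : G) * d i * (c : G)⁻¹ = d (τ i)) → σ c = τ :=
    fun c τ h => Equiv.ext fun i => hdi ((hσ c i).symm.trans (h i))
  let Φ : ↥CL →* Equiv.Perm (Fin 3) := MonoidHom.mk' σ fun a b => huniq _ _ fun i => by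
    rw [Equiv.Perm.mul_apply, ← hσ a, ← hσ b, Subgroup.coe_mul]; group
  have hker : Φ.ker = J.subgroupOf CL := by
    ext c
    rw [MonoidHom.mem_ker, Subgroup.mem_subgroupOf, hJm]
    constructor
    · intro h
      have hi : ∀ i, Commute (c : G) (d i) := fun i => mul_inv_eq_iff_eq_mul.1 (by
        rw [hσ c i, show σ c = 1 from h, Equiv.Perm.one_apply])
      exact ⟨((hCLm c).1 c.2).1, hi 0, hi 1, hi 2⟩
    · rintro ⟨-, a, b, e⟩
      refine huniq c 1 fun i => ?_
      rw [Equiv.Perm.one_apply]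
      fin_cases i
      exacts [mul_inv_eq_iff_eq_mul.2 a.eq, mul_inv_eq_iff_eq_mul.2 b.eq, mul_inv_eq_iff_eq_mul.2 e.eq]
  have hΦsurj : Function.Surjective Φ := by
    intro τ
    have nb : ∀ i k : Fin 3, i ≠ k → d k ∈ Nb D (d i) := fun i k h =>
      ⟨hdm k, fun e => h (hdi e).symm, hdc i k⟩
    have ti : ∀ {i k : Fin 3}, i ≠ k → τ i ≠ τ k := fun h e => h (τ.injective e)
    obtain ⟨g, g0, g1, g2⟩ := conj_triple M (hdm 0) (hdm (τ 0)) (nb 0 1 (by decide)) (nb _ _ (ti (by decide)))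
      ⟨nb 0 2 (by decide), nb 1 2 (by decide)⟩ ⟨nb _ _ (ti (i := 0) (k := 2) (by decide)), nb _ _ (ti (i := 1) (k := 2) (by decide))⟩
    have hall : ∀ i, g * d i * g⁻¹ = d (τ i) := by intro i; fin_cases i <;> assumption
    have hj : g * (d₁ * d₂ * d₃) * g⁻¹ = d₁ * d₂ * d₃ := by
      have e : g * (d₁ * d₂ * d₃) * g⁻¹ = d (τ 0) * d (τ 1) * d (τ 2) := by
        rw [show g * (d₁ * d₂ * d₃) * g⁻¹ = (g * d 0 * g⁻¹) * (g * d 1 * g⁻¹) * (g * d 2 * g⁻¹) by simp [hd, mul_assoc],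
          hall, hall, hall]
      rw [e]
      have hp := (((by decide : ∀ t : Equiv.Perm (Fin 3), List.Perm [t 0, t 1, t 2] [0, 1, 2]) τ).map d).prod_eq'
        (List.pairwise_of_forall_mem_list fun a ha b hb => by
          obtain ⟨a', -, rfl⟩ := List.mem_map.1 ha
          obtain ⟨b', -, rfl⟩ := List.mem_map.1 hb
          exact hdc a' b')
      simpa [hd, mul_assoc] using hp
    rcases mL g with h | h
    · exact ⟨⟨g, (hCLm g).2 ⟨h, hj⟩⟩, huniq _ _ hall⟩
    · have hd1 : ∀ i, d₁ * d i * d₁⁻¹ = d i := fun i =>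
        mul_inv_eq_iff_eq_mul.2 (hdc 0 i).eq
      refine ⟨⟨g * d₁, (hCLm _).2 ⟨h, ?_⟩⟩, huniq _ _ fun i => ?_⟩
      · rw [show g * d₁ * (d₁ * d₂ * d₃) * (g * d₁)⁻¹ = g * (d₁ * (d₁ * d₂ * d₃) * d₁⁻¹) * g⁻¹ by group,
          show d₁ * (d₁ * d₂ * d₃) * d₁⁻¹ = d₁ * d₂ * d₃ from
            mul_inv_eq_iff_eq_mul.2 (((Commute.refl d₁).mul_right c12).mul_right c13).eq, hj]
      · show g * d₁ * d i * (g * d₁)⁻¹ = _
        rw [show g * d₁ * d i * (g * d₁)⁻¹ = g * (d₁ * d i * d₁⁻¹) * g⁻¹ by group, hd1, hall]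
  haveI hJn : (J.subgroupOf CL).Normal := hker ▸ Φ.normal_ker
  have hS3 : Nonempty (↥CL ⧸ J.subgroupOf CL ≃* Equiv.Perm (Fin 3)) :=
    ⟨(QuotientGroup.quotientMulEquivOfEq hker.symm).trans (QuotientGroup.quotientKerEquivOfSurjective Φ hΦsurj)⟩
  -- the generalized Fitting subgroup
  set A := J.subgroupOf CL with hA
  let eA : ↥A ≃* ↥J := Subgroup.subgroupOfEquivOfLe hJCL
  have hcompA : IsComponent A := ⟨hJn.isSubnormal, (Lib.Components.qs_congr eA).2 hqsJ⟩
  have hself : ∀ c : ↥CL, (∀ x ∈ J, Commute (c : G) x) → (c : G) ∈ E := by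
    intro c hc
    have h1 : (c : G) ∈ J := by
      rw [hJE]
      exact Subgroup.mem_inf.2 ⟨((hCLm c).1 c.2).1, Subgroup.mem_centralizer_iff.2 fun v hv => (hc v (hEJ hv)).eq.symm⟩
    rw [← hcenJ]
    exact ⟨⟨c, h1⟩, Subgroup.mem_center_iff.2 fun x => Subtype.ext (hc x x.2).eq.symm, rfl⟩
  have hcentA : Subgroup.centralizer (A : Set ↥CL) ≤ A := by
    intro c hc
    refine Subgroup.mem_subgroupOf.2 (hEJ (hself c fun x hx => ?_))
    exact (congrArg Subtype.val (Subgroup.mem_centralizer_iff.1 hc ⟨x, hJCL hx⟩ (Subgroup.mem_subgroupOf.2 hx))).symm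
  have hgfs : Cfsg.generalizedFittingSubgroup ↥CL = A := by
    refine le_antisymm (sup_le ?_ ?_) (le_sup_of_le_left (Lib.Components.comp_le_layer hcompA))
    · rw [Lib.Components.layer_le_iff]
      intro L' hL'
      by_cases e : L' = A
      · exact e.le
      · exact (Subgroup.commutator_eq_bot_iff_le_centralizer.1 (Lib.Components.comp_commute hL' hcompA e)).trans hcentA
    · have h1 : ⁅A, fittingSubgroup ↥CL⁆ = ⊥ :=
        Lib.Components.comp_commute_normal_solvable hcompA Lib.Components.fittingSubgroup_solvable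
      rw [Subgroup.commutator_comm] at h1
      exact (Subgroup.commutator_eq_bot_iff_le_centralizer.1 h1).trans hcentA
  have hKJ : K = J := by
    rw [hK, hgfs, hA, Subgroup.map_subgroupOf_eq_of_le hJCL]
  subst hKJ
  -- modulo the centre
  obtain ⟨F, iF, iFt, hF, ⟨ψ⟩⟩ := hpsu'
  have hcm : (Subgroup.center ↥J).map eJ.toMonoidHom = Subgroup.center ↥K' := by
    apply le_antisymm
    · rintro _ ⟨z, hz, rfl⟩
      refine Subgroup.mem_center_iff.2 fun k => eJ.symm.injective ?_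
      simp [Subgroup.mem_center_iff.1 hz (eJ.symm k)]
    · intro z hz
      refine ⟨eJ.symm z, Subgroup.mem_center_iff.2 fun k => eJ.injective ?_, by simp⟩
      simp [Subgroup.mem_center_iff.1 hz (eJ k)]
  let ψJ : ↥J ⧸ Subgroup.center ↥J ≃* Cfsg.PSU 6 F 2 := (QuotientGroup.congr _ _ eJ hcm).trans ψ
  haveI hEnJ : (E.subgroupOf J).Normal := hEsub ▸ inferInstance
  refine ⟨hqsJ, hcenJ, hJE, ⟨hEnJ, F, iF, iFt, hF, ⟨(QuotientGroup.quotientMulEquivOfEq hEsub).trans ψJ⟩⟩,
    hJn, hS3, hECL, ?_⟩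
  -- the action on `J` modulo its centre
  have hcA : (Subgroup.center ↥A).map eA.toMonoidHom = Subgroup.center ↥J := by
    apply le_antisymm
    · rintro _ ⟨z, hz, rfl⟩
      refine Subgroup.mem_center_iff.2 fun k => eA.symm.injective ?_
      simp [Subgroup.mem_center_iff.1 hz (eA.symm k)]
    · intro z hz
      refine ⟨eA.symm z, Subgroup.mem_center_iff.2 fun k => eA.injective ?_, by simp⟩
      simp [Subgroup.mem_center_iff.1 hz (eA k)]
  let ψA : ↥A ⧸ Subgroup.center ↥A ≃* Cfsg.PSU 6 F 2 := (QuotientGroup.congr _ _ eA hcA).trans ψJ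
  let Θ : ↥CL →* MulAut (Cfsg.PSU 6 F 2) :=
    ((MulAut.congr ψA).toMonoidHom.comp (autQuot ↥A)).comp MulAut.conjNormal
  have hkerΘ : Θ.ker = E.subgroupOf CL := by
    ext c
    rw [MonoidHom.mem_ker, Subgroup.mem_subgroupOf]
    constructor
    · intro h
      have h' : autQuot ↥A (MulAut.conjNormal c) = 1 := (MulAut.congr ψA).injective (by rw [map_one]; exact h)
      have hα : ∀ x : ↥A, MulAut.conjNormal c x * x⁻¹ ∈ Subgroup.center ↥A := by
        intro x
        have h1 : (QuotientGroup.mk (MulAut.conjNormal c x) : ↥A ⧸ Subgroup.center ↥A) = QuotientGroup.mk x :=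
          DFunLike.congr_fun h' (QuotientGroup.mk x)
        rw [← QuotientGroup.eq_one_iff, QuotientGroup.mk_mul, QuotientGroup.mk_inv, h1, mul_inv_cancel]
      have hfix := Lib.Components.aut_eq_self_of_central
        (Group.isPerfect_def.1 ((Lib.Components.qs_congr eA).2 hqsJ).1)
        ((MulAut.conjNormal c : MulAut ↥A) : ↥A →* ↥A) hα
      refine hself c fun x hx => ?_
      have h2 := congrArg (fun y : ↥A => ((y : ↥CL) : G)) (hfix ⟨⟨x, hJCL hx⟩, Subgroup.mem_subgroupOf.2 hx⟩)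
      simp only [MonoidHom.coe_coe, MulAut.conjNormal_apply, Subgroup.coe_mul, Subgroup.coe_inv] at h2
      exact mul_inv_eq_iff_eq_mul.1 h2
    · intro hc
      have h1 : MulAut.conjNormal (H := A) c = 1 := by
        ext x
        have hx : ((x : ↥CL) : G) ∈ J := Subgroup.mem_subgroupOf.1 x.2
        simp only [MulAut.conjNormal_apply, Subgroup.coe_mul, Subgroup.coe_inv, MulAut.one_apply]
        exact mul_inv_eq_iff_eq_mul.2 (hEcomm _ hc _ hx).eq.symm
      show ((MulAut.congr ψA).toMonoidHom.comp (autQuot ↥A)) (MulAut.conjNormal c) = 1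
      rw [h1, map_one]
  haveI hEnCL : (E.subgroupOf CL).Normal := hkerΘ ▸ Θ.normal_ker
  let eΘ : ↥CL ⧸ E.subgroupOf CL ≃* ↥Θ.range :=
    (QuotientGroup.quotientMulEquivOfEq hkerΘ.symm).trans (QuotientGroup.quotientKerEquivRange Θ)
  haveI : Fact (Nat.Prime 2) := ⟨Nat.prime_two⟩
  have haut : Nat.card (MulAut (Cfsg.PSU 6 F 2)) = 6 * Nat.card (Cfsg.PSU 6 F 2) := by
    rw [Lib.AutPSU.card_aut (n := 6) (q := 2) (F := F) (by rw [hF]; norm_num) (by norm_num) (by norm_num)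
      (p := 2) (k := 1) le_rfl (by norm_num)]
    norm_num
  have hPpos : 0 < Nat.card (Cfsg.PSU 6 F 2) := Nat.card_pos
  haveI : Finite (MulAut (Cfsg.PSU 6 F 2)) := Nat.finite_of_card_ne_zero (by rw [haut]; omega)
  have hrange : Θ.range = ⊤ := by
    refine Subgroup.eq_top_of_card_eq _ ?_
    rw [← Nat.card_congr eΘ.toEquiv, haut]
    have e1 := Subgroup.card_eq_card_quotient_mul_card_subgroup (E.subgroupOf CL)
    have e2 := Subgroup.card_eq_card_quotient_mul_card_subgroup (J.subgroupOf CL)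
    have e3 := Subgroup.card_eq_card_quotient_mul_card_subgroup (E.subgroupOf J)
    rw [Nat.card_congr (Subgroup.subgroupOfEquivOfLe hECL).toEquiv] at e1
    obtain ⟨eS⟩ := hS3
    rw [Nat.card_congr (Subgroup.subgroupOfEquivOfLe hJCL).toEquiv, Nat.card_congr eS.toEquiv,
      Nat.card_perm, Nat.card_fin] at e2
    rw [Nat.card_congr (Subgroup.subgroupOfEquivOfLe hEJ).toEquiv,
      Nat.card_congr ((QuotientGroup.quotientMulEquivOfEq hEsub).trans ψJ).toEquiv] at e3
    rw [e2, e3, ← mul_assoc] at e1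
    have h6 : Nat.factorial 3 = 6 := rfl
    rw [h6] at e1
    exact (Nat.eq_of_mul_eq_mul_right Nat.card_pos e1).symm
  exact ⟨hEnCL, F, iF, iFt, hF, ⟨(eΘ.trans (MulEquiv.subgroupCongr hrange)).trans Subgroup.topEquiv⟩⟩

end Cfsg.Agent.Lib.Involution.FischerTwentyFour
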