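import Cfsg.Agent.Lib.Involution.ZStar
import Cfsg.Agent.Lib.Coprime.Action

/-!
Sylow subgroups invariant under an isolated involution.
-/

set_option autoImplicit false

open Cfsg Subgroup
open scoped Pointwise

namespace Cfsg.Agent.Lib.Involution

universe u

variable {G : Type u} [Group G] [Finite G]

/-- An isolated involution normalises a Sylow `p`-subgroup above any `p`-subgroup it normalises. -/
theorem exists_iso_invariant_sylow {z : G} (hz : Cfsg.IsIsolatedInvolution z) {p : ℕ} [Fact p.Prime]
    {Q : Subgroup G} (hQ : IsPGroup p Q) (hzQ : z ∈ normalizer (Q : Set G)) :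
    ∃ P : Sylow p G, Q ≤ (P : Subgroup G) ∧ z ∈ normalizer ((P : Subgroup G) : Set G) := by
  by_cases hp : p = 2
  · subst hp
    have hZ : IsPGroup 2 (zpowers z) := IsPGroup.of_card (n := 1) (by rw [Nat.card_zpowers, hz.1, pow_one])
    have h2 : IsPGroup 2 (Q ⊔ zpowers z : Subgroup G) :=
      hQ.to_sup_of_normal_left' hZ (zpowers_le.mpr hzQ)
    obtain ⟨P, hP⟩ := h2.exists_le_sylow
    exact ⟨P, le_sup_left.trans hP, le_normalizer (hP (le_sup_right (a := Q) (mem_zpowers z)))⟩
  haveI := oddCore_normal (G := G)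
  obtain ⟨P, hP⟩ := hQ.exists_le_sylow
  let J : Subgroup G := oddCore G ⊔ (P : Subgroup G)
  have hPodd : Odd (Nat.card P) := by
    obtain ⟨n, hn⟩ := IsPGroup.iff_card.mp P.2
    rw [hn]; exact ((Fact.out : p.Prime).odd_of_ne_two hp).pow
  have hJodd : Odd (Nat.card J) := by
    have h1 := Lib.Coprime.card_sup_mul_card_inf (oddCore G) (P : Subgroup G)
    rw [sup_comm] at h1
    exact ((hPodd.mul odd_card_oddCore).of_dvd_nat (Dvd.intro _ h1))
  have hZJ : zpowers z ≤ normalizer (J : Set G) := by
    rw [zpowers_le, mem_normalizer_iff]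
    intro v
    have hc : z * v * z⁻¹ * v⁻¹ ∈ J := le_sup_left (a := oddCore G) (zstar hz v)
    constructor
    · intro h
      simpa using mul_mem hc h
    · intro h
      simpa [mul_assoc] using mul_mem (inv_mem hc) h
  have hcop : (Nat.card (zpowers z)).Coprime (Nat.card J) := by
    rw [Nat.card_zpowers, hz.1]; exact Nat.coprime_two_left.mpr hJodd
  obtain ⟨R, hQR, hR⟩ := Lib.Coprime.exists_invariant_sylow_ge hZJ hcop (Or.inl inferInstance)
    (hP.trans le_sup_right) hQ (zpowers_le.mpr hzQ)
  have hPJ : IsPGroup p ((P : Subgroup G).subgroupOf J) := P.2.comap_subtype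
  have hcard : Nat.card ((R : Subgroup J).map J.subtype) = p ^ (Nat.card G).factorization p := by
    rw [← P.card_eq_multiplicity]
    have h1 : Nat.card P ≤ Nat.card R := by
      obtain ⟨T, hT⟩ := hPJ.exists_le_sylow
      calc Nat.card P = Nat.card ((P : Subgroup G).subgroupOf J) := (Lib.Coprime.card_subgroupOf le_sup_right).symm
        _ ≤ Nat.card T := card_le_of_le hT
        _ = Nat.card R := by rw [T.card_eq_multiplicity, R.card_eq_multiplicity]
    have h2 : Nat.card R ≤ Nat.card P := by
      obtain ⟨T, hT⟩ := (R.2.map J.subtype).exists_le_sylow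
      rw [← Nat.card_congr (equivMapOfInjective (R : Subgroup J) J.subtype J.subtype_injective).toEquiv.symm,
        P.card_eq_multiplicity, ← T.card_eq_multiplicity]
      exact card_le_of_le hT
    rw [card_map_of_injective J.subtype_injective]
    exact le_antisymm h2 h1
  exact ⟨Sylow.ofCard _ hcard, hQR, zpowers_le.mp hR⟩

/-- Sylow subgroups normalised by an isolated involution are conjugate under its centralizer. -/
theorem iso_invariant_sylow_conj {z : G} (hz : Cfsg.IsIsolatedInvolution z) {p : ℕ} [Fact p.Prime]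
    (P R : Sylow p G) (hP : z ∈ normalizer ((P : Subgroup G) : Set G))
    (hR : z ∈ normalizer ((R : Subgroup G) : Set G)) :
    ∃ c ∈ centralizer ({z} : Set G), MulAut.conj c • (P : Subgroup G) = R := by
  obtain ⟨g, hg⟩ := MulAction.exists_smul_eq G P R
  have hg' : MulAut.conj g • (P : Subgroup G) = R := congrArg Sylow.toSubgroup hg
  have ho : orderOf (g⁻¹ * z * g) = 2 := by simpa using (orderOf_conj g⁻¹ z).trans hz.1
  have hodd : Odd (orderOf (z * (g⁻¹ * z * g))) := by simpa using iso_odd hz g⁻¹
  obtain ⟨i, hi⟩ := conj_of_odd hz.1 ho hodd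
  set m := (z * (g⁻¹ * z * g)) ^ i with hm
  have hzg : g⁻¹ * z * g ∈ normalizer ((P : Subgroup G) : Set G) := by
    apply Lib.Coprime.mem_normalizer_of_conj_smul_eq
    rw [Lib.Coprime.conj_smul_mul, Lib.Coprime.conj_smul_mul, hg', Lib.Coprime.conj_smul_eq_self hR, ← hg',
      Lib.Coprime.conj_inv_smul_smul]
  have hmN : m ∈ normalizer ((P : Subgroup G) : Set G) := pow_mem (mul_mem hP hzg) i
  refine ⟨g * m, ?_, by rw [Lib.Coprime.conj_smul_mul, Lib.Coprime.conj_smul_eq_self hmN, hg']⟩
  rw [mem_centralizer_singleton_iff, ← mul_inv_eq_iff_eq_mul]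
  calc g * m * z * (g * m)⁻¹ = g * (m * z * m⁻¹) * g⁻¹ := by group
    _ = z := by rw [hi]; group

end Cfsg.Agent.Lib.Involution
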