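import Cfsg.Agent.Lib.Involution.ZStar

/-!
The principal block for quaternion Sylow 2-subgroups of order eight.
-/

set_option autoImplicit false
set_option linter.style.haveILetI false

open Cfsg Subgroup Cfsg.Agent.Lib.Char Cfsg.Agent.Lib.Block
open scoped ComplexConjugate

namespace Cfsg.Agent.Lib.Involution

universe u

/-- With a central involution the principal block has seven irreducible characters. -/
theorem qEight_card_block {K : Type u} [Group K] [Fintype K] {x : K} (hs : QEightSetting K x)
    (hzc : x ^ 2 ∈ center K) (hlin : ∀ l : K →* ℂˣ, l x = 1) {M : Ideal AlgInt} (hM : IsPModular 2 M) :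
    Nat.card (principalBlock M K) = 7 := by
  classical
  haveI := hM.2.1
  obtain ⟨P, a, hP⟩ := exists_centralData hs hzc hM
  obtain ⟨c, hc, hcsq, hcsum, hc1⟩ := hs.exists_coef
  obtain ⟨z, hz⟩ : ∃ z, z = x ^ 2 := ⟨_, rfl⟩
  rw [← hz] at hP hzc
  have hzo : orderOf z = 2 := hz ▸ hs.sq
  choose r hr using fun j => generalized_classInner_int (hP.gen j)
  let one : IrrCharacter K := ⟨_, isIrrCharacter_one⟩
  have hrone : ∀ j, r j one = 1 := fun j => by
    have e := hr j one
    rw [show ((one : IrrCharacter K) : K → ℂ) = fun _ => 1 from rfl, hP.inner_one j] at e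
    exact_mod_cast e.symm
  have hcB : ∀ χ, c χ ≠ 0 → χ ∈ principalBlock M K := fun χ h => by
    by_contra hn
    have e := hs.inner_theta_eq_zero hM hn
    rw [hc, Int.cast_eq_zero] at e
    exact h e
  have hrB : ∀ j χ, χ ∉ principalBlock M K → r j χ = 0 := fun j χ hn => by
    obtain ⟨ω, hω, hωg⟩ := sign_central χ.2 hzo hzc
    have e := hr j χ
    rw [inner_zPart hzo] at e
    have h0 : ∑ v ∈ oddSet K, P j (z * v) * conj ((χ : K → ℂ) (z * v)) = 0 := by
      have h := congrArg conj (hP.orth j χ hn)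
      rw [map_zero, map_sum] at h
      calc ∑ v ∈ oddSet K, P j (z * v) * conj ((χ : K → ℂ) (z * v))
          = conj ω * ∑ v ∈ oddSet K, conj ((χ : K → ℂ) v * conj (P j v)) := by
            rw [Finset.mul_sum]
            refine Finset.sum_congr rfl fun v _ => ?_
            rw [hP.transl, hωg, map_mul, map_mul, Complex.conj_conj]; ring
        _ = 0 := by rw [h, mul_zero]
    rw [h0, mul_zero] at e
    exact_mod_cast e.symm
  -- the value at the involution
  have hval : ∀ χ ∈ principalBlock M K, (χ : K → ℂ) z =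
      ((a 0 * r 0 χ + a 1 * r 1 χ + a 2 * r 2 χ : ℤ) : ℂ) := by
    intro χ hχ
    obtain ⟨ω, hω, hωg⟩ := sign_central χ.2 hzo hzc
    have hsum : (χ : K → ℂ) 1 = ∑ v ∈ oddSet K, blockCoeff (principalBlock M K) v * (χ : K → ℂ) v := by
      have e := blockPart_eq_sum (principalBlock M K) (isClassFunction_of_isIrr χ.2) (1 : K)
      rw [blockPart_apply] at e
      simp only [classInner_irrCharacter, mul_one] at e
      rw [Finset.sum_eq_single χ (fun φ _ hne => by simp [Ne.symm hne])
        (fun h => absurd (Finset.mem_univ _) h), if_pos hχ, if_pos rfl, one_mul] at e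
      rw [e]
      refine (Finset.sum_subset (Finset.subset_univ _) fun k _ hk => ?_).symm
      rw [blockCoeff_eq_zero_of_singular hM isPBlock_principalBlock
        (Nat.not_odd_iff_even.mp (fun h => hk (mem_oddSet.mpr h))).two_dvd, zero_mul]
    have hconj : conj ((χ : K → ℂ) z) = ((a 0 * r 0 χ + a 1 * r 1 χ + a 2 * r 2 χ : ℤ) : ℂ) := by
      rw [show (χ : K → ℂ) z = ω * (χ : K → ℂ) 1 by rw [← hωg, mul_one], hsum, map_mul, map_sum,
        Finset.mul_sum]
      push_cast
      rw [← hr, ← hr, ← hr, inner_zPart hzo, inner_zPart hzo, inner_zPart hzo, Finset.mul_sum,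
        Finset.mul_sum, Finset.mul_sum, Finset.mul_sum, Finset.mul_sum, Finset.mul_sum,
        ← Finset.sum_add_distrib, ← Finset.sum_add_distrib]
      refine Finset.sum_congr rfl fun v hv => ?_
      rw [map_mul, hP.coeff v hv]
      simp only [hP.transl, hωg, map_mul]
      ring
    rw [← Complex.conj_conj ((χ : K → ℂ) z), hconj, map_intCast]
  have hpar : ∀ χ ∈ principalBlock M K, Even (c χ + r 0 χ + r 1 χ + r 2 χ) := by
    intro χ hχ
    have hv := hs.value_four hM hχ
    have hx1 : (χ : K → ℂ) x = c χ := by rw [← hv.2, hc]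
    obtain ⟨⟨m, hm⟩, -⟩ := parity_four (isCharacter_of_isIrr χ.2) hs.ord hx1
      (by rw [hv.1 (x ^ 3) (by rw [orderOf_pow, hs.ord]; decide), hx1])
    rw [← hz, hval χ hχ] at hm
    have hm' : a 0 * r 0 χ + a 1 * r 1 χ + a 2 * r 2 χ + c χ = 2 * m := by exact_mod_cast hm
    obtain ⟨a0, ha0⟩ := hP.odd_a 0
    obtain ⟨a1, ha1⟩ := hP.odd_a 1
    obtain ⟨a2, ha2⟩ := hP.odd_a 2
    rw [ha0, ha1, ha2] at hm'
    exact ⟨m - a0 * r 0 χ - a1 * r 1 χ - a2 * r 2 χ, by linear_combination hm'⟩
  have hne0 : ∀ χ ∈ principalBlock M K, r 0 χ ≠ 0 ∨ r 1 χ ≠ 0 ∨ r 2 χ ≠ 0 := by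
    intro χ hχ
    by_contra h
    push Not at h
    obtain ⟨ω, hω, hωg⟩ := sign_central χ.2 hzo hzc
    have e := hval χ hχ
    rw [show (χ : K → ℂ) z = ω * (χ : K → ℂ) 1 by rw [← hωg, mul_one], h.1, h.2.1, h.2.2] at e
    simp only [mul_zero, add_zero, Int.cast_zero, mul_eq_zero] at e
    rcases e with e | e
    · rcases hω with rfl | rfl <;> norm_num at e
    · exact irr_degree_ne_zero χ.2 e
  -- sums of squares
  have hrsq : ∀ j, ∑ χ : IrrCharacter K, r j χ * r j χ = 4 := fun j => by
    have e := classInner_eq_sum (φ := zPart z (P j)) (ψ := zPart z (P j))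
      (isClassFunction_of_generalized (hP.gen j))
    simp only [hP.inner, if_pos, hr, map_intCast] at e
    exact_mod_cast e.symm
  -- zero coefficient against the theta function
  have hcr : ∀ j, ∑ χ : IrrCharacter K, c χ * r j χ = 0 := fun j => by
    have e := classInner_eq_sum (φ := thetaFun K) (ψ := zPart z (P j))
      (isClassFunction_of_generalized (hP.gen j))
    simp only [hc, hr, map_intCast] at e
    have h0 : classInner (thetaFun K) (zPart z (P j)) = 0 := by
      rw [classInner, Finset.sum_eq_zero, mul_zero]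
      intro g _
      by_cases h4 : 4 ∣ orderOf g
      · rw [show zPart z (P j) g = 0 from if_neg fun h =>
          not_four_of_odd_mul hzo ((mem_center_iff.mp hzc g).symm) h h4, map_zero, mul_zero]
      · rw [thetaFun_neg h4, zero_mul]
    rw [h0] at e
    exact_mod_cast e.symm
  obtain ⟨s, hs3, hsgn, hsz⟩ : ∃ s : Finset (IrrCharacter K), s.card = 3 ∧
      (∀ χ ∈ s, χ ≠ one ∧ (c χ = 1 ∨ c χ = -1)) ∧ ∀ χ ∉ s, χ ≠ one → c χ = 0 := by
    have h3 : ∑ χ : IrrCharacter K, (if χ = one then 0 else c χ) * (if χ = one then 0 else c χ) =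
        (3 : ℕ) := by
      rw [← Finset.add_sum_erase _ _ (Finset.mem_univ one), hc1] at hcsq
      rw [← Finset.add_sum_erase _ _ (Finset.mem_univ one), if_pos rfl,
        Finset.sum_congr rfl fun χ hχ => by rw [if_neg (Finset.ne_of_mem_erase hχ)]]
      push_cast; linarith
    obtain ⟨s, h1, h2, h3⟩ := exists_signs _ le_rfl h3
    refine ⟨s, h1, fun χ hχ => ?_, fun χ hχ hne => ?_⟩
    · have hne : χ ≠ one := fun h => by simpa [h] using h2 χ hχ
      exact ⟨hne, by simpa [hne] using h2 χ hχ⟩
    · simpa [hne] using h3 χ hχ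
  -- the weight of a member
  obtain ⟨w, hw⟩ : ∃ w : IrrCharacter K → ℤ, w = fun χ => r 0 χ * r 0 χ + r 1 χ * r 1 χ + r 2 χ * r 2 χ :=
    ⟨_, rfl⟩
  have hwsum : ∑ χ : IrrCharacter K, w χ = 12 := by
    rw [hw]; simp only [Finset.sum_add_distrib, hrsq]; norm_num
  have hbound : ∀ j χ, χ ≠ one → r j χ = 1 ∨ r j χ = -1 ∨ r j χ = 0 := by
    intro j χ hne
    have h := Finset.single_le_sum (fun φ _ => mul_self_nonneg (r j φ))
      (Finset.mem_univ χ)
    have h2 := Finset.add_sum_erase Finset.univ (fun φ => r j φ * r j φ) (Finset.mem_univ one)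
    rw [hrsq, hrone] at h2
    have h3 := Finset.single_le_sum (fun φ _ => mul_self_nonneg (r j φ))
      (Finset.mem_erase.mpr ⟨hne, Finset.mem_univ χ⟩)
    have h4 : r j χ < 2 := by nlinarith
    have h5 : -2 < r j χ := by nlinarith
    omega
  have hpt : ∀ χ, χ ≠ one → χ ∈ principalBlock M K →
      (c χ = 0 → w χ = 2) ∧ (c χ ≠ 0 → 1 ≤ w χ) := by
    intro χ hne hχ
    obtain ⟨m, hm⟩ := hpar χ hχ
    have := hne0 χ hχ
    rw [hw]
    constructor <;> intro hc0 <;>
      rcases hbound 0 χ hne with h0 | h0 | h0 <;> rcases hbound 1 χ hne with h1 | h1 | h1 <;>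
      rcases hbound 2 χ hne with h2 | h2 | h2 <;> simp only [h0, h1, h2] at this hm ⊢ <;> omega
  -- the members
  obtain ⟨B, hB⟩ : ∃ B : Finset (IrrCharacter K), B = Finset.univ.filter (· ∈ principalBlock M K) := ⟨_, rfl⟩
  have honeB : one ∈ B := by
    rw [hB]; simp only [Finset.mem_filter, Finset.mem_univ, true_and]
    exact oneIrr_mem
  have hsB : s ⊆ B.erase one := fun χ hχ => by
    refine Finset.mem_erase.mpr ⟨(hsgn χ hχ).1, ?_⟩
    rw [hB]; simp only [Finset.mem_filter, Finset.mem_univ, true_and]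
    exact hcB χ (by rcases (hsgn χ hχ).2 with h | h <;> rw [h] <;> norm_num)
  have hwB : w one + ∑ χ ∈ s, w χ + ∑ χ ∈ (B.erase one) \ s, w χ = 12 := by
    rw [add_assoc, add_comm (∑ χ ∈ s, w χ), Finset.sum_sdiff hsB, Finset.add_sum_erase _ _ honeB, ← hwsum]
    refine Finset.sum_subset (Finset.subset_univ _) fun χ _ hχ => ?_
    have hn : χ ∉ principalBlock M K := fun h => hχ (by rw [hB]; simp [h])
    rw [hw]; simp [hrB _ χ hn]
  have hw1 : w one = 3 := by rw [hw]; simp [hrone]
  -- each of the three columns meets `s` in exactly one entry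
  have hsw : ∑ χ ∈ s, w χ = 3 := by
    have hcs : ∀ j, ∑ χ ∈ s, c χ * r j χ = -1 := fun j => by
      have e := hcr j
      rw [← Finset.add_sum_erase _ _ (Finset.mem_univ one), hc1, hrone j] at e
      rw [Finset.sum_subset (s₂ := Finset.univ.erase one)
        (fun χ hχ => Finset.mem_erase.mpr ⟨(hsgn χ hχ).1, Finset.mem_univ _⟩)
        (fun χ hχ hns => by rw [hsz χ hns (Finset.ne_of_mem_erase hχ), zero_mul])]
      linarith
    have hrest : ∀ χ ∈ B.erase one \ s, w χ = 2 := fun χ hχ => by
      obtain ⟨h1, h2⟩ := Finset.mem_sdiff.mp hχ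
      have hb : χ ∈ principalBlock M K := by
        have := Finset.mem_of_mem_erase h1
        rw [hB] at this
        exact (Finset.mem_filter.mp this).2
      exact (hpt χ (Finset.ne_of_mem_erase h1) hb).1 (hsz χ h2 (Finset.ne_of_mem_erase h1))
    have hev : Even (∑ χ ∈ s, w χ + 1) := by
      rw [Finset.sum_congr rfl hrest, Finset.sum_const, hw1] at hwB
      simp only [nsmul_eq_mul] at hwB
      exact ⟨5 - ((B.erase one \ s).card : ℤ), by linarith⟩
    obtain ⟨p, q, t, hpq, hpt', hqt, hst⟩ := Finset.card_eq_three.mp hs3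
    have hpart : ∀ j, (r j p * r j p + r j q * r j q + r j t * r j t = 1) ∨
        (r j p * r j p + r j q * r j q + r j t * r j t = 3 ∧
          c p * r j p + c q * r j q + c t * r j t = -1) := by
      intro j
      have e := hcs j
      rw [hst, Finset.sum_insert (by simp [hpq, hpt']), Finset.sum_pair hqt, ← add_assoc] at e
      have hh : ∀ φ ∈ s, φ ≠ one ∧ (c φ = 1 ∨ c φ = -1) := hsgn
      obtain ⟨np, hp⟩ := hh p (by rw [hst]; simp)
      obtain ⟨nq, hq⟩ := hh q (by rw [hst]; simp)
      obtain ⟨nt, ht⟩ := hh t (by rw [hst]; simp)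
      rcases hp with hp | hp <;> rcases hq with hq | hq <;> rcases ht with ht | ht <;>
        rcases hbound j p np with g | g | g <;> rcases hbound j q nq with g' | g' | g' <;>
        rcases hbound j t nt with g'' | g'' | g'' <;>
        simp only [hp, hq, ht, g, g', g''] at e ⊢ <;> omega
    have hnofull : ∀ j, r j p * r j p + r j q * r j q + r j t * r j t = 1 := by
      intro j
      refine (hpart j).resolve_right fun ⟨h, hcr'⟩ => ?_
      -- then a member of the block would be linear
      have hout : ∀ χ, χ ∉ s → χ ≠ one → r j χ = 0 := by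
        intro χ hns hne
        have h2 := hrsq j
        rw [← Finset.add_sum_erase _ _ (Finset.mem_univ one), hrone,
          ← Finset.sum_sdiff (s₁ := s) (fun χ hχ =>
            Finset.mem_erase.mpr ⟨(hsgn χ hχ).1, Finset.mem_univ _⟩), hst,
          Finset.sum_insert (by simp [hpq, hpt']), Finset.sum_pair hqt] at h2
        have h3 : ∑ x ∈ Finset.univ.erase one \ ({p, q, t} : Finset _), r j x * r j x = 0 := by linarith
        have h4 := (Finset.sum_eq_zero_iff_of_nonneg fun x _ => mul_self_nonneg (r j x)).mp h3 χ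
          (Finset.mem_sdiff.mpr ⟨Finset.mem_erase.mpr ⟨hne, Finset.mem_univ _⟩, by rwa [← hst]⟩)
        exact mul_self_eq_zero.mp h4
      have hF1 : zPart z (P j) 1 = 0 := if_neg fun h => by
        rw [mul_one, hzo] at h; exact absurd h (by decide)
      have e1 := congrFun (eq_sum_classInner_smul (isClassFunction_of_generalized (hP.gen j))) 1
      have e2 := hcsum 1
      simp only [Finset.sum_apply, Pi.smul_apply, smul_eq_mul, hr, hF1,
        apply_one_eq_charDegree (isCharacter_of_isIrr (_ : IrrCharacter K).2)] at e1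
      rw [thetaFun_neg (by rw [orderOf_one]; norm_num)] at e2
      simp only [apply_one_eq_charDegree (isCharacter_of_isIrr (_ : IrrCharacter K).2)] at e2
      have e3 : ∑ χ : IrrCharacter K, (c χ + r j χ) * (charDegree (χ : K → ℂ) : ℤ) = 0 := by
        have : ((∑ χ : IrrCharacter K, (c χ + r j χ) * (charDegree (χ : K → ℂ) : ℤ) : ℤ) : ℂ) = 0 := by
          push_cast
          simp only [add_mul, Finset.sum_add_distrib]
          rw [← e1, ← e2, add_zero]
        exact_mod_cast this
      rw [← Finset.sum_subset (Finset.subset_univ (insert one s)) fun χ _ hχ => by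
          simp only [Finset.mem_insert, not_or] at hχ
          rw [hsz χ hχ.2 hχ.1, hout χ hχ.2 hχ.1, zero_add, zero_mul],
        Finset.sum_insert (fun h => (hsgn one h).1 rfl), hc1, hrone, hst,
        Finset.sum_insert (by simp [hpq, hpt']), Finset.sum_pair hqt,
        show charDegree ((one : IrrCharacter K) : K → ℂ) = 1 from charDegree_one] at e3
      have hd1 : ∀ χ ∈ s, charDegree (χ : K → ℂ) = 1 → c χ = 1 := fun χ hχ h1 => by
        have hc0 : c χ ≠ 0 := by rcases (hsgn χ hχ).2 with g | g <;> rw [g] <;> norm_num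
        obtain ⟨l, hl⟩ := exists_hom_of_degree_one (isCharacter_of_isIrr χ.2)
          ((charDegree_eq_one_iff χ.2).mp h1)
        have hx : (χ : K → ℂ) x = c χ := by
          rw [← (hs.value_four hM (hcB χ hc0)).2, hc]
        rw [hl, hlin l, Units.val_one] at hx
        exact_mod_cast hx.symm
      have dp := charDegree_pos p.2
      have dq := charDegree_pos q.2
      have dt := charDegree_pos t.2
      obtain ⟨np, hp⟩ := hsgn p (by rw [hst]; simp)
      obtain ⟨nq, hq⟩ := hsgn q (by rw [hst]; simp)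
      obtain ⟨nt, ht⟩ := hsgn t (by rw [hst]; simp)
      have lp := hd1 p (by rw [hst]; simp)
      have lq := hd1 q (by rw [hst]; simp)
      have lt' := hd1 t (by rw [hst]; simp)
      simp only [Nat.cast_one] at e3
      rcases hp with hp | hp <;> rcases hq with hq | hq <;> rcases ht with ht | ht <;>
        rcases hbound j p np with g | g | g <;> rcases hbound j q nq with g' | g' | g' <;>
        rcases hbound j t nt with g'' | g'' | g'' <;>
        simp only [hp, hq, ht, g, g', g''] at e3 hcr' h lp lq lt' <;> omega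
    rw [hst, Finset.sum_insert (by simp [hpq, hpt']), Finset.sum_pair hqt, hw]
    simp only
    linarith [hnofull 0, hnofull 1, hnofull 2]
  have hrest : ∀ χ ∈ B.erase one \ s, w χ = 2 := fun χ hχ => by
    obtain ⟨h1, h2⟩ := Finset.mem_sdiff.mp hχ
    have hb : χ ∈ principalBlock M K := by
      have := Finset.mem_of_mem_erase h1
      rw [hB] at this
      exact (Finset.mem_filter.mp this).2
    exact (hpt χ (Finset.ne_of_mem_erase h1) hb).1 (hsz χ h2 (Finset.ne_of_mem_erase h1))
  rw [Finset.sum_congr rfl hrest, Finset.sum_const, hw1, hsw, nsmul_eq_mul] at hwB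
  have h3 : (B.erase one \ s).card = 3 := by omega
  have hcard : B.card = 7 := by
    rw [← Finset.card_erase_add_one honeB, ← Finset.card_sdiff_add_card_eq_card hsB, h3, hs3]
  rw [← hcard, hB, Nat.card_eq_fintype_card, Fintype.card_subtype]

end Cfsg.Agent.Lib.Involution
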