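import Cfsg.Agent.Lib.Involution.BrauerFowler
import Cfsg.Agent.Lib.SmallSimple.Basic
import Cfsg.Agent.Lib.Involution.IndexTwo

/-!
Brauer–Fowler bounds for simple groups.
-/

set_option autoImplicit false

namespace Cfsg.Agent.Lib.Involution

open Subgroup

variable {G : Type*} [Group G] [Finite G] [IsSimpleGroup G]

lemma simple_no_index_two (hG : ¬ IsMulCommutative G) (K : Subgroup G) : K.index ≠ 2 := by
  intro hK
  rcases (normal_of_index_eq_two hK).eq_bot_or_eq_top with h | h
  · apply Cfsg.Agent.Lib.SmallSimple.commutator_eq_top hG |>.symm.trans_ne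
    · intro h'
      have : Nat.card G = 2 := by rw [← hK, h, index_bot]
      have hF : Fact (Nat.Prime 2) := ⟨Nat.prime_two⟩
      have hcyc := isCyclic_of_prime_card (α := G) (p := 2) this
      exact hG IsCyclic.isMulCommutative
    · rfl
  · rw [h, index_top] at hK; norm_num at hK

lemma simple_center_bot (hG : ¬ IsMulCommutative G) : center G = ⊥ :=
  ((inferInstance : (center G).Normal).eq_bot_or_eq_top).resolve_right
    fun h => hG (center_eq_top_iff.mp h)

theorem simple_index_bound (hG : ¬ IsMulCommutative G) (heven : Even (Nat.card G)) :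
    ∃ H : Subgroup G, H ≠ ⊤ ∧
      2 * H.index * numInv G ^ 2 < Nat.card G * (Nat.card G + numInv G) := by
  refine exists_subgroup_index_lt (simple_no_index_two hG) (fun t ht hm => ?_) ?_
  · rw [simple_center_bot hG, mem_bot] at hm
    exact ne_one ht hm
  · intro h
    rw [h] at heven
    exact Nat.not_even_one heven

theorem simple_card_le_factorial (t : G) (ht : orderOf t = 2) :
    Nat.card G ≤ Nat.factorial (2 * Nat.card (centralizer ({t} : Set G)) ^ 2) := by
  set c := Nat.card (centralizer ({t} : Set G)) with hc
  have hc2 : 2 ≤ c := Nat.le_of_dvd Nat.card_pos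
    (ht ▸ orderOf_dvd_natCard _ (mem_centralizer_singleton_iff.mpr rfl))
  by_cases hG : IsMulCommutative G
  · have : c = Nat.card G := by
      rw [hc, show centralizer ({t} : Set G) = ⊤ from
        eq_top_iff.mpr fun g _ => mem_centralizer_singleton_iff.mpr (hG.is_comm.comm g t), card_top]
    rw [this]
    exact le_trans (by nlinarith [Nat.card_pos (α := G)]) (Nat.self_le_factorial _)
  obtain ⟨H, hH, hlt⟩ := simple_index_bound hG (even_iff_two_dvd.mpr (ht ▸ orderOf_dvd_natCard t))
  have hd := Cfsg.Agent.Lib.SmallSimple.two_mul_card_dvd_factorial hG H hH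
  have hle := Nat.le_of_dvd (Nat.factorial_pos _) hd
  have hn := card_le_numInv_mul ht
  rw [← hc] at hn
  have hl : H.index ≤ 2 * c ^ 2 := by
    by_contra h
    push Not at h
    have h1 : Nat.card G * (Nat.card G + numInv G) ≤ (numInv G * c) * (numInv G * c + numInv G) :=
      Nat.mul_le_mul hn (by omega)
    have h3 : c * (c + 1) ≤ 2 * c ^ 2 := by nlinarith
    have h4 : numInv G ^ 2 * (c * (c + 1)) ≤ numInv G ^ 2 * (2 * H.index) :=
      Nat.mul_le_mul_left _ (by omega)
    nlinarith
  have := Nat.factorial_le hl
  omega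

theorem simple_three_mul_numInv_lt (heven : Even (Nat.card G)) (hgt : 2 < Nat.card G) :
    3 * numInv G < Nat.card G := by
  by_contra hle
  push Not at hle
  have hG : ¬ IsMulCommutative G := Cfsg.Agent.Lib.SmallSimple.not_isMulCommutative_of_card (by
    intro hp
    rcases hp.eq_two_or_odd with h | h
    · omega
    · rw [Nat.even_iff] at heven; omega)
  obtain ⟨H, hH, hlt⟩ := simple_index_bound hG heven
  have hd := Cfsg.Agent.Lib.SmallSimple.two_mul_card_dvd_factorial hG H hH
  have hl : H.index < 6 := by
    by_contra h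
    push Not at h
    have h1 : Nat.card G * (Nat.card G + numInv G) ≤ (3 * numInv G) * (4 * numInv G) :=
      Nat.mul_le_mul hle (by omega)
    nlinarith
  have hdvd : Nat.card G ∣ 60 := by
    have : 2 * Nat.card G ∣ 120 := by
      refine hd.trans ?_
      have h5 : H.index ≤ 5 := by omega
      exact (Nat.factorial_dvd_factorial h5).trans (by norm_num [Nat.factorial])
    exact (mul_dvd_mul_iff_left two_ne_zero).mp this
  have : Fact (Nat.Prime 2) := ⟨Nat.prime_two⟩
  have : Fact (Nat.Prime 3) := ⟨Nat.prime_three⟩
  have : Fact (Nat.Prime 5) := ⟨Nat.prime_five⟩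
  have f2 := Cfsg.Agent.Lib.SmallSimple.card_sylow_facts (p := 2) hG heven.two_dvd
  obtain ⟨P⟩ : Nonempty (Sylow 2 G) := inferInstance
  have hP2 := P.card_dvd_index
  have hPc := (P : Subgroup G).card_mul_index
  have h60 : Nat.card G = 60 := by
    have hodd : ¬ 2 ∣ (P : Subgroup G).index := P.not_dvd_index
    have h4 : Nat.card G = 60 ∨ Nat.card G ∈ ({4, 6, 10, 12, 20, 30} : Finset ℕ) := by
      have := Nat.le_of_dvd (by norm_num) hdvd
      rw [Nat.even_iff] at heven
      simp only [Finset.mem_insert, Finset.mem_singleton]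
      generalize Nat.card G = m at *
      interval_cases m <;> omega
    rcases h4 with h4 | h4
    · exact h4
    exfalso
    obtain ⟨f21, f22, f23⟩ := f2
    have hidx : (P : Subgroup G).index ∣ Nat.card G := (P : Subgroup G).index_dvd_card
    have hn : Nat.card (Sylow 2 G) ∣ Nat.card G := hP2.trans hidx
    have hn2 : ¬ 2 ∣ Nat.card (Sylow 2 G) := fun h => hodd (h.trans hP2)
    simp only [Finset.mem_insert, Finset.mem_singleton] at h4
    rcases h4 with h | h | h | h | h | h
    · rw [h] at hn
      have := Nat.le_of_dvd (by norm_num) hn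
      interval_cases (Nat.card (Sylow 2 G)) <;> omega
    · exact no_simple_of_twice_odd hG heven (by rw [h])
    · exact no_simple_of_twice_odd hG heven (by rw [h])
    · rw [h] at hn f23
      have := Nat.le_of_dvd (by norm_num) hn
      interval_cases (Nat.card (Sylow 2 G)) <;> first | omega | (norm_num [Nat.factorial] at f23)
    · obtain ⟨g21, g22, -⟩ := Cfsg.Agent.Lib.SmallSimple.card_sylow_facts (p := 5) hG (by rw [h]; norm_num)
      obtain ⟨R⟩ : Nonempty (Sylow 5 G) := inferInstance
      have hR := R.card_dvd_index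
      have hc : Nat.card (R : Subgroup G) = 5 :=
        Cfsg.Agent.Lib.SmallSimple.card_sylow_subgroup R (k := 1) (m := 4) (by rw [h]; norm_num) (by norm_num)
      have hRc := (R : Subgroup G).card_mul_index
      rw [hc, h] at hRc
      have hi : (R : Subgroup G).index = 4 := by omega
      rw [hi] at hR
      have := Nat.le_of_dvd (by norm_num) hR
      omega
    · exact no_simple_of_twice_odd hG heven (by rw [h])
  obtain ⟨e⟩ := Cfsg.Agent.Lib.SmallSimple.nonempty_mulEquiv_alternatingFive h60
  have hn : numInv G = 15 := by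
    rw [numInv, Nat.card_congr (e.toEquiv.subtypeEquiv (q := fun a => a ≠ 1 ∧ a * a = 1) ?_),
      Nat.card_eq_fintype_card]
    · decide
    · intro g
      constructor
      · intro hg
        exact ⟨fun h => ne_one hg (e.injective (h.trans (map_one e).symm)),
          by rw [MulEquiv.toEquiv_eq_coe, EquivLike.coe_coe, ← map_mul, mul_self hg, map_one]⟩
      · rintro ⟨h1, h2⟩
        refine orderOf_two_of (e.injective ?_) ?_
        · rw [map_mul, map_one]; exact h2
        · intro h; apply h1; rw [h]; exact map_one e
  omega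
where
  no_simple_of_twice_odd (hG : ¬ IsMulCommutative G) (heven : Even (Nat.card G))
      (h : Nat.card G % 4 = 2) : False := by
    have : Fact (Nat.Prime 2) := ⟨Nat.prime_two⟩
    obtain ⟨m, hm⟩ := heven
    have hc : Nat.card (default : Sylow 2 G) = 2 :=
      Cfsg.Agent.Lib.SmallSimple.card_sylow_subgroup _ (k := 1) (m := m) (by rw [hm]; ring) (by omega)
    obtain ⟨H, hH⟩ := exists_index_two_of_cyclic_sylow ⟨m, hm⟩ default
      (isCyclic_of_prime_card (p := 2) hc)
    exact simple_no_index_two hG H hH

end Cfsg.Agent.Lib.Involution
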