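import Cfsg.Agent.Lib.Involution.UnitaryInvolution
import Cfsg.Agent.Lib.Involution.UnitaryCounts
import Cfsg.Agent.Lib.Involution.FischerPoints

/-! Involutions lift to involutions in a double cover of `PSU(6, 2)`. -/

set_option autoImplicit false

namespace Cfsg.Agent.Lib.Involution.UnitaryCover

open Matrix
open Cfsg Cfsg.Agent.Lib.AutPSU Cfsg.Agent.Lib.Classical Cfsg.Agent.Lib.Involution.UnitaryTransp

variable {F : Type} [Field F] [Fintype F] (hF4 : Fintype.card F = 4)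

theorem τ_mul_self {u : Fin 6 → F} (hu : hm 2 u u = 0) : τ hF4 u * τ hF4 u = 1 := by
  rw [τ, tr, ← map_mul, T_sq hF4 hu, map_one]

theorem τ_braid {a b : Fin 6 → F} (ha : Valid 2 a) (hb : Valid 2 b) (h : hm 2 a b ≠ 0) :
    τ hF4 a * τ hF4 b * τ hF4 a = τ hF4 b * τ hF4 a * τ hF4 b := by
  have hF := card2 hF4
  have hinv : ∀ {u : Fin 6 → F}, hm 2 u u = 0 → (τ hF4 u)⁻¹ = τ hF4 u :=
    fun hu => inv_eq_of_mul_eq_one_right (τ_mul_self hF4 hu)
  have e1 : τ hF4 a * τ hF4 b * τ hF4 a = τ hF4 (b + hm 2 b a • a) := by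
    nth_rewrite 2 [← hinv ha.2]
    show pr (T hF a 1) * tr hF b 1 * (pr (T hF a 1))⁻¹ = _
    rw [tr_conj hF hb.2 (skew_one hF4), T_apply hF4 ha.2]
    rfl
  have e2 : τ hF4 b * τ hF4 a * τ hF4 b = τ hF4 (a + hm 2 a b • b) := by
    nth_rewrite 2 [← hinv hb.2]
    show pr (T hF b 1) * tr hF a 1 * (pr (T hF b 1))⁻¹ = _
    rw [tr_conj hF ha.2 (skew_one hF4), T_apply hF4 hb.2]
    rfl
  have hc : hm 2 b a = (hm 2 a b) ^ 2 := hm_swap hF _ _
  have hiso : hm 2 (a + hm 2 a b • b) (a + hm 2 a b • b) = 0 := by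
    rw [hm_add_left, hm_add_right hF, hm_add_right hF, hm_smul_left', hm_smul_left', hm_smul_right, hm_smul_right,
      ha.2, hb.2, hc]
    haveI := charTwo hF4
    linear_combination (hm 2 a b * hm 2 a b ^ 2) * (CharTwo.two_eq_zero (R := F))
  rw [e1, e2, ← τ_smul hF4 hiso (pow_ne_zero 2 h), smul_add, smul_smul, ← pow_succ, pow_three hF4 h, one_smul,
    add_comm, hc]

include hF4 in
theorem exists_iso_fix {u x : Fin 6 → F} (hu : Valid 2 u) (hx : hm 2 x u = 1) :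
    ∃ t : F, Valid 2 (x + t • u) ∧ hm 2 (x + t • u) u = 1 := by
  haveI := charTwo hF4
  have hF := card2 hF4
  obtain ⟨ω, -, -, hω, -⟩ := exists_other hF4
  have h1 : ∀ t : F, hm 2 (x + t • u) u = 1 := fun t => by
    rw [hm_add_left, hm_smul_left', hx, hu.2, mul_zero, add_zero]
  have h0 : ∀ t : F, x + t • u ≠ 0 := fun t e => by
    have := h1 t; rw [e, hm_zero_left] at this; exact zero_ne_one this
  rcases fixed_cases hF4 (hm_swap hF x x).symm with h | h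
  · exact ⟨0, ⟨h0 0, by rw [zero_smul, add_zero, h]⟩, h1 0⟩
  · refine ⟨ω, ⟨h0 ω, ?_⟩, h1 ω⟩
    rw [hm_add_left, hm_add_right hF, hm_add_right hF, hm_smul_left', hm_smul_left', hm_smul_right, hm_smul_right,
      h, hx, hm_swap hF x u, hx, hu.2, one_pow, hω, mul_zero, mul_zero, mul_one, mul_one, add_zero]
    linear_combination (1 + ω) * (CharTwo.two_eq_zero (R := F))

include hF4 in
theorem exists_orth_point {u : Fin 6 → F} (hu : Valid 2 u) :
    ∃ e, Valid 2 e ∧ hm 2 e u = 0 ∧ u ∉ Submodule.span F {e} ∧ e ∉ Submodule.span F {u} := by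
  classical
  by_contra hno
  push Not at hno
  have hsub : {v : Fin 6 → F | hm 2 v v = 0 ∧ hm 2 v u = 0} ⊆ Set.range fun t : F => t • u := by
    rintro v ⟨hv, hvu⟩
    rcases eq_or_ne v 0 with rfl | h0
    · exact ⟨0, zero_smul _ _⟩
    by_cases hs : u ∈ Submodule.span F {v}
    · obtain ⟨s, rfl⟩ := Submodule.mem_span_singleton.1 hs
      have hs0 : s ≠ 0 := fun h => hu.1 (by rw [h, zero_smul])
      exact ⟨s⁻¹, show s⁻¹ • s • v = v by rw [smul_smul, inv_mul_cancel₀ hs0, one_smul]⟩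
    · exact Submodule.mem_span_singleton.1 (hno v ⟨h0, hv⟩ hvu hs)
  have h := Set.ncard_le_ncard hsub (Set.toFinite _)
  rw [iso_one hF4 hu, ← Set.image_univ] at h
  have := h.trans (Set.ncard_image_le (Set.toFinite _))
  rw [Set.ncard_univ, Nat.card_eq_fintype_card, hF4] at this
  omega

/-- A line through `u` whose points are linked to `u` inside the centralizer of `e`. -/
theorem exists_line {u e : Fin 6 → F} (hu : Valid 2 u) (he : Valid 2 e) (hue : hm 2 u e = 0)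
    (hu' : u ∉ Submodule.span F {e}) (he' : e ∉ Submodule.span F {u}) :
    ∃ a b c₁ c₂ c₃ : Fin 6 → F, ([a, b, c₁, c₂, c₃].map (τ hF4)).prod = 1 ∧
      (∀ p ∈ [a, b, c₁, c₂, c₃], ∀ q ∈ [a, b, c₁, c₂, c₃], hm 2 p q = 0) ∧
      ∀ p ∈ [a, b, c₁, c₂, c₃], Valid 2 p ∧ hm 2 p e = 0 ∧
        ∃ x, Valid 2 x ∧ hm 2 x e = 0 ∧ hm 2 x u ≠ 0 ∧ hm 2 x p ≠ 0 := by
  classical
  haveI := charTwo hF4
  have hF := card2 hF4
  have hind : Indep u e := fun s hs h => hu' (Submodule.mem_span_singleton.2 ⟨s, h.symm⟩)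
  obtain ⟨w, hw, hwu, hwe, hwn⟩ : ∃ w, hm 2 w w = 0 ∧ hm 2 w u = 0 ∧ hm 2 w e = 0 ∧
      w ∉ Submodule.span F {u, e} := by
    by_contra hno
    push Not at hno
    have hsub : {v : Fin 6 → F | hm 2 v v = 0 ∧ hm 2 v u = 0 ∧ hm 2 v e = 0} ⊆
        Set.range fun t : F × F => t.1 • u + t.2 • e := by
      rintro v ⟨h1, h2, h3⟩
      obtain ⟨p, q, hpq⟩ := Submodule.mem_span_pair.1 (hno v h1 h2 h3)
      exact ⟨(p, q), hpq⟩
    have h := Set.ncard_le_ncard hsub (Set.toFinite _)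
    rw [iso_two hF4 hu he hind hue, ← Set.image_univ] at h
    have := h.trans (Set.ncard_image_le (Set.toFinite _))
    rw [Set.ncard_univ, Nat.card_prod, Nat.card_eq_fintype_card, hF4] at this
    omega
  have hun : u ∉ Submodule.span F {w, e} := by
    intro h
    obtain ⟨p, q, hpq⟩ := Submodule.mem_span_pair.1 h
    rcases eq_or_ne p 0 with rfl | hp
    · rw [zero_smul, zero_add] at hpq
      exact hu' (Submodule.mem_span_singleton.2 ⟨q, hpq⟩)
    · refine hwn (Submodule.mem_span_pair.2 ⟨p⁻¹, -(p⁻¹ * q), ?_⟩)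
      rw [← hpq, smul_add, smul_smul, smul_smul, inv_mul_cancel₀ hp, one_smul, neg_smul, add_neg_cancel_right]
  obtain ⟨x₁, hx₁, hx₁'⟩ := exists_dual hF4 _ hun
  obtain ⟨x₂, hx₂, hx₂'⟩ := exists_dual hF4 _ hwn
  have hx1w : hm 2 x₁ w = 0 := hx₁' w (Submodule.subset_span (Or.inl rfl))
  have hx1e : hm 2 x₁ e = 0 := hx₁' e (Submodule.subset_span (Or.inr rfl))
  have hx2u : hm 2 x₂ u = 0 := hx₂' u (Submodule.subset_span (Or.inl rfl))
  have hx2e : hm 2 x₂ e = 0 := hx₂' e (Submodule.subset_span (Or.inr rfl))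
  have hw0 : w ≠ 0 := fun h => hwn (h ▸ Submodule.zero_mem _)
  obtain ⟨t, ht, ht1⟩ := exists_iso_fix hF4 hu hx₁
  obtain ⟨r, hr, hr1⟩ := exists_iso_fix hF4 hu (x := x₁ + x₂) (by rw [hm_add_left, hx₁, hx2u, add_zero])
  have huw : hm 2 u w = 0 := hm_comm_zero hF hwu
  have htw : hm 2 (x₁ + t • u) w = 0 := by rw [hm_add_left, hm_smul_left', hx1w, huw, mul_zero, add_zero]
  have hte : hm 2 (x₁ + t • u) e = 0 := by rw [hm_add_left, hm_smul_left', hx1e, hue, mul_zero, add_zero]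
  have hre : hm 2 (x₁ + x₂ + r • u) e = 0 := by
    rw [hm_add_left, hm_add_left, hm_smul_left', hx1e, hx2e, hue, mul_zero, add_zero, add_zero]
  have hrw : hm 2 (x₁ + x₂ + r • u) w = 1 := by
    rw [hm_add_left, hm_add_left, hm_smul_left', hx1w, hx₂, huw, mul_zero, add_zero, zero_add]
  obtain ⟨ω, -, -, hω, -⟩ := exists_other hF4
  have hk : ∀ k : F, hm 2 (u + k • w) (u + k • w) = 0 ∧ hm 2 (u + k • w) u = 0 ∧ hm 2 (u + k • w) w = 0 ∧
      hm 2 (u + k • w) e = 0 ∧ hm 2 (x₁ + t • u) (u + k • w) = 1 := by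
    intro k
    have a1 : hm 2 (u + k • w) u = 0 := by rw [hm_add_left, hm_smul_left', hu.2, hwu, mul_zero, add_zero]
    have a2 : hm 2 (u + k • w) w = 0 := by rw [hm_add_left, hm_smul_left', huw, hw, mul_zero, add_zero]
    refine ⟨?_, a1, a2, ?_, ?_⟩
    · rw [hm_add_right hF, hm_smul_right, a1, a2, mul_zero, add_zero]
    · rw [hm_add_left, hm_smul_left', hue, hwe, mul_zero, add_zero]
    · rw [hm_add_right hF, hm_smul_right, ht1, htw, mul_zero, add_zero]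
  have horth : ∀ p ∈ [u, w, u + (1 : F) • w, u + ω • w, u + (ω + 1) • w],
      hm 2 p u = 0 ∧ hm 2 p w = 0 := by
    simp only [List.mem_cons, List.not_mem_nil, or_false, forall_eq_or_imp, forall_eq]
    exact ⟨⟨hu.2, huw⟩, ⟨hwu, hw⟩, ⟨(hk _).2.1, (hk _).2.2.1⟩, ⟨(hk _).2.1, (hk _).2.2.1⟩, (hk _).2.1, (hk _).2.2.1⟩
  have hx : ∀ k : F, Valid 2 (u + k • w) ∧ hm 2 (u + k • w) e = 0 ∧
      ∃ x, Valid 2 x ∧ hm 2 x e = 0 ∧ hm 2 x u ≠ 0 ∧ hm 2 x (u + k • w) ≠ 0 := fun k =>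
    ⟨⟨fun h => by have := (hk k).2.2.2.2; rw [h, hm_zero_right hF] at this; exact zero_ne_one this, (hk k).1⟩,
      (hk k).2.2.2.1, _, ht, hte, by rw [ht1]; exact one_ne_zero, by rw [(hk k).2.2.2.2]; exact one_ne_zero⟩
  refine ⟨u, w, _, _, _, Cfsg.Agent.Lib.Involution.FischerTwentyTwo.five_prod hF4 hω hu.2 hw huw, ?_, ?_⟩
  · intro p hp q hq
    obtain ⟨q1, q2⟩ := horth p hp
    simp only [List.mem_cons, List.not_mem_nil, or_false] at hq
    rcases hq with rfl | rfl | rfl | rfl | rfl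
    · exact q1
    · exact q2
    all_goals rw [hm_add_right hF, hm_smul_right, q1, q2, mul_zero, add_zero]
  · simp only [List.mem_cons, List.not_mem_nil, or_false, forall_eq_or_imp, forall_eq]
    exact ⟨⟨hu, hue, _, ht, hte, by rw [ht1]; exact one_ne_zero, by rw [ht1]; exact one_ne_zero⟩,
      ⟨⟨hw0, hw⟩, hwe, _, hr, hre, by rw [hr1]; exact one_ne_zero, by rw [hrw]; exact one_ne_zero⟩, hx _, hx _, hx _⟩

variable {C : Type*} [Group C] (f : C →* P 6 F 2) (hsurj : Function.Surjective f) {d : C}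
  (hker : ∀ x, f x = 1 ↔ x = 1 ∨ x = d) (hdc : ∀ x, Commute d x) (hd : d * d = 1)
include hsurj hker hdc hd

omit hsurj hd in
theorem ker_central {z : C} (hz : f z = 1) (x : C) : Commute z x := by
  rcases (hker z).1 hz with rfl | rfl
  exacts [Commute.one_left x, hdc x]

omit hsurj hdc in
theorem ker_sq {z : C} (hz : f z = 1) : z * z = 1 := by
  rcases (hker z).1 hz with rfl | rfl
  exacts [mul_one 1, hd]

omit hsurj hdc in
theorem fifth_power {z : C} (hz : f z = 1) : z * z * z * z * z = z := by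
  rw [ker_sq f hker hd hz, one_mul, ker_sq f hker hd hz, one_mul]

theorem lifts_commute {k a : C} {u e : Fin 6 → F} (hu : Valid 2 u) (he : Valid 2 e) (hue : hm 2 u e = 0)
    (hk : f k = τ hF4 u) (ha : f a = τ hF4 e) : Commute k a := by
  classical
  have hF := card2 hF4
  by_cases hu' : u ∈ Submodule.span F {e}
  · obtain ⟨s, rfl⟩ := Submodule.mem_span_singleton.1 hu'
    have hs : s ≠ 0 := fun h => hu.1 (by rw [h, zero_smul])
    have h1 : f (k * a⁻¹) = 1 := by rw [map_mul, map_inv, hk, ha, τ_smul hF4 he.2 hs, mul_inv_cancel]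
    have := (ker_central f hker hdc h1 a).mul_left (Commute.refl a)
    rwa [inv_mul_cancel_right] at this
  have he' : e ∉ Submodule.span F {u} := by
    intro h
    obtain ⟨s, rfl⟩ := Submodule.mem_span_singleton.1 h
    have hs : s ≠ 0 := fun h0 => he.1 (by rw [h0, zero_smul])
    exact hu' (Submodule.mem_span_singleton.2 ⟨s⁻¹, by rw [smul_smul, inv_mul_cancel₀ hs, one_smul]⟩)
  set cm : C → C := fun x => x * a * x⁻¹ * a⁻¹ with hcm
  have hin : ∀ {x}, Commute (f x) (τ hF4 e) → f (cm x) = 1 := by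
    intro x hx
    simp only [hcm, map_mul, map_inv, ha]
    rw [hx.eq, mul_inv_cancel_right, mul_inv_cancel]
  have hmul : ∀ {x y}, Commute (f y) (τ hF4 e) → cm (x * y) = cm y * cm x := by
    intro x y hy
    have h := ker_central f hker hdc (hin hy) x
    calc cm (x * y) = x * cm y * (a * x⁻¹ * a⁻¹) := by simp only [hcm]; group
      _ = cm y * x * (a * x⁻¹ * a⁻¹) := by rw [h.eq]
      _ = cm y * cm x := by simp only [hcm, mul_assoc]
  have hone : ∀ {x}, f x = 1 → cm x = 1 := by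
    intro x hx
    simp only [hcm]
    rw [(ker_central f hker hdc hx a).eq, mul_inv_cancel_right, mul_inv_cancel]
  have hcomm : ∀ {x : C} {p : Fin 6 → F}, f x = τ hF4 p → Valid 2 p → hm 2 p e = 0 → Commute (f x) (τ hF4 e) := by
    intro x p hx hp hpe
    rw [hx]
    exact (UnitaryTransp.commute_iff hF4 (show 1 ≤ 6 by norm_num) hp he).2 (hm_comm_zero hF hpe)
  have hlink : ∀ {x y : C} {p r : Fin 6 → F}, f x = τ hF4 p → f y = τ hF4 r → Valid 2 p → Valid 2 r →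
      hm 2 p e = 0 → hm 2 r e = 0 → hm 2 p r ≠ 0 → cm x = cm y := by
    intro x y p r hx hy hp hr hpe hre hpr
    have cx := hcomm hx hp hpe
    have cy := hcomm hy hr hre
    have cg : Commute (f (x * y)) (τ hF4 e) := by rw [map_mul]; exact cx.mul_left cy
    have cgg : Commute (f (x * y * (x * y))) (τ hF4 e) := by rw [map_mul]; exact cg.mul_left cg
    have h3 : f (x * y * (x * y) * (x * y)) = 1 := by
      simp only [map_mul, hx, hy]
      rw [show τ hF4 p * τ hF4 r * (τ hF4 p * τ hF4 r) * (τ hF4 p * τ hF4 r) =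
        (τ hF4 p * τ hF4 r * τ hF4 p) * (τ hF4 r * τ hF4 p * τ hF4 r) by simp only [mul_assoc],
        τ_braid hF4 hp hr hpr]
      rw [show τ hF4 r * τ hF4 p * τ hF4 r * (τ hF4 r * τ hF4 p * τ hF4 r) =
        τ hF4 r * τ hF4 p * (τ hF4 r * τ hF4 r) * τ hF4 p * τ hF4 r by simp only [mul_assoc],
        τ_mul_self hF4 hr.2, mul_one, mul_assoc (τ hF4 r) (τ hF4 p) (τ hF4 p), τ_mul_self hF4 hp.2, mul_one,
        τ_mul_self hF4 hr.2]
    have e1 := hone h3
    rw [hmul cg, hmul cg, ← mul_assoc] at e1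
    rw [ker_sq f hker hd (hin cg), one_mul, hmul cy] at e1
    rw [eq_inv_of_mul_eq_one_right e1, inv_eq_of_mul_eq_one_right (ker_sq f hker hd (hin cy))]
  obtain ⟨p₁, p₂, p₃, p₄, p₅, hprod, -, hall⟩ := exists_line hF4 hu he hue hu' he'
  simp only [List.mem_cons, List.not_mem_nil, or_false, forall_eq_or_imp, forall_eq] at hall
  simp only [List.map_cons, List.map_nil, List.prod_cons, List.prod_nil, mul_one] at hprod
  obtain ⟨h1, h2, h3, h4, h5⟩ := hall
  have hval : ∀ {p : Fin 6 → F} {x : C}, (Valid 2 p ∧ hm 2 p e = 0 ∧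
      ∃ y, Valid 2 y ∧ hm 2 y e = 0 ∧ hm 2 y u ≠ 0 ∧ hm 2 y p ≠ 0) → f x = τ hF4 p → cm x = cm k := by
    rintro p x ⟨hp, hpe, y, hy, hye, hyu, hyp⟩ hx
    obtain ⟨z, hz⟩ := hsurj (τ hF4 y)
    exact (hlink hz hx hy hp hye hpe hyp).symm.trans (hlink hz hk hy hu hye hue hyu)
  obtain ⟨x₁, e₁⟩ := hsurj (τ hF4 p₁)
  obtain ⟨x₂, e₂⟩ := hsurj (τ hF4 p₂)
  obtain ⟨x₃, e₃⟩ := hsurj (τ hF4 p₃)
  obtain ⟨x₄, e₄⟩ := hsurj (τ hF4 p₄)
  obtain ⟨x₅, e₅⟩ := hsurj (τ hF4 p₅)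
  have c2 := hcomm e₂ h2.1 h2.2.1
  have c3 := hcomm e₃ h3.1 h3.2.1
  have c4 := hcomm e₄ h4.1 h4.2.1
  have c5 := hcomm e₅ h5.1 h5.2.1
  have e0 := hone (x := x₁ * x₂ * x₃ * x₄ * x₅) (by
    simp only [map_mul, e₁, e₂, e₃, e₄, e₅]; rw [← hprod]; simp only [mul_assoc])
  rw [hmul c5, hmul c4, hmul c3, hmul c2, hval h1 e₁, hval h2 e₂, hval h3 e₃, hval h4 e₄, hval h5 e₅] at e0
  simp only [← mul_assoc] at e0
  rw [fifth_power f hker hd (hin (hcomm hk hu hue))] at e0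
  simp only [hcm, mul_inv_eq_one] at e0
  exact mul_inv_eq_iff_eq_mul.1 e0

theorem lifts_sq {k : C} {u : Fin 6 → F} (hu : Valid 2 u) (hk : f k = τ hF4 u) : k * k = 1 := by
  classical
  obtain ⟨e, he, heu, hu', he'⟩ := exists_orth_point hF4 hu
  have hsqker : ∀ {x : C} {p : Fin 6 → F}, f x = τ hF4 p → Valid 2 p → f (x * x) = 1 := by
    intro x p hx hp; rw [map_mul, hx, τ_mul_self hF4 hp.2]
  have hlink : ∀ {x y : C} {p r : Fin 6 → F}, f x = τ hF4 p → f y = τ hF4 r → Valid 2 p → Valid 2 r →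
      hm 2 p r ≠ 0 → x * x = y * y := by
    intro x y p r hx hy hp hr hpr
    set g := x * y with hg
    have hz : f (g * x * g⁻¹ * y⁻¹) = 1 := by
      simp only [hg, map_mul, map_inv, hx, hy]
      rw [τ_braid hF4 hp hr hpr,
        show τ hF4 r * τ hF4 p * τ hF4 r * (τ hF4 p * τ hF4 r)⁻¹ * (τ hF4 r)⁻¹ =
          τ hF4 r * τ hF4 p * (τ hF4 r * (τ hF4 r)⁻¹) * (τ hF4 p)⁻¹ * (τ hF4 r)⁻¹ by group]
      group
    set z := g * x * g⁻¹ * y⁻¹ with hzdef
    have e1 : g * x * g⁻¹ = z * y := by rw [hzdef, inv_mul_cancel_right]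
    have e2 : g * (x * x) * g⁻¹ = (z * y) * (z * y) := by rw [← e1]; group
    rw [← (ker_central f hker hdc (hsqker hx hp) g).eq, mul_inv_cancel_right, mul_assoc z y (z * y),
      ← mul_assoc y z y, ← (ker_central f hker hdc hz y).eq, mul_assoc z y y, ← mul_assoc z z,
      ker_sq f hker hd hz, one_mul] at e2
    exact e2
  obtain ⟨p₁, p₂, p₃, p₄, p₅, hprod, horth, hall⟩ :=
    exists_line hF4 hu he (hm_comm_zero (card2 hF4) heu) hu' he'
  simp only [List.mem_cons, List.not_mem_nil, or_false, forall_eq_or_imp, forall_eq] at hall horth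
  simp only [List.map_cons, List.map_nil, List.prod_cons, List.prod_nil, mul_one] at hprod
  obtain ⟨h1, h2, h3, h4, h5⟩ := hall
  have hval : ∀ {p : Fin 6 → F} {x : C}, (Valid 2 p ∧ hm 2 p e = 0 ∧
      ∃ y, Valid 2 y ∧ hm 2 y e = 0 ∧ hm 2 y u ≠ 0 ∧ hm 2 y p ≠ 0) → f x = τ hF4 p → x * x = k * k := by
    rintro p x ⟨hp, -, y, hy, -, hyu, hyp⟩ hx
    obtain ⟨z, hz⟩ := hsurj (τ hF4 y)
    exact (hlink hz hx hy hp hyp).symm.trans (hlink hz hk hy hu hyu)
  obtain ⟨x₁, e₁⟩ := hsurj (τ hF4 p₁)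
  obtain ⟨x₂, e₂⟩ := hsurj (τ hF4 p₂)
  obtain ⟨x₃, e₃⟩ := hsurj (τ hF4 p₃)
  obtain ⟨x₄, e₄⟩ := hsurj (τ hF4 p₄)
  obtain ⟨x₅, e₅⟩ := hsurj (τ hF4 p₅)
  obtain ⟨o1, o2, o3, o4, -⟩ := horth
  have cc := fun {x y : C} {p r : Fin 6 → F} (hp : Valid 2 p) (hr : Valid 2 r) (h : hm 2 p r = 0)
      (hx : f x = τ hF4 p) (hy : f y = τ hF4 r) => lifts_commute hF4 f hsurj hker hdc hd hp hr h hx hy
  have c12 := cc h1.1 h2.1 o1.2.1 e₁ e₂
  have c13 := cc h1.1 h3.1 o1.2.2.1 e₁ e₃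
  have c14 := cc h1.1 h4.1 o1.2.2.2.1 e₁ e₄
  have c15 := cc h1.1 h5.1 o1.2.2.2.2 e₁ e₅
  have c23 := cc h2.1 h3.1 o2.2.2.1 e₂ e₃
  have c24 := cc h2.1 h4.1 o2.2.2.2.1 e₂ e₄
  have c25 := cc h2.1 h5.1 o2.2.2.2.2 e₂ e₅
  have c34 := cc h3.1 h4.1 o3.2.2.2.1 e₃ e₄
  have c35 := cc h3.1 h5.1 o3.2.2.2.2 e₃ e₅
  have c45 := cc h4.1 h5.1 o4.2.2.2.2 e₄ e₅
  have hP : f (x₁ * x₂ * x₃ * x₄ * x₅) = 1 := by
    simp only [map_mul, e₁, e₂, e₃, e₄, e₅]; rw [← hprod]; simp only [mul_assoc]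
  have hsq := ker_sq f hker hd hP
  have b2 : x₁ * x₂ * (x₁ * x₂) = x₁ * x₁ * (x₂ * x₂) := c12.symm.mul_mul_mul_comm x₁ x₂
  have b3 : x₁ * x₂ * x₃ * (x₁ * x₂ * x₃) = x₁ * x₂ * (x₁ * x₂) * (x₃ * x₃) :=
    ((c13.mul_left c23).symm).mul_mul_mul_comm (x₁ * x₂) x₃
  have b4 : x₁ * x₂ * x₃ * x₄ * (x₁ * x₂ * x₃ * x₄) = x₁ * x₂ * x₃ * (x₁ * x₂ * x₃) * (x₄ * x₄) :=
    (((c14.mul_left c24).mul_left c34).symm).mul_mul_mul_comm (x₁ * x₂ * x₃) x₄
  have b5 : x₁ * x₂ * x₃ * x₄ * x₅ * (x₁ * x₂ * x₃ * x₄ * x₅) =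
      x₁ * x₂ * x₃ * x₄ * (x₁ * x₂ * x₃ * x₄) * (x₅ * x₅) :=
    ((((c15.mul_left c25).mul_left c35).mul_left c45).symm).mul_mul_mul_comm (x₁ * x₂ * x₃ * x₄) x₅
  rw [b5, b4, b3, b2, hval h1 e₁, hval h2 e₂, hval h3 e₃, hval h4 e₄, hval h5 e₅,
    fifth_power f hker hd (hsqker hk hu)] at hsq
  exact hsq

include hF4 in
/-- Every involution of the quotient lifts to an involution. -/
theorem involution_lifts {z : P 6 F 2} (hz : orderOf z = 2) : ∃ y, orderOf y = 2 ∧ f y = z := by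
  classical
  obtain ⟨l, -, hval, horth, -, rfl⟩ := involution_decomp hF4 hz
  choose g hg using hsurj
  set ys := l.map fun v => g (τ hF4 v)
  have hf : f ys.prod = (l.map (τ hF4)).prod := by
    rw [map_list_prod, List.map_map]
    exact congrArg List.prod (List.map_congr_left fun v _ => hg _)
  refine ⟨ys.prod, orderOf_eq_prime ?_ ?_, hf⟩
  · rw [pow_two]
    have key : ∀ m : List (Fin 6 → F), (∀ v ∈ m, v ∈ l) →
        (m.map fun v => g (τ hF4 v)).prod * (m.map fun v => g (τ hF4 v)).prod = 1 := by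
      intro m
      induction m with
      | nil => intro _; simp
      | cons v m ih =>
        intro hm'
        have hv := hm' v List.mem_cons_self
        have hc : Commute (m.map fun w => g (τ hF4 w)).prod (g (τ hF4 v)) :=
          Commute.list_prod_left _ _ fun y hy => by
            obtain ⟨w, hw, rfl⟩ := List.mem_map.1 hy
            have hwl := hm' w (List.mem_cons_of_mem _ hw)
            exact lifts_commute hF4 f (fun b => ⟨g b, hg b⟩) hker hdc hd (hval w hwl) (hval v hv)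
              (horth w hwl v hv) (hg _) (hg _)
        rw [List.map_cons, List.prod_cons, hc.mul_mul_mul_comm,
          lifts_sq hF4 f (fun b => ⟨g b, hg b⟩) hker hdc hd (hval v hv) (hg _), one_mul,
          ih fun w hw => hm' w (List.mem_cons_of_mem _ hw)]
    exact key l fun v hv => hv
  · intro h
    rw [h, map_one] at hf
    rw [← hf, orderOf_one] at hz
    omega

end Cfsg.Agent.Lib.Involution.UnitaryCover
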