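import Cfsg.Agent.Lib.Involution.UnitaryTorus

/-! An element of order 5 of a six-dimensional unitary space over four elements with an isotropic fixed vector:
its fixed plane, the two totally isotropic planes, and what commutes with it. -/

set_option autoImplicit false

namespace Cfsg.Agent.Lib.Involution.UnitaryFive

open Matrix
open Cfsg Cfsg.Agent.Lib.AutPSU Cfsg.Agent.Lib.Involution.UnitaryTransp
  Cfsg.Agent.Lib.Involution.UnitaryTorus

variable {F : Type} [Field F] [Fintype F]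

/-- The kernel of the quadratic factor of the cyclotomic polynomial. -/
def Quad (ω : F) (A : Module.End F (V F)) : Submodule F (V F) :=
  LinearMap.ker (A * A + ω • A + 1)

theorem mem_Quad {ω : F} {A : Module.End F (V F)} {v : V F} :
    v ∈ Quad ω A ↔ A (A v) + ω • A v + v = 0 := by
  rw [Quad, LinearMap.mem_ker]
  simp [Module.End.mul_apply]

theorem Quad_invariant {ω : F} {A f : Module.End F (V F)} (hc : Commute A f) :
    ∀ v ∈ Quad ω A, f v ∈ Quad ω A := by
  intro v hv
  have hcv : ∀ x, A (f x) = f (A x) := fun x => LinearMap.congr_fun hc.eq x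
  rw [mem_Quad] at hv ⊢
  rw [hcv, hcv, ← map_smul, ← map_add, ← map_add, hv, map_zero]

/-- The component in a quadratic factor. -/
def part (ω : F) (A : Module.End F (V F)) (v : V F) : V F :=
  ω • (A v + A (A (A (A v)))) + (ω ^ 2) • (A (A v) + A (A (A v)))

theorem conj_sq {ω : F} (hω : ω ^ 2 = ω + 1) (h2 : (2 : F) = 0) : (ω ^ 2) ^ 2 = ω ^ 2 + 1 := by
  linear_combination (ω ^ 2 + ω + 1) * hω + ω * h2

theorem conj_conj {ω : F} (hω : ω ^ 2 = ω + 1) (h2 : (2 : F) = 0) : (ω ^ 2) ^ 2 = ω := by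
  linear_combination (ω ^ 2 + ω + 2) * hω + (ω + 1) * h2

variable (hF4 : Fintype.card F = 4)
include hF4

theorem two_zero : (2 : F) = 0 := by
  haveI := charTwo hF4
  exact CharTwo.two_eq_zero

variable {A : Module.End F (V F)} (hA : A ^ 5 = 1)
include hA

omit hF4 in
theorem five_apply (v : V F) : A (A (A (A (A v)))) = v := by
  have := LinearMap.congr_fun hA v
  simpa [pow_succ, Module.End.mul_apply] using this

theorem part_mem {ω : F} (hω : ω ^ 2 = ω + 1) (v : V F) : part ω A v ∈ Quad ω A := by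
  rw [mem_Quad, part]
  simp only [map_add, map_smul, five_apply hA]
  ext i
  simp only [Pi.add_apply, Pi.smul_apply, smul_eq_mul, Pi.zero_apply]
  linear_combination ((A (A (A v))) i + (A (A (A (A v)))) i) * (ω + 2) * hω +
    (ω ^ 2 * v i + ω * (A v) i + ω ^ 2 * (A (A v)) i + (2 * ω + 1) * ((A (A (A v))) i + (A (A (A (A v)))) i)) *
      two_zero hF4

theorem split {ω : F} (hω : ω ^ 2 = ω + 1) (v : V F) :
    ∃ w, A w = w ∧ ∃ p ∈ Quad ω A, ∃ q ∈ Quad (ω ^ 2) A, v = w + p + q := by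
  refine ⟨v + A v + A (A v) + A (A (A v)) + A (A (A (A v))), ?_, part ω A v, part_mem hF4 hA hω v,
    part (ω ^ 2) A v, part_mem hF4 hA (conj_sq hω (two_zero hF4)) v, ?_⟩
  · simp only [map_add, five_apply hA]
    abel
  · rw [part, part, conj_conj hω (two_zero hF4)]
    ext i
    simp only [Pi.add_apply, Pi.smul_apply, smul_eq_mul]
    linear_combination (-(A v) i - (A (A v)) i - (A (A (A v))) i - (A (A (A (A v)))) i) * hω -
      (ω + 1) * ((A v) i + (A (A v)) i + (A (A (A v))) i + (A (A (A (A v)))) i) * two_zero hF4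

theorem eigen_one {x : V F} (hx : x ≠ 0) {c : F} (h : A x = c • x) : A x = x := by
  have h5 := pow_apply_fixed h 5
  rw [hA] at h5
  have hc : c = 1 := eq_one_of_pow hF4 (r := 5) (by norm_num)
    (smul_left_injective F hx (show c ^ 5 • x = (1 : F) • x by rw [one_smul]; exact h5.symm))
  rw [h, hc, one_smul]

omit hA in
theorem quad_fixed {ω : F} (h0 : ω ≠ 0) {x : V F} (hx : x ∈ Quad ω A) (hfx : A x = x) : x = 0 := by
  haveI := charTwo hF4
  rw [mem_Quad, hfx, hfx] at hx
  have : ω • x = 0 := by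
    rw [← hx]
    ext i
    simp only [Pi.add_apply, Pi.smul_apply, smul_eq_mul]
    linear_combination (-x i) * two_zero hF4
  exact (smul_eq_zero.1 this).resolve_left h0

variable (hAiso : ∀ u v, hm 2 (A u) (A v) = hm 2 u v)
include hAiso

theorem quad_isotropic {ω : F} (hω : ω ^ 2 = ω + 1) {x y : V F} (hx : x ∈ Quad ω A) (hy : y ∈ Quad ω A) :
    hm 2 x y = 0 := by
  have key : ∀ z ∈ Quad ω A, hm 2 (A z) y = 0 := by
    intro z hz
    have e1 : hm 2 (A (A z)) y + ω * hm 2 (A z) y + hm 2 z y = 0 := by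
      rw [← hm_smul_left', ← hm_add_left, ← hm_add_left, mem_Quad.1 hz, hm_zero_left]
    have e2 : hm 2 z y + ω ^ 2 * hm 2 (A z) y + hm 2 (A (A z)) y = 0 := by
      have h := congrArg (hm 2 (A (A z))) (mem_Quad.1 hy)
      rw [hm_add_right (card2 hF4), hm_add_right (card2 hF4), hm_smul_right, hAiso, hAiso, hAiso] at h
      rw [h, show hm 2 (A (A z)) (0 : V F) = 0 from hm_comm_zero (card2 hF4) (hm_zero_left _)]
    linear_combination e1 + e2 - hm 2 (A z) y * hω -
      (hm 2 (A (A z)) y + ω * hm 2 (A z) y + hm 2 z y) * two_zero hF4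
  have h4 := key (A (A (A (A x)))) (Quad_invariant (Commute.refl A) _ (Quad_invariant (Commute.refl A) _
    (Quad_invariant (Commute.refl A) _ (Quad_invariant (Commute.refl A) _ hx))))
  rwa [five_apply hA] at h4

omit hA in
theorem fixed_orth {ω : F} (h0 : ω ≠ 0) {x w : V F} (hx : x ∈ Quad ω A) (hw : A w = w) : hm 2 x w = 0 := by
  have e : ∀ z, hm 2 (A z) w = hm 2 z w := fun z => by
    conv_lhs => rw [← hw]
    rw [hAiso]
  have h := congrArg (fun z => hm 2 z w) (mem_Quad.1 hx)
  simp only [hm_add_left, hm_smul_left', hm_zero_left, e] at h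
  have : ω * hm 2 x w = 0 := by linear_combination h - hm 2 x w * two_zero hF4
  exact (mul_eq_zero.1 this).resolve_left h0

variable {ω : F} (h0 : ω ≠ 0) (hω : ω ^ 2 = ω + 1)
include h0 hω

theorem finrank_quad_le : Module.finrank F ↥(Quad ω A) ≤ Module.finrank F ↥(Quad (ω ^ 2) A) := by
  set b := Module.finBasis F ↥(Quad (ω ^ 2) A)
  let f : ↥(Quad ω A) →ₗ[F] (Fin (Module.finrank F ↥(Quad (ω ^ 2) A)) → F) :=
    { toFun := fun x i => hm 2 (x : V F) (b i : V F)
      map_add' := fun x y => funext fun i => hm_add_left _ _ _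
      map_smul' := fun c x => funext fun i => hm_smul_left' _ _ _ }
  have hf : Function.Injective f := by
    refine LinearMap.ker_eq_bot.1 ((Submodule.eq_bot_iff _).2 fun x hx => Subtype.ext ?_)
    have hxb : ∀ q ∈ Quad (ω ^ 2) A, hm 2 (x : V F) q = 0 := by
      intro q hq
      have e : q = ((∑ i, b.repr ⟨q, hq⟩ i • b i : ↥(Quad (ω ^ 2) A)) : V F) := by rw [b.sum_repr]
      rw [e, Submodule.coe_sum]
      refine Finset.sum_induction _ (fun z => hm 2 (x : V F) z = 0)
        (fun u v hu hv => by rw [hm_add_right (card2 hF4), hu, hv, add_zero])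
        (hm_comm_zero (card2 hF4) (hm_zero_left _)) fun i _ => ?_
      rw [Submodule.coe_smul, hm_smul_right]
      exact mul_eq_zero_of_right _ (congrFun (LinearMap.mem_ker.1 hx) i)
    refine eq_zero_of_hm (card2 hF4) fun v => hm_comm_zero (card2 hF4) ?_
    obtain ⟨w, hw, p, hp, q, hq, rfl⟩ := split hF4 hA hω v
    rw [hm_add_right (card2 hF4), hm_add_right (card2 hF4), fixed_orth hF4 hAiso h0 x.2 hw,
      quad_isotropic hF4 hA hAiso hω x.2 hp, hxb q hq, add_zero, add_zero]
  have := LinearMap.finrank_le_finrank_of_injective hf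
  rwa [Module.finrank_fintype_fun_eq_card, Fintype.card_fin] at this

theorem quad_ne_one : Module.finrank F ↥(Quad ω A) ≠ 1 := by
  intro h
  obtain ⟨x, hx, hgen⟩ := finrank_eq_one_iff'.1 h
  obtain ⟨c, hc⟩ := hgen ⟨A x, Quad_invariant (Commute.refl A) _ x.2⟩
  have hx0 : (x : V F) ≠ 0 := fun e => hx (Subtype.ext e)
  exact hx0 (quad_fixed hF4 h0 x.2 (eigen_one hF4 hA hx0 (congrArg Subtype.val hc).symm))

variable (hA1 : A ≠ 1) {v₀ : V F} (hv₀ : v₀ ≠ 0) (hAv₀ : A v₀ = v₀)
include hA1 hv₀ hAv₀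

/-- The fixed plane and the two planes. -/
theorem dims : Module.finrank F ↥(Eig A 1) = 2 ∧ Module.finrank F ↥(Quad ω A) = 2 ∧
    Module.finrank F ↥(Quad (ω ^ 2) A) = 2 := by
  have h2 := two_zero hF4
  have hω' := conj_sq hω h2
  have h0' : ω ^ 2 ≠ 0 := pow_ne_zero _ h0
  have l1 := finrank_quad_le hF4 hA hAiso h0 hω
  have l2 := finrank_quad_le hF4 hA hAiso h0' hω'
  rw [conj_conj hω h2] at l2
  have n1 := quad_ne_one hF4 hA hAiso h0 hω
  have hcongr := fixed_congr hF4 (p := 5) (by norm_num) hA ⊤ fun _ _ => trivial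
  rw [top_inf_eq, finrank_top, Module.finrank_fintype_fun_eq_card, Fintype.card_fin] at hcongr
  have h6 := dim_le hF4 (Eig A 1)
  have hne6 : Module.finrank F ↥(Eig A 1) ≠ 6 := fun e => hA1 (eq_one_of_six hF4 e)
  have hne0 : Module.finrank F ↥(Eig A 1) ≠ 0 := fun e =>
    hv₀ ((Submodule.eq_bot_iff _).1 (Submodule.finrank_eq_zero.1 e) v₀ (mem_Eig_one.2 hAv₀))
  have d1 : Eig A 1 ⊓ Quad ω A = ⊥ := (Submodule.eq_bot_iff _).2 fun x hx =>
    quad_fixed hF4 h0 hx.2 (mem_Eig_one.1 hx.1)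
  have d2 : (Eig A 1 ⊔ Quad ω A) ⊓ Quad (ω ^ 2) A = ⊥ := by
    refine (Submodule.eq_bot_iff _).2 fun x hx => ?_
    obtain ⟨hx1, hxq⟩ := hx
    obtain ⟨w, hw, p, hp, rfl⟩ := Submodule.mem_sup.1 hx1
    refine eq_zero_of_hm (card2 hF4) fun v => hm_comm_zero (card2 hF4) ?_
    obtain ⟨w', hw', p', hp', q', hq', rfl⟩ := split hF4 hA hω v
    rw [hm_add_right (card2 hF4), hm_add_right (card2 hF4), fixed_orth hF4 hAiso h0' hxq hw',
      quad_isotropic hF4 hA hAiso hω' hxq hq', add_zero, zero_add, hm_add_left,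
      hm_comm_zero (card2 hF4) (fixed_orth hF4 hAiso h0 hp' (mem_Eig_one.1 hw)),
      quad_isotropic hF4 hA hAiso hω hp hp', add_zero]
  have htop : Eig A 1 ⊔ Quad ω A ⊔ Quad (ω ^ 2) A = ⊤ := by
    refine eq_top_iff.2 fun v _ => ?_
    obtain ⟨w, hw, p, hp, q, hq, rfl⟩ := split hF4 hA hω v
    exact Submodule.add_mem_sup (Submodule.add_mem_sup (mem_Eig_one.2 hw) hp) hq
  have s1 := Submodule.finrank_sup_add_finrank_inf_eq (Eig A 1) (Quad ω A)
  have s2 := Submodule.finrank_sup_add_finrank_inf_eq (Eig A 1 ⊔ Quad ω A) (Quad (ω ^ 2) A)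
  rw [d1, finrank_bot] at s1
  rw [d2, finrank_bot, htop, finrank_top, Module.finrank_fintype_fun_eq_card, Fintype.card_fin] at s2
  interval_cases Module.finrank F ↥(Eig A 1) <;> omega

/-- Two isotropic fixed lines are not orthogonal. -/
theorem fixed_nonorth {u w : V F} (hu : A u = u) (hw : A w = w) (huu : hm 2 u u = 0) (hww : hm 2 w w = 0)
    (hind : LinearIndependent F ![u, w]) : hm 2 u w ≠ 0 := by
  intro huw
  have h2 := two_zero hF4
  have hwu := hm_comm_zero (card2 hF4) huw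
  have hspan : Submodule.span F (Set.range ![u, w]) = Eig A 1 := by
    refine Submodule.eq_of_le_of_finrank_eq (Submodule.span_le.2 ?_) ?_
    · rintro _ ⟨i, rfl⟩
      fin_cases i
      exacts [mem_Eig_one.2 hu, mem_Eig_one.2 hw]
    · rw [finrank_span_eq_card hind, Fintype.card_fin, (dims hF4 hA hAiso h0 hω hA1 hv₀ hAv₀).1]
  refine (hind.ne_zero 0) ?_
  show u = 0
  refine eq_zero_of_hm (card2 hF4) fun v => hm_comm_zero (card2 hF4) ?_
  obtain ⟨w', hw', p, hp, q, hq, rfl⟩ := split hF4 hA hω v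
  rw [hm_add_right (card2 hF4), hm_add_right (card2 hF4),
    hm_comm_zero (card2 hF4) (fixed_orth hF4 hAiso h0 hp hu),
    hm_comm_zero (card2 hF4) (fixed_orth hF4 hAiso (pow_ne_zero _ h0) hq hu), add_zero, add_zero]
  have : w' ∈ Submodule.span F (Set.range ![u, w]) := hspan ▸ mem_Eig_one.2 hw'
  rw [Matrix.range_cons, Matrix.range_cons, Matrix.range_empty, Set.union_empty, Set.singleton_union] at this
  obtain ⟨a, b, rfl⟩ := Submodule.mem_span_pair.1 this
  rw [hm_add_right (card2 hF4), hm_smul_right, hm_smul_right, huu, huw, mul_zero, mul_zero, add_zero]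

/-- An isometry commuting with it acts on a plane as a scalar times a power. -/
theorem on_plane {s : Module.End F (V F)} (hc : Commute A s) (hsinj : ∀ x, s x = 0 → x = 0) :
    ∃ c : F, ∃ k : ℕ, c ≠ 0 ∧ ∀ x ∈ Quad ω A, s x = c • (A ^ k) x := by
  classical
  have hd := (dims hF4 hA hAiso h0 hω hA1 hv₀ hAv₀).2.1
  obtain ⟨x, hx, hx0⟩ : ∃ x ∈ Quad ω A, x ≠ 0 := by
    by_contra hb
    push Not at hb
    rw [(Submodule.eq_bot_iff _).2 hb, finrank_bot] at hd
    omega
  have hAx : A x ∈ Quad ω A := Quad_invariant (Commute.refl A) _ hx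
  have hnot : ∀ c : F, A x ≠ c • x := fun c h =>
    hx0 (quad_fixed hF4 h0 hx (eigen_one hF4 hA hx0 h))
  have hind : LinearIndependent F ![x, A x] := by
    rw [LinearIndependent.pair_iff' hx0]
    exact fun a h => hnot a h.symm
  have hspan : Submodule.span F {x, A x} = Quad ω A := by
    refine Submodule.eq_of_le_of_finrank_eq (Submodule.span_le.2 ?_) ?_
    · rintro z (rfl | rfl)
      exacts [hx, hAx]
    · rw [hd, show ({x, A x} : Set (V F)) = Set.range ![x, A x] by simp [Matrix.range_cons, Set.pair_comm],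
        finrank_span_eq_card hind, Fintype.card_fin]
  have hpowmem : ∀ k : ℕ, (A ^ k) x ∈ Quad ω A := fun k => Quad_invariant ((Commute.refl A).pow_right k) _ hx
  let f : Fˣ × Fin 5 → ↥{z : V F | z ∈ Quad ω A ∧ z ≠ 0} := fun p =>
    ⟨(p.1 : F) • (A ^ (p.2 : ℕ)) x, Submodule.smul_mem _ _ (hpowmem _), fun h => hx0 (by
      have h1 : (A ^ (p.2 : ℕ)) x = 0 := (smul_eq_zero.1 h).resolve_left p.1.ne_zero
      have h2 := congrArg (A ^ (5 - (p.2 : ℕ))) h1
      rw [← Module.End.mul_apply, ← pow_add, Nat.sub_add_cancel p.2.2.le, hA, map_zero] at h2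
      exact h2)⟩
  have hpow : ∀ (c : F) (k : ℕ), k < 5 → (A ^ k) x = c • x → k = 0 := by
    intro c k hk h
    by_contra hk0
    have hj : ∀ j : ℕ, (A ^ (k * j)) x = c ^ j • x := fun j => by
      rw [pow_mul]; exact pow_apply_fixed h j
    obtain ⟨j, hj1⟩ : ∃ j, k * j % 5 = 1 := by
      interval_cases k
      · omega
      · exact ⟨1, rfl⟩
      · exact ⟨3, rfl⟩
      · exact ⟨2, rfl⟩
      · exact ⟨4, rfl⟩
    have e : A ^ (k * j) = A := by
      rw [← Nat.div_add_mod (k * j) 5, pow_add, pow_mul, hA, one_pow, one_mul, hj1, pow_one]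
    exact hnot (c ^ j) (by rw [← hj j, e])
  have hfi : Function.Injective f := by
    rintro ⟨c, k⟩ ⟨c', k'⟩ h
    have h' : (c : F) • (A ^ (k : ℕ)) x = (c' : F) • (A ^ (k' : ℕ)) x := congrArg Subtype.val h
    have main : ∀ (a b : Fˣ) (i j : ℕ), i ≤ j → j < 5 → (a : F) • (A ^ i) x = (b : F) • (A ^ j) x →
        a = b ∧ i = j := by
      intro a b i j hij hj hab
      have h1 := congrArg (A ^ (5 - i)) hab
      simp only [map_smul, ← Module.End.mul_apply, ← pow_add] at h1
      rw [Nat.sub_add_cancel (by omega), show 5 - i + j = 5 + (j - i) by omega, pow_add, hA, one_mul,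
        Module.End.one_apply] at h1
      have h2 : (A ^ (j - i)) x = ((b : F)⁻¹ * a) • x := by
        rw [mul_smul, h1, smul_smul, inv_mul_cancel₀ b.ne_zero, one_smul]
      have hji := hpow _ _ (by omega) h2
      rw [hji, pow_zero, Module.End.one_apply] at h1
      exact ⟨Units.ext (smul_left_injective F hx0 h1), by omega⟩
    rcases le_total (k : ℕ) (k' : ℕ) with hle | hle
    · obtain ⟨e1, e2⟩ := main c c' k k' hle k'.2 h'
      rw [e1, Fin.ext e2]
    · obtain ⟨e1, e2⟩ := main c' c k' k hle k.2 h'.symm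
      rw [e1, Fin.ext e2]
  have hcard : Nat.card ↥{z : V F | z ∈ Quad ω A ∧ z ≠ 0} = 15 := by
    rw [Nat.card_coe_set_eq, show {z : V F | z ∈ Quad ω A ∧ z ≠ 0} = (Quad ω A : Set (V F)) \ {0} from rfl,
      Set.ncard_sdiff_singleton_of_mem (Quad ω A).zero_mem, ← Nat.card_coe_set_eq]
    show Nat.card ↥(Quad ω A) - 1 = 15
    rw [card_sub hF4, hd]; rfl
  have hfs : Function.Bijective f := by
    refine (Nat.bijective_iff_injective_and_card f).2 ⟨hfi, ?_⟩
    rw [hcard, Nat.card_prod, Nat.card_units, Nat.card_eq_fintype_card, Nat.card_fin, hF4]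
  obtain ⟨⟨c, k⟩, hck⟩ := hfs.2 ⟨s x, Quad_invariant hc _ hx, fun h => hx0 (hsinj x h)⟩
  have e : s x = (c : F) • (A ^ (k : ℕ)) x := (congrArg Subtype.val hck).symm
  refine ⟨c, k, c.ne_zero, fun z hz => ?_⟩
  rw [← hspan] at hz
  obtain ⟨a, b, rfl⟩ := Submodule.mem_span_pair.1 hz
  have e2 : s (A x) = (c : F) • (A ^ (k : ℕ)) (A x) := by
    rw [show s (A x) = A (s x) from (LinearMap.congr_fun hc.eq x).symm, e, map_smul, ← Module.End.mul_apply,
      ← Module.End.mul_apply, ← pow_succ', pow_succ]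
  simp only [map_add, map_smul, e, e2, smul_add, smul_comm (c : F)]

/-- With two fixed isotropic eigenlines and determinant one it is a scalar times a power. -/
theorem commutant {u w : V F} (hu : A u = u) (hw : A w = w) (huu : hm 2 u u = 0) (hww : hm 2 w w = 0)
    (hind : LinearIndependent F ![u, w]) {s : Module.End F (V F)} (hc : Commute A s)
    (hsiso : ∀ x y, hm 2 (s x) (s y) = hm 2 x y) (hsdet : LinearMap.det s = 1) (hAdet : LinearMap.det A = 1)
    {a b : F} (hsu : s u = a • u) (hsw : s w = b • w) :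
    ∃ c : F, ∃ k : ℕ, ∀ x, s x = c • (A ^ k) x := by
  have hF := card2 hF4
  have h2 := two_zero hF4
  have hsinj : ∀ x, s x = 0 → x = 0 := fun x hx => eq_zero_of_hm hF fun y =>
    hm_comm_zero hF (by rw [← hsiso x y, hx, hm_zero_left])
  have huw := fixed_nonorth hF4 hA hAiso h0 hω hA1 hv₀ hAv₀ hu hw huu hww hind
  have ha0 : a ≠ 0 := fun e => hind.ne_zero 0 (hsinj u (by rw [hsu, e, zero_smul]))
  have hb0 : b ≠ 0 := fun e => hind.ne_zero 1 (hsinj w (by rw [hsw, e, zero_smul]))
  have hab : a = b := by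
    have h := hsiso u w
    rw [hsu, hsw, hm_smul_left', hm_smul_right, ← mul_assoc] at h
    have h1 : a * b ^ 2 = 1 := mul_right_cancel₀ huw (by rw [one_mul]; exact h)
    calc a = a * b ^ 3 := by rw [cube_one hF4 hb0, mul_one]
      _ = a * b ^ 2 * b := by ring
      _ = b := by rw [h1, one_mul]
  subst hab
  obtain ⟨hd, -, -⟩ := dims hF4 hA hAiso h0 hω hA1 hv₀ hAv₀
  have hfix : ∀ x, A x = x → s x = a • x := by
    have hspan : Submodule.span F (Set.range ![u, w]) = Eig A 1 := by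
      refine Submodule.eq_of_le_of_finrank_eq (Submodule.span_le.2 ?_) ?_
      · rintro _ ⟨i, rfl⟩
        fin_cases i
        exacts [mem_Eig_one.2 hu, mem_Eig_one.2 hw]
      · rw [finrank_span_eq_card hind, Fintype.card_fin, hd]
    intro x hx
    have : x ∈ Submodule.span F (Set.range ![u, w]) := hspan ▸ mem_Eig_one.2 hx
    rw [Matrix.range_cons, Matrix.range_cons, Matrix.range_empty, Set.union_empty, Set.singleton_union] at this
    obtain ⟨p, q, rfl⟩ := Submodule.mem_span_pair.1 this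
    simp only [map_add, map_smul, hsu, hsw, smul_add, smul_comm a]
  obtain ⟨c, k, hc0, hP⟩ := on_plane hF4 hA hAiso h0 hω hA1 hv₀ hAv₀ hc hsinj
  have hω' := conj_sq hω h2
  have h0' : ω ^ 2 ≠ 0 := pow_ne_zero _ h0
  have hpiso : ∀ (n : ℕ) (x y : V F), hm 2 ((A ^ n) x) ((A ^ n) y) = hm 2 x y := by
    intro n
    induction n with
    | zero => intro x y; rfl
    | succ n ih => intro x y; rw [pow_succ', Module.End.mul_apply, Module.End.mul_apply, hAiso, ih]
  have hQ : ∀ y ∈ Quad (ω ^ 2) A, s y = c • (A ^ k) y := by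
    intro y hy
    set r := s y - c • (A ^ k) y with hr
    have hrQ : r ∈ Quad (ω ^ 2) A := Submodule.sub_mem _ (Quad_invariant hc _ hy)
      (Submodule.smul_mem _ _ (Quad_invariant ((Commute.refl A).pow_right k) _ hy))
    refine sub_eq_zero.1 (eq_zero_of_hm hF (v := r) fun v => hm_comm_zero hF ?_)
    obtain ⟨w', hw', p, hp, q, hq, rfl⟩ := split hF4 hA hω v
    rw [hm_add_right hF, hm_add_right hF, fixed_orth hF4 hAiso h0' hrQ hw',
      quad_isotropic hF4 hA hAiso hω' hrQ hq, zero_add, add_zero]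
    refine hm_comm_zero hF ?_
    set x := c⁻¹ • (A ^ (4 * k)) p with hxdef
    have hx : x ∈ Quad ω A := Submodule.smul_mem _ _ (Quad_invariant ((Commute.refl A).pow_right _) _ hp)
    have hsx : s x = p := by
      rw [hP x hx, hxdef, map_smul, smul_smul, mul_inv_cancel₀ hc0, one_smul, ← Module.End.mul_apply, ← pow_add,
        show k + 4 * k = 5 * k by ring, pow_mul, hA, one_pow, Module.End.one_apply]
    have e1 : hm 2 p (s y) = hm 2 x y := by rw [← hsx, hsiso]
    have e2 : hm 2 p (c • (A ^ k) y) = hm 2 x y := by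
      rw [← hsx, hP x hx, hm_smul_left', hm_smul_right, hpiso, ← mul_assoc,
        show c * c ^ 2 = c ^ 3 by ring, cube_one hF4 hc0, one_mul]
    have e3 : hm 2 p r + hm 2 p (c • (A ^ k) y) = hm 2 p (s y) := by
      rw [← hm_add_right hF, hr, sub_add_cancel]
    rw [e1, e2] at e3
    exact add_eq_right.1 e3
  -- the determinant
  set R := Quad ω A ⊔ Quad (ω ^ 2) A with hR
  have hsR : ∀ x ∈ R, s x = c • (A ^ k) x := by
    intro x hx
    obtain ⟨p, hp, q, hq, rfl⟩ := Submodule.mem_sup.1 hx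
    rw [map_add, map_add, hP p hp, hQ q hq, smul_add]
  have hfixk : ∀ x ∈ Eig A 1, (A ^ (4 * k)) x = x := fun x hx => by
    rw [pow_apply_fixed (c := 1) (by rw [mem_Eig_one.1 hx, one_smul]), one_pow, one_smul]
  have hRA : ∀ x ∈ R, ∀ n : ℕ, (A ^ n) x ∈ R := by
    intro x hx n
    obtain ⟨p, hp, q, hq, rfl⟩ := Submodule.mem_sup.1 hx
    rw [map_add]
    exact Submodule.add_mem_sup (Quad_invariant ((Commute.refl A).pow_right n) _ hp)
      (Quad_invariant ((Commute.refl A).pow_right n) _ hq)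
  set T := A ^ (4 * k) * s with hT
  have hTW : ∀ x ∈ Eig A 1, T x = a • x := fun x hx => by
    rw [hT, Module.End.mul_apply, hfix x (mem_Eig_one.1 hx), map_smul, hfixk x hx]
  have hTR : ∀ x ∈ R, T x = c • x := fun x hx => by
    rw [hT, Module.End.mul_apply, hsR x hx, map_smul, ← Module.End.mul_apply, ← pow_add,
      show 4 * k + k = 5 * k by ring, pow_mul, hA, one_pow, Module.End.one_apply]
  have hcompl : IsCompl (Eig A 1) R := by
    refine IsCompl.of_eq ?_ ?_
    · refine (Submodule.eq_bot_iff _).2 fun x hx => ?_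
      obtain ⟨hx1, hx2⟩ := hx
      refine eq_zero_of_hm hF fun v => hm_comm_zero hF ?_
      obtain ⟨w', hw', p, hp, q, hq, rfl⟩ := split hF4 hA hω v
      rw [hm_add_right hF, hm_add_right hF, hm_comm_zero hF (fixed_orth hF4 hAiso h0 hp (mem_Eig_one.1 hx1)),
        hm_comm_zero hF (fixed_orth hF4 hAiso h0' hq (mem_Eig_one.1 hx1)), add_zero, add_zero]
      obtain ⟨p', hp', q', hq', rfl⟩ := Submodule.mem_sup.1 hx2
      rw [hm_add_left, fixed_orth hF4 hAiso h0 hp' hw', fixed_orth hF4 hAiso h0' hq' hw', add_zero]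
    · refine eq_top_iff.2 fun v _ => ?_
      obtain ⟨w', hw', p, hp, q, hq, rfl⟩ := split hF4 hA hω v
      rw [add_assoc]
      exact Submodule.add_mem_sup (mem_Eig_one.2 hw') (Submodule.add_mem_sup hp hq)
  set e := Submodule.prodEquivOfIsCompl _ _ hcompl with he
  have hconj : T = (e : _ →ₗ[F] V F) ∘ₗ
      ((a • (LinearMap.id : ↥(Eig A 1) →ₗ[F] ↥(Eig A 1))).prodMap (c • (LinearMap.id : ↥R →ₗ[F] ↥R))) ∘ₗ
        (e.symm : V F →ₗ[F] ↥(Eig A 1) × ↥R) := by
    refine LinearMap.ext fun v => ?_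
    obtain ⟨⟨x, y⟩, rfl⟩ := e.surjective v
    simp only [LinearMap.comp_apply, LinearEquiv.coe_coe, LinearEquiv.symm_apply_apply, LinearMap.prodMap_apply]
    simp only [he, Submodule.coe_prodEquivOfIsCompl', LinearMap.smul_apply, LinearMap.id_apply,
      Submodule.coe_smul, map_add, hTW _ x.2, hTR _ y.2]
  have hdR : Module.finrank F ↥R = 4 := by
    have h := Submodule.finrank_add_eq_of_isCompl hcompl
    rw [hd, Module.finrank_fintype_fun_eq_card, Fintype.card_fin] at h
    omega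
  have hdetT : LinearMap.det T = a ^ 2 * c ^ 4 := by
    rw [hconj, LinearMap.det_conj, LinearMap.det_prodMap, LinearMap.det_smul, LinearMap.det_smul, LinearMap.det_id,
      LinearMap.det_id, mul_one, mul_one, hd, hdR]
  have hdet1 : LinearMap.det T = 1 := by
    rw [hT, map_mul, map_pow, hAdet, one_pow, hsdet, mul_one]
  have hac : a = c := by
    rw [hdet1] at hdetT
    have h3 := cube_one hF4 ha0
    have h4 := cube_one hF4 hc0
    linear_combination a * hdetT + c ^ 4 * h3 + c * h4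
  subst hac
  refine ⟨a, k, fun x => ?_⟩
  obtain ⟨w', hw', p, hp, q, hq, rfl⟩ := split hF4 hA hω x
  rw [map_add, map_add, hfix w' hw', hP p hp, hQ q hq, map_add, map_add,
    pow_apply_fixed (c := 1) (by rw [hw', one_smul] : A w' = (1 : F) • w'), one_pow, one_smul, smul_add, smul_add]

end Cfsg.Agent.Lib.Involution.UnitaryFive
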