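import Cfsg.Agent.S0303
import Cfsg.Agent.Lib.Classical.MinusDihedral
import Cfsg.Agent.Lib.Classical.QuadF2
import Cfsg.Agent.Lib.AutPSU.Count
import Cfsg.Agent.Lib.Involution.FischerPairAut

/-! The automorphism group of `PSU(4, 2)` is the orthogonal group of minus type in dimension six. -/

set_option autoImplicit false

namespace Cfsg.Agent.Lib.Involution.FischerTwentyTwo

open QuadraticMap
open Cfsg.Agent.Lib.Classical.Quad Cfsg.Agent.Lib.Classical.QuadOmega Cfsg.Agent.Lib.Classical.QuadF2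

/-- The orthogonal group of minus type in dimension six over the field with two elements. -/
abbrev OSix : Subgroup (GL ((Fin 2 ⊕ Fin 2) ⊕ Fin 2) (ZMod 2)) :=
  Cfsg.isometryGroup (ZMod 2) (Cfsg.quadFormMinus 2 (ZMod 2) 1 1)

theorem card_osix : Nat.card ↥OSix = 51840 := by
  rw [card_O_minus aniso_one_one, ZMod.card]
  norm_num [Finset.prod_range_succ]

theorem center_isoG_six : Subgroup.center ↥(isoG (minusQ 2 (1 : ZMod 2) 1)) = ⊥ := by
  set Q := minusQ 2 (1 : ZMod 2) 1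
  rw [Subgroup.eq_bot_iff_forall]
  intro g hg
  have hnd : Nd Q := nd_minusQ aniso_one_one 2
  have hfix : ∀ w, Q w ≠ 0 → g.1 w = w := by
    intro w hw
    have hgw : Q (g.1 w) ≠ 0 := by rwa [iso_Q]
    have hw0 : w ≠ 0 := fun e => hw (by rw [e, QuadraticMap.map_zero])
    obtain ⟨v, hv⟩ : ∃ v, polar Q v w ≠ 0 := by
      by_contra h
      push Not at h
      exact hw0 (hnd w fun y => by rw [polar_comm]; exact h y)
    have e : refl Q (g.1 w) = refl Q w := by
      rw [← refl_conj hw g, ← Subgroup.mem_center_iff.1 hg (refl Q w), mul_inv_cancel_right]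
    have h := congrArg (fun t : isoG Q => t.1 v) e
    simp only [refl_apply hw, refl_apply hgw, sub_right_inj, iso_Q] at h
    have h2 : ∀ c : ZMod 2, c ≠ 0 → c = 1 := by decide
    rw [h2 _ (div_ne_zero hv hw), one_smul] at h
    rw [h2 (polar Q v (g.1 w) / Q w) fun e' => hw0 (by rw [← h, e', zero_smul]), one_smul] at h
    exact h
  refine iso_ext fun v => ?_
  rw [Subgroup.coe_one]
  change g.1 v = v
  have hb : ∀ i, g.1 (Pi.single i 1) = (Pi.single i 1 : (Fin 2 ⊕ Fin 2) ⊕ Fin 2 → ZMod 2) := by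
    have hr : ∀ j : Fin 2, g.1 (Pi.single (Sum.inr j) 1) = (Pi.single (Sum.inr j) 1 : (Fin 2 ⊕ Fin 2) ⊕ Fin 2 → ZMod 2) :=
      fun j => hfix _ (by rw [minusQ_apply]; revert j; decide)
    rintro (i | j)
    · have h := hfix (Pi.single (Sum.inl i) 1 + Pi.single (Sum.inr 0) 1) (by rw [minusQ_apply]; revert i; decide)
      rwa [map_add, hr, add_left_inj] at h
    · exact hr j
  have : (g.1 : ((Fin 2 ⊕ Fin 2) ⊕ Fin 2 → ZMod 2) →ₗ[ZMod 2] _) = LinearMap.id :=
    (Pi.basisFun (ZMod 2) _).ext fun i => by simpa using hb i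
  exact LinearMap.congr_fun this v

theorem center_osix : Subgroup.center ↥OSix = ⊥ := by
  obtain ⟨e⟩ := isometryGroup_equiv (Cfsg.quadFormMinus 2 (ZMod 2) 1 1)
    (Q := minusQ 2 (1 : ZMod 2) 1) (LinearEquiv.refl _ _) fun v => (minusQ_apply 2 1 1 v).symm
  rw [Subgroup.eq_bot_iff_forall]
  intro g hg
  refine e.injective ?_
  rw [map_one]
  refine (Subgroup.eq_bot_iff_forall _).1 center_isoG_six _ (Subgroup.mem_center_iff.2 fun h => ?_)
  obtain ⟨k, rfl⟩ := e.surjective h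
  rw [← map_mul, ← map_mul, Subgroup.mem_center_iff.1 hg k]

theorem mulAut_psu_equiv_osix {F : Type} [Field F] [Fintype F] (hF4 : Fintype.card F = 4) :
    Nonempty (MulAut (Cfsg.PSU 4 F 2) ≃* ↥OSix) := by
  classical
  obtain ⟨e⟩ := Cfsg.Agent.S0303.result (F := ZMod 2) (K := F) (q := 2) (ZMod.card 2) (by rw [hF4]; norm_num) 1 1
    aniso_one_one
  set Ω : Subgroup ↥OSix := Cfsg.Omega (ZMod 2) (Cfsg.quadFormMinus 2 (ZMod 2) 1 1) with hΩ
  have hP : Nat.card (↥Ω ⧸ Subgroup.center ↥Ω) = 25920 := by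
    rw [← card_psu_four hF4]; exact Nat.card_congr e.toEquiv
  have h1 := Subgroup.card_mul_index Ω
  have h2 := Subgroup.card_eq_card_quotient_mul_card_subgroup (Subgroup.center ↥Ω)
  rw [card_osix] at h1
  rw [hP] at h2
  have hz : Nat.card ↥(Subgroup.center ↥Ω) = 1 ∧ Ω.index = 2 := by
    have hpos : 0 < Nat.card ↥(Subgroup.center ↥Ω) := Nat.card_pos
    rw [h2, mul_assoc] at h1
    have h3 : Nat.card ↥(Subgroup.center ↥Ω) * Ω.index = 2 := by omega
    rcases (Nat.dvd_prime Nat.prime_two).1 (Dvd.intro _ h3) with h | h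
    · exact ⟨h, by rw [h, one_mul] at h3; exact h3⟩
    · exfalso
      have hi : Ω.index = 1 := by rw [h] at h3; omega
      have htop := Subgroup.index_eq_one.1 hi
      have hall : ∀ x : ↥Ω, x ∈ Subgroup.center ↥Ω → x = 1 := by
        intro x hx
        refine Subtype.ext ((Subgroup.eq_bot_iff_forall _).1 center_osix _ (Subgroup.mem_center_iff.2 fun g => ?_))
        exact congrArg Subtype.val (Subgroup.mem_center_iff.1 hx ⟨g, htop ▸ Subgroup.mem_top g⟩)
      rw [(Subgroup.eq_bot_iff_forall _).2 hall, Subgroup.card_bot] at h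
      omega
  haveI : Ω.Normal := by rw [hΩ]; infer_instance
  set Φ : ↥OSix →* MulAut ↥Ω := MulAut.conjNormal
  have hinj : Function.Injective Φ := by
    rw [← MonoidHom.ker_eq_bot_iff]
    set K := Φ.ker
    have hKΩ : ∀ x ∈ K, x ∈ Ω → x = 1 := by
      intro x hx hxΩ
      have hc : (⟨x, hxΩ⟩ : ↥Ω) ∈ Subgroup.center ↥Ω := Subgroup.mem_center_iff.2 fun g => Subtype.ext (by
        have := congrArg (fun f : MulAut ↥Ω => ((f g : ↥Ω) : ↥OSix)) (MonoidHom.mem_ker.1 hx)
        simp only [Φ, MulAut.conjNormal_apply, MulAut.one_apply, mul_inv_eq_iff_eq_mul] at this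
        exact this.symm)
      rw [Subgroup.eq_bot_of_card_eq _ hz.1, Subgroup.mem_bot] at hc
      exact congrArg Subtype.val hc
    rw [Subgroup.eq_bot_iff_forall]
    intro x hx
    refine (Subgroup.eq_bot_iff_forall _).1 center_osix x (Subgroup.mem_center_iff.2 fun g => ?_)
    by_cases hxΩ : x ∈ Ω
    · rw [hKΩ x hx hxΩ]; simp
    have hy : g * x * g⁻¹ ∈ K := (MonoidHom.normal_ker Φ).conj_mem x hx g
    by_cases hyΩ : g * x * g⁻¹ ∈ Ω
    · exact absurd ((inferInstance : Ω.Normal).conj_mem _ hyΩ g⁻¹) (by simpa [mul_assoc] using hxΩ)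
    have hm : x⁻¹ * (g * x * g⁻¹) ∈ Ω :=
      (Subgroup.mul_mem_iff_of_index_two hz.2).2 (iff_of_false (by simpa using hxΩ) hyΩ)
    have := hKΩ _ (K.mul_mem (K.inv_mem hx) hy) hm
    exact mul_inv_eq_iff_eq_mul.1 (inv_mul_eq_one.1 this).symm
  have eΩ : ↥Ω ≃* Cfsg.PSU 4 F 2 :=
    ((QuotientGroup.quotientBot (G := ↥Ω)).symm.trans
      (QuotientGroup.quotientMulEquivOfEq (Subgroup.eq_bot_of_card_eq _ hz.1).symm)).trans e
  haveI : Fact (Nat.Prime 2) := ⟨Nat.prime_two⟩
  have hA := Cfsg.Agent.Lib.AutPSU.card_aut (n := 4) (q := 2) (F := F) (by rw [hF4]; norm_num) (by norm_num)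
    (by norm_num) (p := 2) (k := 1) le_rfl (by norm_num)
  change Nat.card (MulAut (Cfsg.PSU 4 F 2)) = _ * Nat.card (Cfsg.PSU 4 F 2) at hA
  rw [card_psu_four hF4] at hA
  norm_num at hA
  have hcard : Nat.card (MulAut ↥Ω) = 51840 := by rw [Nat.card_congr (MulAut.congr eΩ).toEquiv, hA]
  have hbij : Function.Bijective Φ :=
    (Nat.bijective_iff_injective_and_card Φ).2 ⟨hinj, by rw [card_osix, hcard]⟩
  exact ⟨(MulAut.congr eΩ).symm.trans (MulEquiv.ofBijective Φ hbij).symm⟩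

end Cfsg.Agent.Lib.Involution.FischerTwentyTwo
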