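import Cfsg.Agent.Lib.AutPSU.Space
import Cfsg.Agent.Lib.Involution.UnitaryPlane
import Cfsg.Agent.Lib.Classical.UnitarySimple

/-! In `PSU(6, 2)` the centralizer of a transvection maps onto `PSU(4, 2)`. -/

set_option autoImplicit false

namespace Cfsg.Agent.Lib.Involution.UnitaryPointQuot

open Matrix Cfsg.Agent.Lib.AutPSU Cfsg.Agent.Lib.Forms Cfsg.Agent.Lib.Classical
  Cfsg.Agent.Lib.Involution.UnitaryTransp

universe u

variable {F : Type u} [Field F] [Fintype F] (hF4 : Fintype.card F = 4)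

/-- An orthonormal family orthogonal to a pair. -/
structure Frame4 (e f : Fin 6 → F) (w : Fin 4 → Fin 6 → F) : Prop where
  pair : Pair 2 e f
  inW : ∀ i, InW 2 e f (w i)
  orth : ∀ i j, hm 2 (w i) (w j) = if i = j then 1 else 0

include hF4

theorem exists_pair_at {e : Fin 6 → F} (he : Valid 2 e) : ∃ f, Pair 2 e f := by
  obtain ⟨z, -, hz⟩ := exists_hm_one (card2 hF4) he.1
  obtain ⟨a, b, h⟩ := Cfsg.Agent.Lib.AutPSU.exists_partner (card2 hF4) he.2 (z := z) (by rw [hz]; exact one_ne_zero)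
  exact ⟨_, h⟩

theorem exists_frame4 {e f : Fin 6 → F} (HP : Pair 2 e f) : ∃ w, Frame4 e f w := by
  have hF := card2 hF4
  have step : ∀ k, k ≤ 4 → ∃ w : Fin k → Fin 6 → F, (∀ i, InW 2 e f (w i)) ∧
      ∀ i j, hm 2 (w i) (w j) = if i = j then 1 else 0 := by
    intro k
    induction k with
    | zero => intro _; exact ⟨Fin.elim0, fun i => i.elim0, fun i => i.elim0⟩
    | succ k ih =>
      intro hk
      obtain ⟨w, hw, ho⟩ := ih (by omega)
      set v : Fin (k + 2) → Fin 6 → F := Fin.cons e (Fin.cons f w) with hv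
      have hg : ∀ c : Fin (k + 2) → F, (∀ i, hm 2 (∑ j, c j • v j) (v i) = 0) → c = 0 := by
        intro c hc
        have hsum : ∀ y, hm 2 (∑ j, c j • v j) y =
            c 0 * hm 2 e y + (c 1 * hm 2 f y + ∑ j, c j.succ.succ * hm 2 (w j) y) := by
          intro y
          rw [hm, Fin.sum_univ_succ, Fin.sum_univ_succ, ← hm, hm_add_left, hm_add_left, hm_smul_left',
            hm_smul_left']
          have hs : ∀ s : Finset (Fin k), hm 2 (∑ j ∈ s, c j.succ.succ • w j) y = ∑ j ∈ s, c j.succ.succ * hm 2 (w j) y := by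
            intro s
            induction s using Finset.induction_on with
            | empty => simp [hm_zero_left]
            | insert a s has ih => rw [Finset.sum_insert has, Finset.sum_insert has, hm_add_left, hm_smul_left', ih]
          simp only [hv, Fin.cons_zero, Fin.cons_one, Fin.cons_succ, hs, Fin.succ_zero_eq_one]
        have h0 := hc 0
        have h1 := hc 1
        rw [hsum] at h0 h1
        simp only [hv, Fin.cons_zero, Fin.cons_one, Fin.cons_succ, HP.ee, HP.fe, HP.ef, HP.ff, (hw _).1,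
          (hw _).2, mul_zero, mul_one, zero_add, add_zero, Finset.sum_const_zero] at h0 h1
        funext i
        refine Fin.cases h1 (fun i => Fin.cases h0 (fun i => ?_) i) i
        have h2 := hc i.succ.succ
        rw [hsum] at h2
        simpa only [hv, Fin.cons_succ, ((hw i).swap hF).1, ((hw i).swap hF).2, ho, mul_zero, zero_add, mul_ite,
          mul_one, Finset.sum_ite_eq', Finset.mem_univ, if_true, Pi.zero_apply] using h2
      obtain ⟨u, hu, hu0⟩ := (gram_span hF4 v (by omega) hg).2 (by omega)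
      refine ⟨Fin.cons u w, fun i => ?_, fun i j => ?_⟩
      · induction i using Fin.cases with
        | zero =>
          exact ⟨by simpa [hv] using hu0 0, by simpa [hv] using hu0 1⟩
        | succ i => simpa using hw i
      · induction i using Fin.cases with
        | zero =>
          induction j using Fin.cases with
          | zero => simpa using hu
          | succ j => simpa [hv, (Fin.succ_ne_zero j).symm] using hu0 j.succ.succ
        | succ i =>
          induction j using Fin.cases with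
          | zero => simpa [hv] using hm_comm_zero hF (hu0 i.succ.succ)
          | succ j => simpa using ho i j
  obtain ⟨w, hw, ho⟩ := step 4 le_rfl
  exact ⟨w, HP, hw, ho⟩

variable {e f : Fin 6 → F} {w : Fin 4 → Fin 6 → F}

omit hF4 in
/-- The embedding of the four-dimensional space. -/
def io (w : Fin 4 → Fin 6 → F) (x : Fin 4 → F) : Fin 6 → F :=
  x 0 • w 0 + x 1 • w 1 + x 2 • w 2 + x 3 • w 3

omit hF4 in
/-- The coordinates in the four-dimensional space. -/
def co (w : Fin 4 → Fin 6 → F) (z : Fin 6 → F) : Fin 4 → F := fun i => hm 2 z (w i)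

theorem io_InW (H : Frame4 e f w) (x : Fin 4 → F) : InW 2 e f (io w x) :=
  ((((H.inW 0).smul _).add ((H.inW 1).smul _)).add ((H.inW 2).smul _)).add ((H.inW 3).smul _)

theorem co_io (H : Frame4 e f w) (x : Fin 4 → F) : co w (io w x) = x := by
  funext i
  fin_cases i <;> simp [co, io, hm_add_left, hm_smul_left', H.orth]

theorem hm_io (H : Frame4 e f w) (x y : Fin 4 → F) : hm 2 (io w x) (io w y) = hm 2 x y := by
  simp [io, hm_add_left, hm_add_right (card2 hF4), hm_smul_left', hm_smul_right, H.orth]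
  simp [hm, Cfsg.hermForm, Fin.sum_univ_four, add_assoc, mul_comm]

theorem co_e (H : Frame4 e f w) : co w e = 0 := by
  funext i; exact ((H.inW i).swap (card2 hF4)).1

omit hF4 in
theorem co_add (a b : Fin 6 → F) : co w (a + b) = co w a + co w b := by
  funext i; exact hm_add_left _ _ _

omit hF4 in
theorem co_smul (t : F) (a : Fin 6 → F) : co w (t • a) = t • co w a := by
  funext i; exact hm_smul_left' _ _ _

theorem io_co (H : Frame4 e f w) {z : Fin 6 → F} (hz : InW 2 e f z) : io w (co w z) = z := by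
  have hF := card2 hF4
  set v : Fin 6 → Fin 6 → F := ![e, f, w 0, w 1, w 2, w 3] with hv
  have hg : ∀ c : Fin 6 → F, (∀ i, hm 2 (∑ j, c j • v j) (v i) = 0) → c = 0 := by
    intro c hc
    have key : ∀ i : Fin 6, hm 2 (c 0 • e + c 1 • f + io w ![c 2, c 3, c 4, c 5]) (v i) = 0 := by
      intro i
      refine Eq.trans ?_ (hc i)
      congr 1
      simp [hv, io, Fin.sum_univ_six, add_assoc]
    have hw' := fun i => (H.inW i).swap hF
    funext i
    have h0 := key 0; have h1 := key 1; have h2 := key 2; have h3 := key 3; have h4 := key 4; have h5 := key 5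
    simp [hv, io, hm_add_left, hm_smul_left', H.pair.ee, H.pair.ef, H.pair.fe, H.pair.ff, (hw' _).1, (hw' _).2,
      (H.inW _).1, (H.inW _).2, H.orth] at h0 h1 h2 h3 h4 h5
    fin_cases i <;> assumption
  have htop := (gram_span hF4 v le_rfl hg).1
  have hspan : Submodule.span F (Set.range v) = ⊤ := by
    refine Submodule.eq_top_of_finrank_eq ?_
    rw [finrank_span_eq_card htop, Module.finrank_fintype_fun_eq_card]
  set d := io w (co w z) + z with hd
  have hdW : InW 2 e f d := (io_InW hF4 H _).add hz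
  have hd0 : ∀ i, hm 2 d (w i) = 0 := by
    intro i
    have h := congrFun (co_io hF4 H (co w z)) i
    rw [co] at h
    rw [hd, hm_add_left, h, co, add_self hF4]
  have hdz : d = 0 := by
    refine eq_zero_of_hm hF fun y => hm_comm_zero hF ?_
    have hy : y ∈ Submodule.span F (Set.range v) := by rw [hspan]; trivial
    induction hy using Submodule.span_induction with
    | mem y hy =>
      obtain ⟨i, rfl⟩ := hy
      fin_cases i
      exacts [hdW.1, hdW.2, hd0 0, hd0 1, hd0 2, hd0 3]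
    | zero => exact hm_zero_right hF _
    | add a b _ _ ha hb => rw [hm_add_right hF, ha, hb, add_zero]
    | smul t a _ ha => rw [hm_smul_right, ha, mul_zero]
  haveI := charTwo hF4
  exact funext fun i => CharTwo.add_eq_zero.1 (congrFun hdz i)

theorem co_eq_io (H : Frame4 e f w) {z : Fin 6 → F} (hz : hm 2 z e = 0) :
    z = hm 2 z f • e + io w (co w z) := by
  have h := decomp (q := 2) e f z
  rw [hz, zero_smul, add_zero] at h
  have h2 : co w z = co w (proj 2 e f z) := by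
    conv_lhs => rw [h, co_add, co_smul, co_e hF4 H, smul_zero, zero_add]
  rw [h2, io_co hF4 H (proj_mem H.pair z)]
  exact h

omit hF4 in
/-- The lifts fixing the point of `e`. -/
def stab (e : Fin 6 → F) : Set (S 6 F 2) := {s | ∃ t : F, t ≠ 0 ∧ mat s *ᵥ e = t • e}

omit hF4 in
/-- The matrix on the four-dimensional space. -/
noncomputable def A4 (w : Fin 4 → Fin 6 → F) (s : S 6 F 2) : Matrix (Fin 4) (Fin 4) F :=
  Matrix.of fun i j => co w (mat s *ᵥ w j) i

theorem A4_mulVec (s : S 6 F 2) (x : Fin 4 → F) : A4 w s *ᵥ x = co w (mat s *ᵥ io w x) := by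
  funext i
  simp only [A4, mulVec, dotProduct, Matrix.of_apply, Fin.sum_univ_four]
  simp only [io, co, mulVec_add, mulVec_smul, hm_add_left, hm_smul_left']
  ring

theorem hm_e {s : S 6 F 2} (hs : s ∈ stab e) {z : Fin 6 → F} (hz : hm 2 z e = 0) : hm 2 (mat s *ᵥ z) e = 0 := by
  obtain ⟨t, ht, hse⟩ := hs
  have h := iso s z e
  rw [hse, hz, hm_smul_right] at h
  exact (mul_eq_zero.1 h).resolve_left (pow_ne_zero _ ht)

theorem A4_mul (H : Frame4 e f w) {s : S 6 F 2} (hs : s ∈ stab e) {s' : S 6 F 2} (hs' : s' ∈ stab e) :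
    A4 w (s * s') = A4 w s * A4 w s' := by
  refine Matrix.ext_iff_mulVec.2 fun x => ?_
  rw [← mulVec_mulVec, A4_mulVec hF4, A4_mulVec hF4, A4_mulVec hF4, mat_mul, ← mulVec_mulVec]
  conv_lhs => rw [co_eq_io hF4 H (hm_e hF4 hs' (io_InW hF4 H x).1)]
  obtain ⟨t, ht, hse⟩ := hs
  rw [mulVec_add, mulVec_smul, hse, co_add, co_smul, co_smul, co_e hF4 H, smul_zero, smul_zero, zero_add]

theorem A4_iso (H : Frame4 e f w) {s : S 6 F 2} (hs : s ∈ stab e) (x y : Fin 4 → F) :
    hm 2 (A4 w s *ᵥ x) (A4 w s *ᵥ y) = hm 2 x y := by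
  have hF := card2 hF4
  rw [A4_mulVec hF4, A4_mulVec hF4, ← hm_io hF4 H, ← hm_io hF4 H x y, ← iso s (io w x) (io w y)]
  conv_rhs => rw [co_eq_io hF4 H (hm_e hF4 hs (io_InW hF4 H x).1), co_eq_io hF4 H (hm_e hF4 hs (io_InW hF4 H y).1)]
  simp only [hm_add_left, hm_add_right hF, hm_smul_left', hm_smul_right, H.pair.ee, (io_InW hF4 H _).1,
    ((io_InW hF4 H _).swap hF).1, mul_zero, zero_add, add_zero]

theorem stab_mul {s s' : S 6 F 2} (hs : s ∈ stab e) (hs' : s' ∈ stab e) : s * s' ∈ stab e := by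
  obtain ⟨t, ht, h⟩ := hs
  obtain ⟨t', ht', h'⟩ := hs'
  exact ⟨t' * t, mul_ne_zero ht' ht, by rw [mat_mul, ← mulVec_mulVec, h', mulVec_smul, h, smul_smul]⟩

theorem one_mem_stab : (1 : S 6 F 2) ∈ stab e := ⟨1, one_ne_zero, by rw [mat_one, one_mulVec, one_smul]⟩

theorem inv_mem_stab {s : S 6 F 2} (hs : s ∈ stab e) : s⁻¹ ∈ stab e := by
  obtain ⟨t, ht, h⟩ := hs
  exact ⟨t⁻¹, inv_ne_zero ht, mulVec_inv_of_fix s ht h⟩

theorem A4_one (H : Frame4 e f w) : A4 w (1 : S 6 F 2) = 1 :=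
  Matrix.ext_iff_mulVec.2 fun x => by rw [A4_mulVec hF4, mat_one, one_mulVec, co_io hF4 H, one_mulVec]

theorem A4_det_ne (H : Frame4 e f w) {s : S 6 F 2} (hs : s ∈ stab e) : (A4 w s).det ≠ 0 := by
  intro h
  have := congrArg Matrix.det (A4_mul hF4 H hs (inv_mem_stab hF4 hs))
  rw [mul_inv_cancel, A4_one hF4 H, det_one, det_mul, h, zero_mul] at this
  exact one_ne_zero this

theorem exists_S4 (H : Frame4 e f w) {s : S 6 F 2} (hs : s ∈ stab e) :
    ∃ r : S 4 F 2, mat r = ((A4 w s).det)⁻¹ • A4 w s := by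
  have hd := A4_det_ne hF4 H hs
  have h3 : ((A4 w s).det)⁻¹ ^ 3 = 1 := pow_three hF4 (inv_ne_zero hd)
  have hdet : (((A4 w s).det)⁻¹ • A4 w s).det = 1 := by
    rw [det_smul, Fintype.card_fin, pow_succ, h3, one_mul, inv_mul_cancel₀ hd]
  refine ⟨⟨⟨_, hdet⟩, fun x y => ?_⟩, rfl⟩
  show hm 2 ((((A4 w s).det)⁻¹ • A4 w s) *ᵥ x) ((((A4 w s).det)⁻¹ • A4 w s) *ᵥ y) = hm 2 x y
  rw [smul_mulVec, smul_mulVec, hm_smul_left', hm_smul_right, A4_iso hF4 H hs, ← mul_assoc, ← pow_succ', h3, one_mul]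

/-- The image in `PSU(4, 2)`. -/
noncomputable def psi (H : Frame4 e f w) (s : S 6 F 2) (hs : s ∈ stab e) : P 4 F 2 :=
  pr (Classical.choose (exists_S4 hF4 H hs))

theorem psi_spec (H : Frame4 e f w) {s : S 6 F 2} (hs : s ∈ stab e) {r : S 4 F 2}
    (hr : mat r = ((A4 w s).det)⁻¹ • A4 w s) : psi hF4 H s hs = pr r :=
  congrArg _ (mat_ext ((Classical.choose_spec (exists_S4 hF4 H hs)).trans hr.symm))

theorem psi_mul (H : Frame4 e f w) {s s' : S 6 F 2} (hs : s ∈ stab e) (hs' : s' ∈ stab e) :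
    psi hF4 H (s * s') (stab_mul hF4 hs hs') = psi hF4 H s hs * psi hF4 H s' hs' := by
  obtain ⟨r, hr⟩ := exists_S4 hF4 H hs
  obtain ⟨r', hr'⟩ := exists_S4 hF4 H hs'
  rw [psi_spec hF4 H hs hr, psi_spec hF4 H hs' hr', ← map_mul]
  refine psi_spec hF4 H _ ?_
  rw [mat_mul, hr, hr', A4_mul hF4 H hs hs', det_mul, mul_inv, Matrix.smul_mul, Matrix.mul_smul, smul_smul]

theorem eq_one_of_fix_points {z : P 4 F 2} {r : S 4 F 2} (hz : pr r = z)
    (h : ∀ v, Valid 2 v → ∃ t : F, t ≠ 0 ∧ mat r *ᵥ v = t • v) : z = 1 := by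
  have hF := card2 hF4
  haveI := UnitarySimple.isSimpleGroup_PSU hF (n := 4) (by norm_num) (by norm_num)
  have hcomm : ∀ v, Valid 2 v → z * τ hF4 v = τ hF4 v * z := by
    intro v hv
    obtain ⟨t, ht, htv⟩ := h v hv
    have := tr_conj hF hv.2 (skew_one hF4) r
    rw [htv, tr_smul hF hv.2 t (skew_one hF4)] at this
    rw [← hz]
    change pr r * tr hF v 1 = tr hF v 1 * pr r
    refine mul_inv_eq_iff_eq_mul.1 (this.trans ?_)
    rw [one_mul, show t * t ^ 2 = 1 by rw [← pow_succ', pow_three hF4 ht]]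
  set N := Subgroup.centralizer ({z} : Set (P 4 F 2)) with hN
  obtain ⟨e₀, f₀, HP₀⟩ := exists_pair hF (n := 4) (by norm_num)
  have hcl : Subgroup.closure {x | ∃ v : Fin 4 → F, Valid 2 v ∧ x = τ hF4 v} = ⊤ := by
    have hn : (Subgroup.closure {x | ∃ v : Fin 4 → F, Valid 2 v ∧ x = τ hF4 v}).Normal := by
      refine ⟨fun x hx g => ?_⟩
      induction hx using Subgroup.closure_induction with
      | mem x hx =>
        obtain ⟨v, hv, rfl⟩ := hx
        obtain ⟨s, rfl⟩ := pr_surjective g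
        refine Subgroup.subset_closure ⟨mat s *ᵥ v, ⟨mulVec_ne_zero s hv.1, by rw [iso, hv.2]⟩, ?_⟩
        exact tr_conj hF hv.2 (skew_one hF4) s
      | one => simp
      | mul a b _ _ iha ihb =>
        rw [show g * (a * b) * g⁻¹ = g * a * g⁻¹ * (g * b * g⁻¹) by group]; exact mul_mem iha ihb
      | inv a _ iha => rw [show g * a⁻¹ * g⁻¹ = (g * a * g⁻¹)⁻¹ by group]; exact inv_mem iha
    refine (hn.eq_bot_or_eq_top).resolve_left fun hb => ?_
    have : τ hF4 e₀ ∈ (⊥ : Subgroup (P 4 F 2)) := hb ▸ Subgroup.subset_closure ⟨e₀, HP₀.valid_e, rfl⟩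
    exact tr_ne_one hF (by norm_num) HP₀.valid_e (skew_one hF4) one_ne_zero (Subgroup.mem_bot.1 this)
  have hzc : z ∈ Subgroup.center (P 4 F 2) := by
    rw [Subgroup.mem_center_iff]
    intro g
    have hg : g ∈ N := by
      have hle : Subgroup.closure {x | ∃ v : Fin 4 → F, Valid 2 v ∧ x = τ hF4 v} ≤ N :=
        (Subgroup.closure_le _).2 fun x ⟨v, hv, hx⟩ =>
          Subgroup.mem_centralizer_singleton_iff.2 (hx ▸ (hcomm v hv).symm)
      exact hle (hcl.symm ▸ Subgroup.mem_top g)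
    exact Subgroup.mem_centralizer_singleton_iff.1 hg
  rcases (inferInstance : (Subgroup.center (P 4 F 2)).Normal).eq_bot_or_eq_top with hb | hb
  · rw [hb] at hzc; exact Subgroup.mem_bot.1 hzc
  · exfalso
    have hv1 : Valid 2 e₀ := HP₀.valid_e
    have hv2 : Valid 2 f₀ := HP₀.valid_f
    have hc : Commute (tr hF e₀ (1 : F)) (tr hF f₀ 1) :=
      ((Subgroup.mem_center_iff.1 (hb ▸ Subgroup.mem_top (tr hF e₀ (1 : F)))) (tr hF f₀ 1)).symm
    have := (UnitaryTransp.commute_iff hF4 (show 1 ≤ 4 by norm_num) hv1 hv2).1 hc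
    rw [HP₀.fe] at this
    exact one_ne_zero this

theorem psi_congr (H : Frame4 e f w) {s s' : S 6 F 2} (hs : s ∈ stab e) (hs' : s' ∈ stab e) (h : pr s = pr s') :
    psi hF4 H s hs = psi hF4 H s' hs' := by
  have hF := card2 hF4
  have hz : pr (s⁻¹ * s') = (1 : P 6 F 2) := by rw [map_mul, map_inv, h, inv_mul_cancel]
  set z := s⁻¹ * s'
  have hzs : z ∈ stab e := stab_mul hF4 (inv_mem_stab hF4 hs) hs'
  suffices hz1 : psi hF4 H z hzs = 1 by
    have := psi_mul hF4 H hs hzs
    rw [hz1, mul_one] at this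
    rw [← this]
    congr 1
    rw [mul_inv_cancel_left]
  obtain ⟨r, hr⟩ := exists_S4 hF4 H hzs
  rw [psi_spec hF4 H hzs hr]
  refine eq_one_of_fix_points hF4 rfl fun v hv => ?_
  have hv6 : Valid 2 (io w v) := ⟨fun e0 => hv.1 (by
    rw [← co_io hF4 H v, e0]; funext i; exact hm_zero_left _), by rw [hm_io hF4 H]; exact hv.2⟩
  obtain ⟨t, ht, htv⟩ := fixes_of_commute hF (by norm_num) hv6 (skew_one hF4) one_ne_zero (s := z)
    (by rw [hz]; exact Commute.one_left _)
  refine ⟨((A4 w z).det)⁻¹ * t, mul_ne_zero (inv_ne_zero (A4_det_ne hF4 H hzs)) ht, ?_⟩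
  rw [hr, smul_mulVec, A4_mulVec hF4, htv, co_smul, co_io hF4 H, smul_smul]

theorem exists_lift (H : Frame4 e f w) {z : P 6 F 2} (hz : z ∈ Subgroup.centralizer ({τ hF4 e} : Set (P 6 F 2))) :
    ∃ s, pr s = z ∧ s ∈ stab e := by
  obtain ⟨s, rfl⟩ := pr_surjective z
  exact ⟨s, rfl, fixes_of_commute (card2 hF4) (by norm_num) H.pair.valid_e (skew_one hF4) one_ne_zero
    (Subgroup.mem_centralizer_singleton_iff.1 hz)⟩

/-- The map of the centralizer of a transvection onto `PSU(4, 2)`. -/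
noncomputable def quotHom (H : Frame4 e f w) : ↥(Subgroup.centralizer ({τ hF4 e} : Set (P 6 F 2))) →* P 4 F 2 :=
  MonoidHom.mk' (fun z => psi hF4 H (Classical.choose (exists_lift hF4 H z.2))
      (Classical.choose_spec (exists_lift hF4 H z.2)).2) fun a b => by
    rw [← psi_mul hF4 H]
    refine psi_congr hF4 H _ _ ?_
    rw [map_mul, (Classical.choose_spec (exists_lift hF4 H a.2)).1, (Classical.choose_spec (exists_lift hF4 H b.2)).1,
      (Classical.choose_spec (exists_lift hF4 H (a * b).2)).1]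
    rfl

theorem quotHom_eq (H : Frame4 e f w) {z : P 6 F 2} (hz : z ∈ Subgroup.centralizer ({τ hF4 e} : Set (P 6 F 2)))
    {s : S 6 F 2} (hs : s ∈ stab e) (h : pr s = z) : quotHom hF4 H ⟨z, hz⟩ = psi hF4 H s hs :=
  psi_congr hF4 H (Classical.choose_spec (exists_lift hF4 H hz)).2 hs ((Classical.choose_spec (exists_lift hF4 H hz)).1.trans h.symm)

theorem quotHom_tau (H : Frame4 e f w) {v : Fin 6 → F} (hv : Valid 2 v) (hve : hm 2 v e = 0)
    (hz : τ hF4 v ∈ Subgroup.centralizer ({τ hF4 e} : Set (P 6 F 2))) :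
    (co w v = 0 ∧ quotHom hF4 H ⟨_, hz⟩ = 1) ∨
      (Valid 2 (co w v) ∧ quotHom hF4 H ⟨_, hz⟩ = τ hF4 (co w v)) := by
  have hF := card2 hF4
  have hs : T hF v (1 : F) ∈ stab e := ⟨1, one_ne_zero, by
    rw [T_apply hF4 hv.2, hm_comm_zero hF hve, zero_smul, add_zero, one_smul]⟩
  rw [quotHom_eq hF4 H hz hs rfl]
  have hA : ∀ x, A4 w (T hF v (1 : F)) *ᵥ x = x + hm 2 x (co w v) • co w v := by
    intro x
    rw [A4_mulVec hF4, T_apply hF4 hv.2, co_add, co_io hF4 H, co_smul]
    congr 2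
    conv_lhs => rw [co_eq_io hF4 H hve]
    rw [hm_add_right hF, hm_smul_right, (io_InW hF4 H x).1, mul_zero, zero_add, hm_io hF4 H]
  rcases eq_or_ne (co w v) 0 with h0 | h0
  · refine Or.inl ⟨h0, ?_⟩
    have hA1 : A4 w (T hF v (1 : F)) = 1 := Matrix.ext_iff_mulVec.2 fun x => by
      rw [hA, h0, smul_zero, add_zero, one_mulVec]
    rw [psi_spec hF4 H hs (r := 1) (by rw [hA1, det_one, inv_one, one_smul, mat_one]), map_one]
  · have hv' : Valid 2 (co w v) := ⟨h0, by
      have h : hm 2 v v = 0 := hv.2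
      rw [co_eq_io hF4 H hve] at h
      simpa only [hm_add_left, hm_add_right hF, hm_smul_left', hm_smul_right, H.pair.ee, (io_InW hF4 H _).1,
        ((io_InW hF4 H _).swap hF).1, mul_zero, zero_add, add_zero, hm_io hF4 H] using h⟩
    refine Or.inr ⟨hv', ?_⟩
    have hA1 : A4 w (T hF v (1 : F)) = mat (T hF (co w v) (1 : F)) := Matrix.ext_iff_mulVec.2 fun x => by
      rw [hA, T_apply hF4 hv'.2]
    have hd : (A4 w (T hF v (1 : F))).det = 1 := by
      rw [hA1]; exact (T hF (co w v) (1 : F)).1.2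
    exact psi_spec hF4 H hs (by rw [hd, inv_one, one_smul, hA1])

theorem quotHom_surjective (H : Frame4 e f w) : Function.Surjective (quotHom hF4 H) := by
  have hF := card2 hF4
  haveI := UnitarySimple.isSimpleGroup_PSU hF (n := 4) (by norm_num) (by norm_num)
  have himg : ∀ x : Fin 4 → F, Valid 2 x → τ hF4 x ∈ (quotHom hF4 H).range := by
    intro x hx
    have hv : Valid 2 (io w x) := ⟨fun e0 => hx.1 (by
      rw [← co_io hF4 H x, e0]; funext i; exact hm_zero_left _), by rw [hm_io hF4 H]; exact hx.2⟩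
    have hve : hm 2 (io w x) e = 0 := (io_InW hF4 H x).1
    have hz : τ hF4 (io w x) ∈ Subgroup.centralizer ({τ hF4 e} : Set (P 6 F 2)) :=
      Subgroup.mem_centralizer_singleton_iff.2
        ((UnitaryTransp.commute_iff hF4 (show 1 ≤ 6 by norm_num) hv H.pair.valid_e).2 (hm_comm_zero hF hve)).eq
    rcases quotHom_tau hF4 H hv hve hz with ⟨h, -⟩ | ⟨-, h⟩
    · rw [co_io hF4 H] at h; exact absurd h hx.1
    · rw [co_io hF4 H] at h; exact ⟨_, h⟩
  set R := Subgroup.closure {g : P 4 F 2 | ∃ v, Valid 2 v ∧ g = τ hF4 v}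
  have hR : R ≤ (quotHom hF4 H).range := (Subgroup.closure_le _).2 fun g ⟨v, hv, hg⟩ => hg ▸ himg v hv
  have hn : R.Normal := by
    refine ⟨fun x hx g => ?_⟩
    induction hx using Subgroup.closure_induction with
    | mem x hx =>
      obtain ⟨v, hv, rfl⟩ := hx
      obtain ⟨s, rfl⟩ := pr_surjective g
      refine Subgroup.subset_closure ⟨mat s *ᵥ v, ⟨mulVec_ne_zero s hv.1, by rw [iso, hv.2]⟩, ?_⟩
      exact tr_conj hF hv.2 (skew_one hF4) s
    | one => simp
    | mul a b _ _ iha ihb =>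
      rw [show g * (a * b) * g⁻¹ = g * a * g⁻¹ * (g * b * g⁻¹) by group]; exact mul_mem iha ihb
    | inv a _ iha => rw [show g * a⁻¹ * g⁻¹ = (g * a * g⁻¹)⁻¹ by group]; exact inv_mem iha
  intro y
  obtain ⟨e₀, f₀, HP₀⟩ := exists_pair hF (n := 4) (by norm_num)
  refine hR ((hn.eq_bot_or_eq_top.resolve_left fun hb => ?_).symm ▸ Subgroup.mem_top y)
  have : τ hF4 e₀ ∈ (⊥ : Subgroup (P 4 F 2)) := hb ▸ Subgroup.subset_closure ⟨e₀, HP₀.valid_e, rfl⟩
  exact tr_ne_one hF (by norm_num) HP₀.valid_e (skew_one hF4) one_ne_zero (Subgroup.mem_bot.1 this)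

theorem QG_le_ker (H : Frame4 e f w) {z : P 6 F 2} (hQ : z ∈ QG (card2 hF4) H.pair) :
    ∃ hz : z ∈ Subgroup.centralizer ({τ hF4 e} : Set (P 6 F 2)), quotHom hF4 H ⟨z, hz⟩ = 1 := by
  have hF := card2 hF4
  obtain ⟨x, c, hx, hc, rfl⟩ := hQ
  have hUe : mat (U hF e x c) *ᵥ e = e := U_apply_e hF H.pair hx hc
  have hs : U hF e x c ∈ stab e := ⟨1, one_ne_zero, by rw [hUe, one_smul]⟩
  have hz : pr (U hF e x c) ∈ Subgroup.centralizer ({τ hF4 e} : Set (P 6 F 2)) := by
    rw [Subgroup.mem_centralizer_singleton_iff]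
    have := tr_conj hF H.pair.ee (skew_one hF4) (U hF e x c)
    rw [hUe] at this
    exact mul_inv_eq_iff_eq_mul.1 this
  refine ⟨hz, ?_⟩
  rw [quotHom_eq hF4 H hz hs rfl]
  have hA1 : A4 w (U hF e x c) = 1 := Matrix.ext_iff_mulVec.2 fun y => by
    rw [A4_mulVec hF4, U_apply_w hF H.pair hx hc (io_InW hF4 H y), sub_eq_add_neg, co_add, co_io hF4 H,
      ← neg_smul, co_smul, co_e hF4 H, smul_zero, add_zero, one_mulVec]
  rw [psi_spec hF4 H hs (r := 1) (by rw [hA1, det_one, inv_one, one_smul, mat_one]), map_one]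

theorem card_QG (H : Frame4 e f w) : 512 ≤ Nat.card ↥(QG (card2 hF4) H.pair) := by
  classical
  have hF := card2 hF4
  haveI := charTwo hF4
  have h2 : ∀ x : Fin 4 → F, ∃ c, c + c ^ 2 = hm 2 x x := fun x => by
    obtain ⟨ω, -, -, hω, -⟩ := exists_other hF4
    rcases fixed_cases hF4 (hm_swap hF x x).symm with h | h
    · exact ⟨0, by rw [h]; simp⟩
    · exact ⟨ω, by rw [h, hω, ← add_assoc, CharTwo.add_self_eq_zero, zero_add]⟩
  choose c hc using h2
  have hcond : ∀ (x : Fin 4 → F) (b : Bool), Cond 2 (io w x) (c x + if b then 1 else 0) := by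
    intro x b
    rw [Cond, hm_io hF4 H, CharTwo.neg_eq, ← hc x]
    cases b
    · simp
    · rw [if_pos rfl, CharTwo.add_sq, one_pow]
      linear_combination (CharTwo.two_eq_zero (R := F))
  let g : (Fin 4 → F) × Bool → ↥(QG hF H.pair) := fun p =>
    ⟨pr (U hF e (io w p.1) (c p.1 + if p.2 then 1 else 0)), U_mem_QG hF H.pair (io_InW hF4 H _) (hcond _ _)⟩
  have hinj : Function.Injective g := by
    rintro ⟨x, b⟩ ⟨y, b'⟩ h
    have h' := eq_of_pr_eq hF (by norm_num) (U_nilpotent hF H.pair (io_InW hF4 H x) (hcond x b))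
      (U_nilpotent hF H.pair (io_InW hF4 H y) (hcond y b')) (congrArg Subtype.val h)
    obtain ⟨h1, h2⟩ := U_inj hF H.pair (io_InW hF4 H x) (io_InW hF4 H y) (hcond x b) (hcond y b') h'
    have hxy : x = y := by rw [← co_io hF4 H x, h1, co_io hF4 H]
    subst hxy
    cases b <;> cases b' <;> simp_all
  haveI : Finite (P 6 F 2) := inferInstance
  have := Nat.card_le_card_of_injective g hinj
  simpa [Nat.card_eq_fintype_card, hF4] using this

theorem QG_sq_comm (H : Frame4 e f w) {a b : P 6 F 2} (ha : a ∈ QG (card2 hF4) H.pair)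
    (hb : b ∈ QG (card2 hF4) H.pair) :
    (a * b * a⁻¹ * b⁻¹ = 1 ∨ a * b * a⁻¹ * b⁻¹ = τ hF4 e) ∧ (a ^ 2 = 1 ∨ a ^ 2 = τ hF4 e) := by
  have hF := card2 hF4
  haveI := charTwo hF4
  obtain ⟨x, c, hx, hc, rfl⟩ := ha
  obtain ⟨y, d, hy, hd, rfl⟩ := hb
  have hskew : ∀ k : F, Skew 2 k → (pr (U hF e 0 k) = (1 : P 6 F 2) ∨ pr (U hF e 0 k) = τ hF4 e) := by
    intro k hk
    rw [U_zero_eq_T hF H.pair hk]
    rcases fixed_cases hF4 (CharTwo.add_eq_zero.1 hk).symm with rfl | rfl
    · rw [T_zero hF H.pair.ee, map_one]; exact Or.inl rfl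
    · exact Or.inr rfl
  refine ⟨?_, ?_⟩
  · set k1 := c + d - hm 2 y x
    set k2 := d + c - hm 2 x y
    have e1 : pr (U hF e x c) * pr (U hF e y d) = (pr (U hF e (x + y) k1) : P 6 F 2) := by
      rw [← map_mul, U_mul hF H.pair hx hy hc hd]
    have e2 : pr (U hF e y d) * pr (U hF e x c) = (pr (U hF e (x + y) k2) : P 6 F 2) := by
      rw [← map_mul, U_mul hF H.pair hy hx hd hc, add_comm y x]
    have hk1 : Cond 2 (x + y) k1 := hc.mul hF hd
    have hk2 : Cond 2 (x + y) k2 := by have := hd.mul hF hc; rwa [add_comm y x] at this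
    have hk : Skew 2 (k1 + k2) := by
      unfold Cond at hk1 hk2; unfold Skew
      rw [CharTwo.add_sq]; linear_combination hk1 + hk2 + (CharTwo.two_eq_zero (R := F)) * (-hm 2 (x + y) (x + y))
    have e3 : (pr (U hF e (x + y) k1) : P 6 F 2) = pr (U hF e 0 (k1 + k2)) * pr (U hF e (x + y) k2) := by
      rw [← map_mul, U_mul hF H.pair (InW.zero e f) (hx.add hy) (Cond.skew hF hk) hk2, zero_add,
        hm_zero_right hF, sub_zero, add_assoc, CharTwo.add_self_eq_zero, add_zero]
    rw [show ∀ p q : P 6 F 2, p * q * p⁻¹ * q⁻¹ = p * q * (q * p)⁻¹ from fun p q => by group, e1, e2, e3,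
      mul_inv_cancel_right]
    exact hskew _ hk
  · rw [pow_two, ← map_mul, U_mul hF H.pair hx hx hc hc,
      show x + x = 0 from funext fun i => CharTwo.add_self_eq_zero _, CharTwo.add_self_eq_zero, zero_sub,
      CharTwo.neg_eq]
    refine hskew _ ?_
    rw [Skew, hm_self_fixed hF x, CharTwo.add_self_eq_zero]

end Cfsg.Agent.Lib.Involution.UnitaryPointQuot
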